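import Cfsg.Statements.S4425
import Cfsg.Agent.CT.PRegular

set_option autoImplicit false
open Cfsg

namespace Cfsg.Agent.S4425

/-- Let χ be an irreducible character of the finite group G, p a prime, p^a the p-part of the order of G and p^b the p-part of the degree χ(1). Let χ̃ be the class function equal to p^a · χ on p-regular elements and zero on p-singular elements. Then p^(−b) · χ̃ is a generalized character of G, while p^(−(b+1)) · χ̃ is not. -/
theorem result {G : Type*} [Group G] [Finite G] (p : ℕ) [Fact p.Prime] (χ : Cfsg.IrrCharacter G) : Cfsg.IsGeneralizedCharacter G (fun x : G => if p ∣ orderOf x then (0 : ℂ) else ((p ^ ((Nat.card G).factorization p - (Cfsg.charDegree (χ : G → ℂ)).factorization p) : ℕ) : ℂ) * (χ : G → ℂ) x) ∧ ¬ Cfsg.IsGeneralizedCharacter G (fun x : G => if p ∣ orderOf x then (0 : ℂ) else ((p ^ (Nat.card G).factorization p : ℕ) : ℂ) / ((p ^ ((Cfsg.charDegree (χ : G → ℂ)).factorization p + 1) : ℕ) : ℂ) * (χ : G → ℂ) x) := by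
  have hp : p.Prime := Fact.out
  constructor
  · rw [ite_eq_mul_pRegularPart]
    exact χ.isGeneralizedCharacter_defect_mul_pRegularPart p
  · intro h
    obtain ⟨k, hk⟩ := h.exists_one_eq_of_vanish (p := p) (fun g hg ⟨k, hk⟩ => if_pos (by
      rw [hk]
      refine dvd_pow_self p ?_
      rintro rfl
      exact hg (orderOf_eq_one_iff.1 (by simpa using hk))))
    rw [if_neg (by rw [orderOf_one]; exact hp.not_dvd_one), χ.one_eq_charDegree] at hk
    have h1 : ((p ^ (Nat.card G).factorization p : ℕ) : ℂ) ≠ 0 :=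
      Nat.cast_ne_zero.2 (pow_ne_zero _ hp.ne_zero)
    have h2 : ((p ^ ((charDegree χ.1).factorization p + 1) : ℕ) : ℂ) ≠ 0 :=
      Nat.cast_ne_zero.2 (pow_ne_zero _ hp.ne_zero)
    have h3 : (charDegree χ.1 : ℂ) = ((p ^ ((charDegree χ.1).factorization p + 1) : ℕ) : ℂ) * k := by
      field_simp at hk
      linear_combination hk
    have h4 : (charDegree χ.1 : ℤ) = ((p ^ ((charDegree χ.1).factorization p + 1) : ℕ) : ℤ) * k := by
      exact_mod_cast h3
    have h5 : p ^ ((charDegree χ.1).factorization p + 1) ∣ charDegree χ.1 :=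
      Int.natCast_dvd_natCast.1 ⟨k, h4⟩
    exact Nat.pow_succ_factorization_not_dvd χ.charDegree_pos.ne' hp h5

end Cfsg.Agent.S4425
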