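import Cfsg.Statements.S4426
import Cfsg.Agent.Blk.Kappa

set_option autoImplicit false
open Cfsg

namespace Cfsg.Agent.S4426

/-- Let χ be an irreducible character in the p-block B of the finite group G (relative to a maximal ideal M of the algebraic integers containing p), let p^a be the p-part of the order of G, and let χ̃ be the class function equal to p^a · χ on p-regular elements and zero elsewhere. For ξ ∈ B the inner product [χ̃, ξ] is an integer. The following are equivalent: (a) χ has height zero in B; (b) for some ξ ∈ B the integer [χ̃, ξ] is nonzero and the exact power of p dividing it equals the exact power of p dividing ξ(1); (c) the same holds for every ξ ∈ B. -/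
theorem result {G : Type*} [Group G] [Fintype G] (p : ℕ) [Fact p.Prime] (M : Ideal Cfsg.AlgInt) (hM : Cfsg.IsPModular p M) (B : Set (Cfsg.IrrCharacter G)) (hB : Cfsg.IsPBlock M B) (χ : Cfsg.IrrCharacter G) (hχ : χ ∈ B) : (Cfsg.blockHeight p B (χ : G → ℂ) = 0 ↔ ∃ ξ ∈ B, ∃ n : ℤ, Cfsg.classInner (fun x : G => if p ∣ orderOf x then (0 : ℂ) else ((p ^ (Nat.card G).factorization p : ℕ) : ℂ) * (χ : G → ℂ) x) (ξ : G → ℂ) = (n : ℂ) ∧ n ≠ 0 ∧ padicValInt p n = (Cfsg.charDegree (ξ : G → ℂ)).factorization p) ∧ (Cfsg.blockHeight p B (χ : G → ℂ) = 0 ↔ ∀ ξ ∈ B, ∃ n : ℤ, Cfsg.classInner (fun x : G => if p ∣ orderOf x then (0 : ℂ) else ((p ^ (Nat.card G).factorization p : ℕ) : ℂ) * (χ : G → ℂ) x) (ξ : G → ℂ) = (n : ℂ) ∧ n ≠ 0 ∧ padicValInt p n = (Cfsg.charDegree (ξ : G → ℂ)).factorization p) := by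
  have hp : p.Prime := Fact.out
  rw [ite_eq_mul_pRegularPart]
  simp only [classInner_const_mul_left]
  have key : ∀ ξ ∈ B, blockHeight p B χ.1 = 0 ↔ ∃ n : ℤ,
      ((p ^ (Nat.card G).factorization p : ℕ) : ℂ) * classInner (pRegularPart p χ.1) ξ.1 = (n : ℂ) ∧
        n ≠ 0 ∧ padicValInt p n = (charDegree ξ.1).factorization p := by
    intro ξ hξ
    rw [← hB.red_kappa_pRegularPart_ne_zero_iff hM hχ hξ, red_ne_zero_iff, ← kappa_mul_one]
    have hv : valM M (ξ.1 1) = valM M (p : ℂ) ^ (charDegree ξ.1).factorization p := by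
      rw [ξ.one_eq_charDegree, hM.valM_natCast ξ.charDegree_pos.ne']
    constructor
    · intro h
      obtain ⟨n, hn, -⟩ := χ.exists_int_classInner_pRegularPart p
        ξ.isCharacter.isGeneralizedCharacter
      rw [← kappa_mul_one] at hn
      have h1 : valM M (n : ℂ) = valM M (p : ℂ) ^ (charDegree ξ.1).factorization p := by
        rw [← hn, map_mul, h, one_mul, hv]
      have h2 : n ≠ 0 := by
        rintro rfl
        rw [Int.cast_zero, map_zero] at h1
        exact (pow_pos hM.valM_p_pos _).ne h1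
      rw [hM.valM_intCast h2] at h1
      exact ⟨n, hn, h2,
        le_antisymm (hM.valM_p_pow_le_iff.1 h1.ge) (hM.valM_p_pow_le_iff.1 h1.le)⟩
    · rintro ⟨n, hn, h2, h3⟩
      have h1 := congrArg (valM M) hn
      rw [map_mul, hM.valM_intCast h2, h3, hv] at h1
      exact (mul_eq_right₀ (pow_pos hM.valM_p_pos _).ne').1 h1
  refine ⟨⟨fun h => ⟨χ, hχ, (key χ hχ).1 h⟩, fun ⟨ξ, hξ, h⟩ => (key ξ hξ).2 h⟩,
    ⟨fun h ξ hξ => (key ξ hξ).1 h, fun h => (key χ hχ).2 (h χ hχ)⟩⟩

end Cfsg.Agent.S4426
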