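import Cfsg.Statements.S4427
import Cfsg.Agent.Mod.ProjCover
import Cfsg.Agent.CT.Kernel
import Cfsg.Agent.Grp.Basic


set_option autoImplicit false
open Cfsg

namespace Cfsg.Agent.S4427

open scoped ComplexConjugate


/-- Let G be a finite group of order p^a · q^b · r^c with p, q, r distinct primes, and suppose that G has exactly q^b · r^c elements of order not divisible by p. Then G has a normal p-complement: a normal subgroup of order q^b · r^c. -/
theorem result {G : Type*} [Group G] [Finite G] (p q r a b c : ℕ) (hp : p.Prime) (hq : q.Prime) (hr : r.Prime) (hpq : p ≠ q) (hpr : p ≠ r) (hqr : q ≠ r) (hG : Nat.card G = p ^ a * q ^ b * r ^ c) (hcount : Nat.card {g : G // ¬ p ∣ orderOf g} = q ^ b * r ^ c) : ∃ N : Subgroup G, N.Normal ∧ Nat.card N = q ^ b * r ^ c := by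
  classical
  haveI := Fintype.ofFinite G
  haveI := Fact.mk hq
  haveI := Fact.mk hr
  obtain ⟨Q, hQ⟩ := Sylow.exists_subgroup_card_pow_prime (G := G) q (n := b)
    (by rw [hG]; exact Dvd.dvd.mul_right (Dvd.intro_left _ rfl) _)
  obtain ⟨R, hR⟩ := Sylow.exists_subgroup_card_pow_prime (G := G) r (n := c)
    (by rw [hG]; exact Dvd.intro_left _ rfl)
  obtain ⟨d, hd1, hd2, hd3⟩ := exists_projCover_triv (G := G) hp
  choose m hm using fun χ : IrrCharacter G =>
    (χ.isCharacter.res Q).exists_classInner_eq_nat (IrrCharacter.triv Q).isCharacter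
  choose n hn using fun χ : IrrCharacter G =>
    (χ.isCharacter.res R).exists_classInner_eq_nat (IrrCharacter.triv R).isCharacter
  have hdm : ∀ χ, d χ ≤ m χ := fun χ => hd3 Q (by
    rw [hQ]; exact fun h => hpq ((Nat.prime_dvd_prime_iff_eq hp hq).1 (hp.dvd_of_dvd_pow h)))
    χ _ (hm χ)
  have hdn : ∀ χ, d χ ≤ n χ := fun χ => hd3 R (by
    rw [hR]; exact fun h => hpr ((Nat.prime_dvd_prime_iff_eq hp hr).1 (hp.dvd_of_dvd_pow h)))
    χ _ (hn χ)
  have hp0 : (p : ℂ) ≠ 0 := Nat.cast_ne_zero.2 hp.ne_zero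
  have hq0 : (q : ℂ) ≠ 0 := Nat.cast_ne_zero.2 hq.ne_zero
  have hr0 : (r : ℂ) ≠ 0 := Nat.cast_ne_zero.2 hr.ne_zero
  have hmn : ∑ χ : IrrCharacter G, m χ * n χ = p ^ a := by
    have h1 : ∀ χ : IrrCharacter G, ((m χ * n χ : ℕ) : ℂ) = ((q : ℂ) ^ b * r ^ c)⁻¹ *
        ∑ x : Q, ∑ y : R, χ.1 x * conj (χ.1 y) := fun χ => by
      rw [Nat.cast_mul, ← map_natCast (starRingEnd ℂ) (n χ), ← hm, ← hn, classInner_def,
        classInner_def, ← Finset.sum_mul_sum, hQ, hR]
      simp [IrrCharacter.triv]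
      ring
    have h2 : ∀ (x : Q) (y : R), ∑ χ : IrrCharacter G, χ.1 x * conj (χ.1 y) =
        if x = 1 ∧ y = 1 then (Nat.card G : ℂ) else 0 := fun x y => by
      rw [sum_irr_mul_conj]
      by_cases h : x = 1 ∧ y = 1
      · rw [if_pos h, h.1, h.2, Subgroup.coe_one, Subgroup.coe_one, if_pos (IsConj.refl 1),
          Subgroup.centralizer_eq_top_iff_subset.2 (by simp), Subgroup.card_top]
      · rw [if_neg h, if_neg]
        intro hc
        have h3 : orderOf x = orderOf y := by
          obtain ⟨z, hz⟩ := isConj_iff.1 hc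
          rw [← Subgroup.orderOf_coe, ← Subgroup.orderOf_coe, ← hz]
          exact ((MulAut.conj z).orderOf_eq _).symm
        have h4 : orderOf x = 1 := Nat.eq_one_of_dvd_coprimes (by
            rw [hQ, hR]; exact Nat.coprime_pow_primes _ _ hq hr hqr)
          (orderOf_dvd_natCard x) (h3 ▸ orderOf_dvd_natCard y)
        exact h ⟨orderOf_eq_one_iff.1 h4, orderOf_eq_one_iff.1 (h3 ▸ h4)⟩
    have : ((∑ χ : IrrCharacter G, m χ * n χ : ℕ) : ℂ) = ((p ^ a : ℕ) : ℂ) := by
      rw [Nat.cast_sum]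
      simp_rw [h1]
      rw [← Finset.mul_sum, Finset.sum_comm]
      simp_rw [Finset.sum_comm (s := (Finset.univ : Finset (IrrCharacter G))), h2, ite_and,
        Finset.sum_ite_irrel, Finset.sum_ite_eq', Finset.sum_const_zero, Finset.sum_ite_eq']
      simp only [Finset.mem_univ, if_true, hG]
      push_cast
      field_simp
    exact_mod_cast this
  have hdd : ∑ χ : IrrCharacter G, d χ * d χ ≤ p ^ a :=
    hmn ▸ Finset.sum_le_sum fun χ _ => Nat.mul_le_mul (hdm χ) (hdn χ)
  set Φ : G → ℂ := fun g => ∑ χ : IrrCharacter G, (d χ : ℂ) * χ.1 g with hΦ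
  have hΦc : IsCharacter G Φ := isCharacter_iff_exists_sum.2 ⟨d, rfl⟩
  set e : G → ℂ := fun g => if p ∣ orderOf g then 0 else 1 with he
  have h1 : classInner Φ Φ = ((∑ χ : IrrCharacter G, d χ * d χ : ℕ) : ℂ) := by
    rw [hΦc.isClassFunction.classInner_eq_sum hΦc.isClassFunction]
    simp [hΦ, classInner_sum_irr]
  have h2 : classInner Φ e = 1 := by
    have := classInner_sum_irr (fun χ => (d χ : ℂ)) (IrrCharacter.triv G)
    rw [hd1, Nat.cast_one] at this
    rw [← this, classInner_def, classInner_def]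
    refine congrArg _ (Finset.sum_congr rfl fun g _ => ?_)
    by_cases h : p ∣ orderOf g
    · rw [hΦ]; simp only [hd2 g h, zero_mul]
    · simp [he, h, hΦ, IrrCharacter.triv]
  have h3 : classInner e e = ((p : ℂ) ^ a)⁻¹ := by
    have : ∑ g : G, e g * conj (e g) = ((q ^ b * r ^ c : ℕ) : ℂ) := by
      rw [← hcount, Nat.card_eq_fintype_card, Fintype.card_subtype, Finset.card_filter, Nat.cast_sum]
      refine Finset.sum_congr rfl fun g _ => ?_
      by_cases h : p ∣ orderOf g <;> simp [he, h]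
    rw [classInner_def, this, hG]
    push_cast
    field_simp
  have h4 : Φ - ((p : ℂ) ^ a) • e = 0 := by
    rw [← classInner_self_eq_zero]
    have h5 : classInner (Φ - ((p : ℂ) ^ a) • e) (Φ - ((p : ℂ) ^ a) • e) =
        (((∑ χ : IrrCharacter G, d χ * d χ : ℕ) - (p ^ a : ℕ) : ℝ) : ℂ) := by
      rw [classInner_sub_left, classInner_sub_right, classInner_sub_right, classInner_smul_left,
        classInner_smul_left, classInner_smul_right, classInner_smul_right, h1, h2, h3,
        ← conj_classInner Φ e, h2]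
      simp only [map_pow, map_natCast, map_one]
      push_cast
      field_simp
      ring
    rw [h5]
    rw [classInner_self_eq_ofReal, Complex.ofReal_inj] at h5
    have h6 : (0 : ℝ) ≤ (∑ χ : IrrCharacter G, d χ * d χ : ℕ) - (p ^ a : ℕ) := by
      rw [← h5]; positivity
    rw [le_antisymm (sub_nonpos.2 (Nat.cast_le.2 hdd)) h6, Complex.ofReal_zero]
  refine ⟨charKer Φ, hΦc.charKer_normal, ?_⟩
  rw [← hΦc.card_charKer, ← hcount]
  refine Nat.card_congr (Equiv.subtypeEquivRight fun g => ?_)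
  rw [sub_eq_zero.1 h4]
  by_cases h : p ∣ orderOf g <;> simp [he, h, hp.not_dvd_one, (pow_ne_zero a hp0).symm]

end Cfsg.Agent.S4427
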