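import Cfsg.Statements.S4429
import Cfsg.Agent.Blk.PrinOne
import Cfsg.Agent.CT.Det

set_option autoImplicit false
open Cfsg

namespace Cfsg.Agent.S4429

universe u

open Classical in
noncomputable def cnt {G : Type u} [Group G] (S : Finset (IrrCharacter G)) (d : ℕ) : ℕ :=
  (S.filter fun χ => charDegree χ.1 = d).card

theorem sum_eq_cnt {G : Type u} [Group G] (S : Finset (IrrCharacter G)) (D : Finset ℕ)
    (h : ∀ χ ∈ S, charDegree χ.1 ∈ D) (f : ℕ → ℤ) :
    ∑ χ ∈ S, f (charDegree χ.1) = ∑ d ∈ D, cnt S d * f d := by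
  classical
  rw [← Finset.sum_fiberwise_of_maps_to h]
  refine Finset.sum_congr rfl fun d _ => ?_
  rw [Finset.sum_congr rfl (g := fun _ => f d) (fun χ hχ => by rw [(Finset.mem_filter.1 hχ).2]),
    Finset.sum_const, nsmul_eq_mul]
  congr!

theorem cnt_eq_zero {G : Type u} [Group G] {S : Finset (IrrCharacter G)} {d : ℕ}
    (h : ∀ χ ∈ S, charDegree χ.1 ≠ d) : cnt S d = 0 := by
  classical
  rw [cnt, Finset.card_eq_zero, Finset.filter_eq_empty_iff]
  exact h

theorem exists_of_cnt {G : Type u} [Group G] {S : Finset (IrrCharacter G)} {d : ℕ}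
    (h : cnt S d ≠ 0) : ∃ χ ∈ S, charDegree χ.1 = d := by
  by_contra h1
  push Not at h1
  exact h (cnt_eq_zero h1)

theorem cnt_split {G : Type u} [Group G] [Finite G] [DecidableEq (IrrCharacter G)]
    {t : IrrCharacter G} {X Y : Finset (IrrCharacter G)} (ht : t ∈ X) (hY : ∀ ψ ∈ Y, ψ ∉ X)
    (f : IrrCharacter G → ℤ) : ∑ χ, f χ = f t + ∑ χ ∈ X.erase t, f χ + ∑ χ ∈ Y, f χ +
      ∑ χ ∈ (X ∪ Y)ᶜ, f χ := by
  rw [Finset.add_sum_erase _ _ ht, ← Finset.sum_union (Finset.disjoint_right.2 hY),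
    Finset.sum_add_sum_compl]

theorem cast_cnt {G : Type u} [Group G] (S : Finset (IrrCharacter G)) (d : ℕ) :
    (cnt S d : ℤ) = ∑ χ ∈ S, if charDegree χ.1 = d then 1 else 0 := by
  rw [cnt, Finset.card_filter]
  push_cast
  congr!

theorem autIdx_ne_one {G : Type u} [Group G] [Fintype G] {p : ℕ} [Fact p.Prime] {P : Subgroup G}
    (O : PrinOne p P) (h1 : ∀ χ : IrrCharacter G, charDegree χ.1 = 1 → χ = IrrCharacter.triv G) :
    autIdx P ≠ 1 := by
  intro h
  obtain ⟨ψ, hψ⟩ := O.Y_nonempty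
  have h2 := O.degree_rel hψ
  obtain ⟨a, ha⟩ := Finset.card_eq_one.1 (O.card_X.trans h)
  have h3 := O.triv_mem
  rw [ha, Finset.mem_singleton] at h3
  rw [ha, Finset.sum_singleton, ← h3, O.δ_triv, IrrCharacter.charDegree_triv] at h2
  refine O.notMem ψ hψ (h1 ψ ?_ ▸ O.triv_mem)
  rcases O.δ₀_sign with h4 | h4 <;> rw [h4] at h2 <;> omega

theorem sylow_data {G : Type u} [Group G] [Finite G] {p : ℕ} [Fact p.Prime] (P : Sylow p G) :
    ∃ n, n % p = 1 % p ∧ (Subgroup.centralizer ((P : Subgroup G) : Set G)).index =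
      autIdx (P : Subgroup G) * n :=
  ⟨_, by have := card_sylow_modEq_one p G; rw [P.card_eq_index_normalizer] at this; exact this,
    (Subgroup.relIndex_mul_index (Subgroup.centralizer_le_normalizer _)).symm⟩


/-- Let G be a simple group of order 7920. Then G has exactly ten irreducible complex characters, and their degrees, listed with multiplicity, are 1, 10, 10, 10, 11, 16, 16, 44, 45, 55: for every natural number n, the number of irreducible characters of degree n is 1 if n ∈ {1, 11, 44, 45, 55}, 3 if n = 10, 2 if n = 16, and 0 otherwise. -/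
theorem result {G : Type*} [Group G] [Finite G] [IsSimpleGroup G] (hG : Nat.card G = 7920) : Nat.card (Cfsg.IrrCharacter G) = 10 ∧ ∀ n : ℕ, Nat.card {χ : Cfsg.IrrCharacter G // Cfsg.charDegree (χ : G → ℂ) = n} = (if n = 1 ∨ n = 11 ∨ n = 44 ∨ n = 45 ∨ n = 55 then 1 else if n = 10 then 3 else if n = 16 then 2 else 0) := by
  classical
  have := Fintype.ofFinite G
  haveI : Fact (Nat.Prime 11) := ⟨by norm_num⟩
  haveI : Fact (Nat.Prime 5) := ⟨by norm_num⟩
  have hperf : commutator G = ⊤ := by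
    refine (IsSimpleGroup.eq_bot_or_eq_top_of_normal _ inferInstance).resolve_left fun h => ?_
    haveI : IsMulCommutative G := (commutator_eq_bot_iff G).1 h
    letI : CommGroup G := { ‹Group G› with mul_comm := fun a b => mul_comm' a b }
    have := IsSimpleGroup.prime_card (α := G)
    rw [hG] at this
    norm_num at this
  have hlin : ∀ χ : IrrCharacter G, charDegree χ.1 = 1 → χ = IrrCharacter.triv G := fun χ h =>
    χ.charKer_eq_top_iff.1 (eq_top_iff.2 (hperf ▸ χ.charDegree_eq_one_iff_commutator_le.1 h))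
  have hfaith : ∀ χ : IrrCharacter G, charDegree χ.1 ≠ 1 → ∀ g, χ.1 g = χ.1 1 → g = 1 :=
    fun χ h => χ.charKer_eq_bot_iff.1 (χ.charKer_eq_bot_of_isSimpleGroup
      fun h1 => h (h1 ▸ IrrCharacter.charDegree_triv))
  have hdvd : ∀ χ : IrrCharacter G, charDegree χ.1 ∣ 7920 := fun χ => hG ▸ χ.charDegree_dvd_card
  have hsq : ∑ χ : IrrCharacter G, (charDegree χ.1 : ℤ) ^ 2 = 7920 := by
    exact_mod_cast sum_charDegree_sq.trans hG
  have hle : ∀ χ : IrrCharacter G, charDegree χ.1 ≤ 88 := fun χ => by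
    have h1 := Finset.single_le_sum (f := fun χ : IrrCharacter G => (charDegree χ.1 : ℤ) ^ 2)
      (fun _ _ => sq_nonneg _) (Finset.mem_univ χ)
    rw [hsq] at h1
    by_contra h2
    have : (89 : ℤ) ≤ charDegree χ.1 := by omega
    nlinarith
  have hsyl : ∀ (p : ℕ) [Fact p.Prime] (P : Sylow p G), (7920 : ℕ).factorization p = 1 →
      Nat.card P = p := fun p _ P h => by rw [P.card_eq_multiplicity, hG, h, pow_one]
  -- the prime 11
  obtain ⟨P⟩ : Nonempty (Sylow 11 G) := inferInstance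
  have hP : Nat.card P = 11 := hsyl 11 P (by
    rw [Nat.factorization_def _ (by norm_num), show 7920 = 11 ^ 1 * 720 by norm_num,
      padicValNat.mul (by norm_num) (by norm_num), padicValNat.prime_pow,
      padicValNat.eq_zero_of_not_dvd (by norm_num)])
  obtain ⟨O⟩ := exists_prinOne P hP
  obtain ⟨ψ, hψ⟩ := O.Y_nonempty
  have hX : ∀ χ ∈ O.X.erase (IrrCharacter.triv G), (charDegree χ.1 = 10 ∧ O.δ χ = -1) ∨
      (charDegree χ.1 = 12 ∧ O.δ χ = 1) ∨ (charDegree χ.1 = 45 ∧ O.δ χ = 1) := by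
    intro χ hχ
    obtain ⟨h1, h2⟩ := Finset.mem_erase.1 hχ
    have h3 := O.fixDim_X hP h2
    have h4 := hdvd χ
    have h5 := hle χ
    have h6 : charDegree χ.1 ≠ 1 := fun h => h1 (hlin χ h)
    generalize charDegree χ.1 = d at *
    rcases O.δ_sign χ h2 with h | h <;> rw [h] at h3 ⊢
    · obtain ⟨k, rfl⟩ : ∃ k, d = 11 * k + 1 := ⟨d / 11, by omega⟩
      have : k ≤ 7 := by omega
      interval_cases k <;> simp_all
    · obtain ⟨k, rfl⟩ : ∃ k, d = 11 * k + 10 := ⟨d / 11, by omega⟩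
      have : k ≤ 7 := by omega
      interval_cases k <;> simp_all
  have hXD : ∀ χ ∈ O.X.erase (IrrCharacter.triv G), charDegree χ.1 ∈ ({10, 12, 45} : Finset ℕ) := fun χ hχ => by
    rcases hX χ hχ with h | h | h <;> simp [h.1]
  set a := cnt (O.X.erase (IrrCharacter.triv G)) 10
  set b := cnt (O.X.erase (IrrCharacter.triv G)) 12
  set c := cnt (O.X.erase (IrrCharacter.triv G)) 45
  have hsumX : ∀ f : ℕ → ℤ, ∑ χ ∈ O.X.erase (IrrCharacter.triv G), f (charDegree χ.1) =
      a * f 10 + (b * f 12 + c * f 45) := fun f => by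
    rw [sum_eq_cnt _ _ hXD]
    simp [a, b, c]
  have hsumY : ∀ f : ℕ → ℤ, ∑ χ ∈ O.Y, f (charDegree χ.1) = O.Y.card * f (charDegree ψ.1) :=
    fun f => by
      rw [Finset.sum_congr rfl (g := fun _ => f (charDegree ψ.1))
        (fun χ hχ => by rw [O.Y_deg_eq hχ hψ]), Finset.sum_const, nsmul_eq_mul]
  have habc : a + b + c + 1 = autIdx (P : Subgroup G) := by
    have h1 := hsumX fun _ => 1
    rw [Finset.sum_const, Finset.card_erase_of_mem O.triv_mem, O.card_X] at h1
    have := O.autIdx_pos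
    simp only [smul_eq_mul, nsmul_eq_mul, mul_one] at h1
    omega
  have hrel : O.δ₀ * charDegree ψ.1 + 1 + (a * (-10) + (b * 12 + c * 45)) = 0 := by
    have h1 := O.degree_rel hψ
    rw [← Finset.add_sum_erase _ _ O.triv_mem, O.δ_triv, IrrCharacter.charDegree_triv,
      Finset.sum_congr rfl (g := fun χ => (fun d : ℕ => if d = 10 then (-10 : ℤ) else d)
        (charDegree χ.1)) (fun χ hχ => by rcases hX χ hχ with h | h | h <;> simp [h.1, h.2]),
      hsumX (fun d : ℕ => if d = 10 then (-10 : ℤ) else d)] at h1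
    simpa [add_assoc] using h1
  have hsq' := cnt_split O.triv_mem O.notMem fun χ => (charDegree χ.1 : ℤ) ^ 2
  rw [hsq, hsumX fun d => (d : ℤ) ^ 2, hsumY fun d => (d : ℤ) ^ 2,
    IrrCharacter.charDegree_triv] at hsq'
  have hR0 : 0 ≤ ∑ χ ∈ (O.X ∪ O.Y)ᶜ, (charDegree χ.1 : ℤ) ^ 2 :=
    Finset.sum_nonneg fun _ _ => sq_nonneg _
  have hz1 : charDegree ψ.1 ≠ 1 := fun h => O.notMem ψ hψ (hlin ψ h ▸ O.triv_mem)
  have hz2 := hdvd ψ
  have hz3 := hle ψ
  have hYe := O.card_Y
  have hCP : Subgroup.centralizer ((P : Subgroup G) : Set G) ≤ P := by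
    have ha : a ≠ 0 := by
      intro ha
      rw [ha] at hrel habc
      have h1 : autIdx (P : Subgroup G) ∣ 10 := Dvd.intro_left _ hYe
      have h2 : autIdx (P : Subgroup G) ≤ 10 := Nat.le_of_dvd (by norm_num) h1
      have h3 : charDegree ψ.1 = 1 + b * 12 + c * 45 := by
        rcases O.δ₀_sign with h | h <;> rw [h] at hrel <;> omega
      rw [h3] at hz1 hz2 hz3
      rw [← habc] at h1
      have h4 : c ≤ 1 := by omega
      have h5 : b ≤ 7 := by omega
      clear_value b c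
      interval_cases c <;> interval_cases b <;>
        first | omega | (norm_num at hz2) | (norm_num at h1)
    obtain ⟨χ, hχ, h1⟩ := exists_of_cnt ha
    have h2 := (Finset.mem_erase.1 hχ).2
    have h3 := O.fixDim_X hP h2
    have h4 : O.δ χ = -1 := by rcases hX χ hχ with h | h | h <;> omega
    rw [h1, h4] at h3
    obtain ⟨u, hu, hu1⟩ := exists_ne_one_of_card_prime hP
    intro g hg
    have h5 := hfaith χ (by omega) _ (O.apply_eq_of_fixDim hP (Or.inl h2) (by omega)
      (pRegPart_mem 11 hg) (not_dvd_orderOf_pRegPart g))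
    exact mem_sylow_of_commute_of_card_prime P hP hu hu1
      (isPGroup_zpowers_iff.2 (pRegPart_eq_one_iff.1 h5)) (hg u hu)
  have hCP' := le_antisymm hCP (le_centralizer_of_card_prime hP)
  have he : autIdx (P : Subgroup G) = 5 := by
    obtain ⟨n, h1, h2⟩ := sylow_data P
    have h3 := (P : Subgroup G).card_mul_index
    rw [hCP'] at h2
    rw [hG, h2, show Nat.card (P : Subgroup G) = 11 from hP] at h3
    have h4 : autIdx (P : Subgroup G) ∣ 10 := Dvd.intro_left _ hYe
    have h5 : autIdx (P : Subgroup G) ≤ 10 := Nat.le_of_dvd (by norm_num) h4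
    generalize autIdx (P : Subgroup G) = e at *
    interval_cases e <;> omega
  have hY2 : O.Y.card = 2 := by rw [he] at hYe; omega
  have hcase : (a = 2 ∧ b = 2 ∧ c = 0 ∧ charDegree ψ.1 = 5) ∨
      (a = 3 ∧ b = 0 ∧ c = 1 ∧ charDegree ψ.1 = 16) := by
    have h1 := O.fixDim_Y hP hψ
    rw [he] at h1 habc
    rw [hY2] at hsq'
    have h2 : a ≤ 4 := by omega
    have h3 : b ≤ 4 := by omega
    have h4 : c ≤ 4 := by omega
    have h5 : charDegree ψ.1 ≤ 62 := by
      by_contra h5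
      have : (63 : ℤ) ≤ charDegree ψ.1 := by omega
      have : (0 : ℤ) ≤ a := by omega
      have : (0 : ℤ) ≤ b := by omega
      have : (0 : ℤ) ≤ c := by omega
      push_cast at hsq'
      nlinarith
    have h6 : charDegree ψ.1 = 60 → c = 0 := by
      intro h6
      rw [h6] at hsq'
      push_cast at hsq'
      omega
    generalize charDegree ψ.1 = z at *
    rcases O.δ₀_sign with h | h <;> rw [h] at hrel h1
    · obtain ⟨k, rfl⟩ : ∃ k, z = 11 * k + 6 := ⟨z / 11, by omega⟩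
      have : k ≤ 5 := by omega
      interval_cases k <;> first | omega | simp at hz2
    · obtain ⟨k, rfl⟩ : ∃ k, z = 11 * k + 5 := ⟨z / 11, by omega⟩
      have : k ≤ 5 := by omega
      interval_cases k <;> first | omega | simp at hz2
  have hR : ∀ χ ∈ (O.X ∪ O.Y)ᶜ, 11 ∣ charDegree χ.1 := fun χ hχ => by
    rw [Finset.mem_compl, Finset.mem_union, not_or] at hχ
    exact Dvd.intro _ (O.fixDim_other hP hCP hχ.1 hχ.2)
  have hall : ∀ χ : IrrCharacter G, χ = IrrCharacter.triv G ∨ χ ∈ O.X.erase (IrrCharacter.triv G) ∨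
      charDegree χ.1 = charDegree ψ.1 ∨ 11 ∣ charDegree χ.1 := fun χ => by
    by_cases h1 : χ ∈ O.X
    · by_cases h2 : χ = IrrCharacter.triv G
      · exact Or.inl h2
      · exact Or.inr (Or.inl (Finset.mem_erase.2 ⟨h2, h1⟩))
    by_cases h2 : χ ∈ O.Y
    · exact Or.inr (Or.inr (Or.inl (O.Y_deg_eq h2 hψ)))
    · exact Or.inr (Or.inr (Or.inr (hR χ (by simp [h1, h2]))))
  -- the prime 5
  obtain ⟨Q⟩ : Nonempty (Sylow 5 G) := inferInstance
  have hQ : Nat.card Q = 5 := hsyl 5 Q (by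
    rw [Nat.factorization_def _ (by norm_num), show 7920 = 5 ^ 1 * 1584 by norm_num,
      padicValNat.mul (by norm_num) (by norm_num), padicValNat.prime_pow,
      padicValNat.eq_zero_of_not_dvd (by norm_num)])
  obtain ⟨O'⟩ := exists_prinOne Q hQ
  obtain ⟨y, hy, hy1⟩ := exists_ne_one_of_card_prime hQ
  have hyo : orderOf y = 5 := orderOf_eq_of_card_prime hQ hy hy1
  have hYe' := O'.card_Y
  have he4 : autIdx (Q : Subgroup G) ∣ 4 := Dvd.intro_left _ hYe'
  have hnd : ∀ χ, χ ∈ O'.X ∨ χ ∈ O'.Y → ¬ 5 ∣ charDegree χ.1 := by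
    rintro χ (h | h)
    · have h1 := O'.fixDim_X hQ h
      rcases O'.δ_sign χ h with h2 | h2 <;> rw [h2] at h1 <;> omega
    · have h1 := O'.fixDim_Y hQ h
      have h3 := Nat.le_of_dvd (by norm_num) he4
      have h4 := O'.autIdx_pos
      rcases O'.δ₀_sign with h2 | h2 <;> rw [h2] at h1 <;> omega
  have h11 : ¬ 11 ∣ Nat.card (Subgroup.centralizer ((Q : Subgroup G) : Set G)) := by
    intro h
    obtain ⟨v, hv, hvo⟩ := exists_orderOf_eq_prime_of_dvd_card h
    obtain ⟨x, hx⟩ := exists_conj_mem_sylow P (g := v) ⟨1, by rw [hvo, pow_one]⟩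
    have h1 : x * v * x⁻¹ ≠ 1 := fun h1 => by
      rw [conj_eq_one_iff.1 h1, orderOf_one] at hvo
      omega
    have h2 : x * y * x⁻¹ ∈ Subgroup.centralizer ({x * v * x⁻¹} : Set G) := by
      rw [Subgroup.mem_centralizer_singleton_iff]
      have := hv y hy
      calc x * y * x⁻¹ * (x * v * x⁻¹) = x * (y * v) * x⁻¹ := by group
        _ = _ := by rw [this]; group
    rw [centralizer_singleton_of_card_prime hP hx h1, hCP'] at h2
    have h3 := orderOf_eq_of_card_prime hP h2 fun h3 => hy1 (conj_eq_one_iff.1 h3)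
    rw [show x * y * x⁻¹ = MulAut.conj x y from rfl, MulEquiv.orderOf_eq] at h3
    omega
  have hCc := (Subgroup.centralizer ((Q : Subgroup G) : Set G)).card_mul_index
  rw [hG] at hCc
  have hodd : ¬ 2 ∣ Nat.card (Subgroup.centralizer ((Q : Subgroup G) : Set G)) := by
    intro h
    rcases hcase with ⟨-, -, -, h5⟩ | ⟨-, hb, -, h5⟩
    · obtain ⟨s, hs, hso⟩ := exists_orderOf_eq_prime_of_dvd_card h
      obtain ⟨k, hk, h1, h2⟩ := ψ.isCharacter.exists_int_of_sq_eq_one
        (hso ▸ pow_orderOf_eq_one s : s ^ 2 = 1)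
      have h3 : ψ.1 (y * s) = 0 := ψ.eq_zero_of_ordProj_dvd (p := 5) (by
        rw [← Q.card_eq_multiplicity, hQ, h5]) (dvd_orderOf_sec hQ hy hy1 hs (by rw [hso]; norm_num))
      have h4 := ψ.isCharacter.isGeneralizedCharacter.prime_dvd_sub_of_pElement
        (p := 5) (by norm_num) (hs y hy) (k := 1) (by rw [pow_one, ← hyo, pow_orderOf_eq_one])
        (a := 2 * k - 5) (by rw [h3, h1, h5]; push_cast; ring)
      rw [← coe_detHom, mem_commutator_iff_forall_unitsHom.1 (hperf ▸ Subgroup.mem_top s),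
        Units.val_one] at h2
      have h6 : Even k := by
        by_contra h6
        rw [(Nat.not_even_iff_odd.1 h6).neg_one_pow] at h2
        norm_num at h2
      obtain ⟨j, hj⟩ := h6
      have h7 : k = 0 := by omega
      rw [h7, Nat.cast_zero, mul_zero, sub_zero, ← ψ.one_eq_charDegree] at h1
      rw [hfaith ψ hz1 s h1, orderOf_one] at hso
      omega
    · obtain ⟨ψ', hψ'⟩ := O'.Y_nonempty
      have h1 := O'.degree_rel hψ'
      have key : ∀ χ, χ ∈ O'.X ∨ χ ∈ O'.Y → χ ≠ IrrCharacter.triv G → (11 : ℤ) ∣ charDegree χ.1 := by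
        intro χ hχ hχt
        have h2 := hnd χ hχ
        rcases hall χ with h3 | h3 | h3 | h3
        · exact absurd h3 hχt
        · rcases hX χ h3 with h4 | h4 | h4
          · omega
          · exact absurd hb fun h6 => by
              have := cast_cnt (O.X.erase (IrrCharacter.triv G)) 12
              have h7 := Finset.single_le_sum
                (f := fun χ : IrrCharacter G => if charDegree χ.1 = 12 then (1 : ℤ) else 0)
                (fun _ _ => by split_ifs <;> norm_num) h3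
              simp only [h4.1, if_true] at h7
              omega
          · omega
        · have h4 : charDegree χ.1 ∣ _ := hχ.elim (O'.X_dvd hQ) (O'.Y_dvd hQ)
          rw [h3, h5] at h4
          obtain ⟨i, hi⟩ := h
          obtain ⟨j, hj⟩ := h4
          rw [hi, hj, show 2 * i * (16 * j) = 32 * (i * j) by ring] at hCc
          omega
        · exact_mod_cast h3
      rw [← Finset.add_sum_erase _ _ O'.triv_mem, O'.δ_triv, IrrCharacter.charDegree_triv] at h1
      have h2 : (11 : ℤ) ∣ ∑ χ ∈ O'.X.erase (IrrCharacter.triv G), O'.δ χ * charDegree χ.1 :=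
        Finset.dvd_sum fun χ hχ => (key χ (Or.inl (Finset.mem_erase.1 hχ).2)
          (Finset.mem_erase.1 hχ).1).mul_left _
      have h3 := (key ψ' (Or.inr hψ') fun h => O'.notMem ψ' hψ' (h ▸ O'.triv_mem)).mul_left O'.δ₀
      omega
  have hQC := le_centralizer_of_card_prime hQ
  obtain ⟨hC5, he'⟩ : Nat.card (Subgroup.centralizer ((Q : Subgroup G) : Set G)) = 5 ∧
      autIdx (Q : Subgroup G) = 4 := by
    obtain ⟨n, h1, h2⟩ := sylow_data Q
    have h3 : 5 ∣ Nat.card (Subgroup.centralizer ((Q : Subgroup G) : Set G)) :=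
      by have := Subgroup.card_dvd_of_le hQC; rwa [show Nat.card (Q : Subgroup G) = 5 from hQ] at this
    have h4 := autIdx_ne_one O' hlin
    have h5 := Nat.le_of_dvd (by norm_num) he4
    have h6 : Nat.card (Subgroup.centralizer ((Q : Subgroup G) : Set G)) ∣ 45 := by
      have h6 : Nat.card (Subgroup.centralizer ((Q : Subgroup G) : Set G)) ∣ 11 * (2 ^ 4 * 45) :=
        Dvd.intro _ hCc
      exact Nat.Coprime.dvd_of_dvd_mul_left
        ((Nat.prime_two.coprime_iff_not_dvd.2 hodd).symm.pow_right 4)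
        (Nat.Coprime.dvd_of_dvd_mul_left
          (((by norm_num : Nat.Prime 11).coprime_iff_not_dvd.2 h11).symm) h6)
    rw [h2] at hCc
    generalize Nat.card (Subgroup.centralizer ((Q : Subgroup G) : Set G)) = m at *
    generalize autIdx (Q : Subgroup G) = e at *
    obtain ⟨k, rfl⟩ := h3
    have h7 : k ≤ 9 := by have := Nat.le_of_dvd (by norm_num) h6; omega
    interval_cases k <;> interval_cases e <;> first | omega | simp at h6
  have hCQ : Subgroup.centralizer ((Q : Subgroup G) : Set G) ≤ Q :=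
    (Subgroup.eq_of_le_of_card_ge hQC (hC5.trans hQ.symm).le).ge
  have hmod : ∀ χ : IrrCharacter G, charDegree χ.1 % 5 ≠ 2 ∧ charDegree χ.1 % 5 ≠ 3 := fun χ => by
    by_cases h1 : χ ∈ O'.X
    · have h1' := O'.fixDim_X hQ h1
      rcases O'.δ_sign χ h1 with h2 | h2 <;> rw [h2] at h1' <;> omega
    by_cases h2 : χ ∈ O'.Y
    · have h1' := O'.fixDim_Y hQ h2
      rw [he'] at h1'
      rcases O'.δ₀_sign with h2 | h2 <;> rw [h2] at h1' <;> omega
    · have := O'.fixDim_other hQ hCQ h1 h2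
      omega
  obtain ⟨ha, hb, hc, hz⟩ := hcase.resolve_left fun h => by
    obtain ⟨χ, -, h1⟩ := exists_of_cnt (show b ≠ 0 by omega)
    have := hmod χ
    omega
  have h5cnt : ∑ χ : IrrCharacter G, (if 5 ∣ charDegree χ.1 then (0 : ℤ) else 1) = 5 := by
    rw [cnt_split O'.triv_mem O'.notMem, Finset.add_sum_erase _
      (fun χ : IrrCharacter G => if 5 ∣ charDegree χ.1 then (0 : ℤ) else 1) O'.triv_mem,
      Finset.sum_congr rfl (g := fun _ => 1) (fun χ h => if_neg (hnd χ (Or.inl h))),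
      Finset.sum_congr rfl (s₁ := O'.Y) (g := fun _ => 1) (fun χ h => if_neg (hnd χ (Or.inr h))),
      Finset.sum_eq_zero (s := (O'.X ∪ O'.Y)ᶜ) fun χ h => if_pos (by
        rw [Finset.mem_compl, Finset.mem_union, not_or] at h
        exact Dvd.intro _ (O'.fixDim_other hQ hCQ h.1 h.2))]
    rw [he'] at hYe'
    simp [O'.card_X, he', show O'.Y.card = 1 by omega]
  have hRD : ∀ χ ∈ (O.X ∪ O.Y)ᶜ, charDegree χ.1 ∈ ({11, 44, 55, 66} : Finset ℕ) := fun χ hχ => by
    obtain ⟨k, hk⟩ := hR χ hχ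
    have h1 := hdvd χ
    have h2 := hle χ
    have h3 := hmod χ
    rw [hk] at h1 h2 h3 ⊢
    have : k ≤ 8 := by omega
    interval_cases k <;> simp_all
  have hsumR : ∀ f : ℕ → ℤ, ∑ χ ∈ (O.X ∪ O.Y)ᶜ, f (charDegree χ.1) =
      cnt (O.X ∪ O.Y)ᶜ 11 * f 11 + (cnt (O.X ∪ O.Y)ᶜ 44 * f 44 +
        (cnt (O.X ∪ O.Y)ᶜ 55 * f 55 + cnt (O.X ∪ O.Y)ᶜ 66 * f 66)) := fun f => by
    rw [sum_eq_cnt _ _ hRD]
    simp
  have hsum : ∀ f : ℕ → ℤ, ∑ χ : IrrCharacter G, f (charDegree χ.1) =
      f 1 + (3 * f 10 + f 45) + 2 * f 16 + (cnt (O.X ∪ O.Y)ᶜ 11 * f 11 +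
        (cnt (O.X ∪ O.Y)ᶜ 44 * f 44 +
        (cnt (O.X ∪ O.Y)ᶜ 55 * f 55 + cnt (O.X ∪ O.Y)ᶜ 66 * f 66))) := fun f => by
    rw [cnt_split O.triv_mem O.notMem, hsumX, hsumY, hsumR, IrrCharacter.charDegree_triv, ha, hb,
      hc, hz, hY2]
    simp
  have e1 := (hsum fun d => (d : ℤ) ^ 2).symm.trans hsq
  have e2 := (hsum fun d => if 5 ∣ d then (0 : ℤ) else 1).symm.trans h5cnt
  norm_num [-Finset.compl_union] at e1 e2
  obtain ⟨r1, r2, r3, r4⟩ : cnt (O.X ∪ O.Y)ᶜ 11 = 1 ∧ cnt (O.X ∪ O.Y)ᶜ 44 = 1 ∧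
      cnt (O.X ∪ O.Y)ᶜ 55 = 1 ∧ cnt (O.X ∪ O.Y)ᶜ 66 = 0 := by
    generalize cnt (O.X ∪ O.Y)ᶜ 11 = r1 at e1 e2 ⊢
    generalize cnt (O.X ∪ O.Y)ᶜ 44 = r2 at e1 e2 ⊢
    generalize cnt (O.X ∪ O.Y)ᶜ 55 = r3 at e1 e2 ⊢
    generalize cnt (O.X ∪ O.Y)ᶜ 66 = r4 at e1 e2 ⊢
    have : r1 ≤ 2 := by omega
    have : r2 ≤ 2 := by omega
    have : r4 ≤ 2 := by omega
    interval_cases r1 <;> interval_cases r2 <;> interval_cases r4 <;> omega
  simp only [r1, r2, r3, r4] at hsum
  constructor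
  · have h1 := hsum fun _ => 1
    rw [Nat.card_eq_fintype_card]
    simp only [Finset.sum_const, Finset.card_univ, nsmul_eq_mul, mul_one] at h1
    omega
  · intro n
    have h1 := hsum fun d => if d = n then 1 else 0
    rw [← cast_cnt] at h1
    have h2 : Nat.card {χ : IrrCharacter G // charDegree χ.1 = n} =
        cnt (G := G) Finset.univ n := by
      rw [Nat.card_eq_fintype_card, Fintype.card_subtype, cnt]
    rw [h2]
    split_ifs at h1 ⊢ <;> omega

end Cfsg.Agent.S4429
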