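import Cfsg.Statements.S4430
import Cfsg.Agent.Blk.InducedBasic
import Cfsg.Agent.Blk.Orth
import Cfsg.Agent.CT.Induction

set_option autoImplicit false
open Cfsg

namespace Cfsg.Agent.S4430

open scoped ComplexConjugate in
theorem omega_trunc {G : Type*} [Group G] [Fintype G] (H : Subgroup G) [Fintype H]
    (B : Set (IrrCharacter G)) (ξ : IrrCharacter H) :
    omega ξ.1 (gaTrunc ℂ H (idemC B)) = blockPart B (indFun H ξ.1) 1 / indFun H ξ.1 1 := by
  have h1 : (Nat.card G : ℂ) = H.index * Nat.card H := by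
    rw [← H.index_mul_card]; push_cast; rfl
  have h2 : (H.index : ℂ) ≠ 0 := Nat.cast_ne_zero.2 H.index_ne_zero_of_finite
  have h3 : (Nat.card H : ℂ) ≠ 0 := Nat.cast_ne_zero.2 Nat.card_pos.ne'
  rw [omega, charAlg_eq_sum, indFun_one, blockPart_eq_sum_smul, Finset.sum_apply, ← div_div]
  congr 1
  simp only [coeff_gaTrunc, coeff_idemC, blockCoeff_eq, Pi.smul_apply, smul_eq_mul,
    classInner_indFun_left H ξ.1 (IrrCharacter.isClassFunction _), classInner_def, Finset.mul_sum,
    Finset.sum_mul, Finset.sum_div]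
  rw [Finset.sum_comm]
  refine Finset.sum_congr rfl fun χ _ => Finset.sum_congr rfl fun h _ => ?_
  rw [h1]; field_simp

/-- Let H be a subgroup of the finite group G, b a block of H whose induced block B₀ in G is defined (relative to a maximal ideal M of the algebraic integers containing p), and ξ ∈ b. For a block B of G let n_B be the value at 1 of the B-part of the induced character ξ^G (a natural number: the sum over χ ∈ B of the multiplicity of χ in ξ^G times χ(1)). Then for B = B₀ the exact power of p dividing n_B equals the exact power of p dividing ξ^G(1), while for every other block B either n_B = 0 or n_B is divisible by a strictly higher power of p than ξ^G(1). -/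
theorem result {G : Type*} [Group G] [Fintype G] (p : ℕ) [Fact p.Prime] (M : Ideal Cfsg.AlgInt) (hM : Cfsg.IsPModular p M) (H : Subgroup G) [Fintype H] (b : Set (Cfsg.IrrCharacter H)) (B₀ : Set (Cfsg.IrrCharacter G)) (hind : Cfsg.IsInducedBlock M H b B₀) (ξ : Cfsg.IrrCharacter H) (hξ : ξ ∈ b) : (∃ n : ℕ, Cfsg.blockPart B₀ (Cfsg.indFun H (ξ : H → ℂ)) 1 = (n : ℂ) ∧ n ≠ 0 ∧ n.factorization p = (Cfsg.charDegree (Cfsg.indFun H (ξ : H → ℂ))).factorization p) ∧ ∀ B : Set (Cfsg.IrrCharacter G), Cfsg.IsPBlock M B → B ≠ B₀ → ∃ n : ℕ, Cfsg.blockPart B (Cfsg.indFun H (ξ : H → ℂ)) 1 = (n : ℂ) ∧ (n = 0 ∨ (Cfsg.charDegree (Cfsg.indFun H (ξ : H → ℂ))).factorization p < n.factorization p) := by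
  have hch := ξ.isCharacter.indFun
  have hne : charDegree (indFun H ξ.1) ≠ 0 := by
    rw [ξ.isCharacter.charDegree_indFun]
    exact mul_ne_zero H.index_ne_zero_of_finite ξ.charDegree_pos.ne'
  have key : ∀ B : Set (IrrCharacter G), IsPBlock M B →
      ((charDegree (blockPart B (indFun H ξ.1)) : ℂ) / charDegree (indFun H ξ.1) ∈ valO M) ∧
      red M ((charDegree (blockPart B (indFun H ξ.1)) : ℂ) / charDegree (indFun H ξ.1)) =
        lam M ξ.1 (gaTrunc (resK M) H (idemK M B)) := fun B hB => by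
    have hfix : IsFixedGA H (idemO M B) :=
      (mem_center_iff_isFixedGA_top.1 (idemO_mem_center B)).mono le_top
    rw [← (hch.blockPart B).one_eq_charDegree, ← hch.one_eq_charDegree, ← omega_trunc,
      ← (hB.isBlockUnion hM).toC_idemO hM, red_omega_gaTrunc_toC H ξ hfix, toK_idemO]
    exact ⟨omega_gaTrunc_toC_mem H ξ hfix, rfl⟩
  have hv0 : valM M (charDegree (indFun H ξ.1) : ℂ) ≠ 0 :=
    (Valuation.ne_zero_iff _).2 (Nat.cast_ne_zero.2 hne)
  constructor
  · refine ⟨_, (hch.blockPart B₀).one_eq_charDegree, ?_⟩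
    have h1 := (key B₀ hind.2.1).2
    rw [hind.lam_gaTrunc_idemK hM hξ] at h1
    have h2 := red_ne_zero_iff.1 (h1 ▸ one_ne_zero)
    have h3 : charDegree (blockPart B₀ (indFun H ξ.1)) ≠ 0 := by
      intro e; rw [e] at h2; simp at h2
    refine ⟨h3, ?_⟩
    rw [map_div₀, div_eq_one_iff_eq hv0, hM.valM_natCast h3, hM.valM_natCast hne] at h2
    exact le_antisymm (hM.valM_p_pow_le_iff.1 h2.ge) (hM.valM_p_pow_le_iff.1 h2.le)
  · intro B hB hne'
    refine ⟨_, (hch.blockPart B).one_eq_charDegree, or_iff_not_imp_left.2 fun h3 => ?_⟩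
    obtain ⟨h0, h1⟩ := key B hB
    rw [hind.lam_gaTrunc_idemK_of_ne hM hξ hB hne', red_eq_zero_iff h0, map_div₀,
      div_lt_one₀ (zero_le.lt_of_ne' hv0), hM.valM_natCast h3, hM.valM_natCast hne] at h1
    exact hM.valM_p_pow_lt_iff.1 h1

end Cfsg.Agent.S4430
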