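import Cfsg.Statements.S4431
import Cfsg.Agent.Blk.SecContrib

set_option autoImplicit false
open Cfsg

namespace Cfsg.Agent.S4431

/-- Let H be a subgroup of the finite group G and b a block of H whose induced block B₀ in G is defined (relative to a maximal ideal M of the algebraic integers containing p). Let χ be an irreducible character of G, ψ ∈ b, and let η be the class function on H equal to p^a · χ on the p-regular elements of H and zero elsewhere, p^a being the p-part of the order of H. Then (a) if χ ∉ B₀, the number [η, ψ]/ψ(1) lies in the local ideal at M; (b) if χ ∈ B₀ has height zero, it does not. -/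
theorem result {G : Type*} [Group G] [Fintype G] (p : ℕ) [Fact p.Prime] (M : Ideal Cfsg.AlgInt) (hM : Cfsg.IsPModular p M) (H : Subgroup G) [Fintype H] (b : Set (Cfsg.IrrCharacter H)) (B₀ : Set (Cfsg.IrrCharacter G)) (hind : Cfsg.IsInducedBlock M H b B₀) (χ : Cfsg.IrrCharacter G) (ψ : Cfsg.IrrCharacter H) (hψ : ψ ∈ b) : (χ ∉ B₀ → Cfsg.MemLocalIdeal M (Cfsg.classInner (fun h : H => if p ∣ orderOf h then (0 : ℂ) else ((p ^ (Nat.card H).factorization p : ℕ) : ℂ) * (χ : G → ℂ) h) (ψ : H → ℂ) / (ψ : H → ℂ) 1)) ∧ (χ ∈ B₀ → Cfsg.blockHeight p B₀ (χ : G → ℂ) = 0 → ¬ Cfsg.MemLocalIdeal M (Cfsg.classInner (fun h : H => if p ∣ orderOf h then (0 : ℂ) else ((p ^ (Nat.card H).factorization p : ℕ) : ℂ) * (χ : G → ℂ) h) (ψ : H → ℂ) / (ψ : H → ℂ) 1)) := by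
  have h1 : Cfsg.classInner (fun h : H => if p ∣ orderOf h then (0 : ℂ) else
      ((p ^ (Nat.card H).factorization p : ℕ) : ℂ) * (χ : G → ℂ) h) (ψ : H → ℂ) / (ψ : H → ℂ) 1 =
      blkKappa p (pRegularPart p fun x : H => χ.1 x) ψ.1 := by
    rw [ite_eq_mul_pRegularPart p _ (fun x : H => χ.1 x), classInner_const_mul_left, kappa_def]
  have hres := χ.isCharacter.isGeneralizedCharacter.comp H.subtype
  have h2 : IsAlgebraic ℚ (blkKappa p (pRegularPart p fun x : H => χ.1 x) ψ.1) := by
    obtain ⟨q, hq⟩ := hres.exists_rat_classInner_pRegularPart p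
      ψ.isCharacter.isGeneralizedCharacter
    simp only [Subgroup.coe_subtype] at hq
    rw [kappa_def, hq, ψ.isCharacter.one_eq_charDegree]
    have := isAlgebraic_algebraMap (R := ℚ) (A := ℂ)
      (((p ^ (Nat.card H).factorization p : ℕ) : ℚ) * q / (charDegree ψ.1 : ℚ))
    simpa using this
  have h3 : blkKappa p (pRegularPart p fun x : H => χ.1 x) ψ.1 ∈ valO M :=
    hM.kappa_mem (hres.isClassFunction.pRegularPart' p)
      (pRegularPart_mem_valO fun c _ => χ.mem_valO _) ψ
  rw [h1, hM.memLocalIdeal_iff_red h2 h3]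
  exact ⟨fun hχ => hind.red_kappa_res_of_notMem hM hχ hψ,
    fun hχ h0 => (hind.red_kappa_res_ne_zero_iff hM hχ hψ).2 h0⟩

end Cfsg.Agent.S4431
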