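import Cfsg.Statements.S4435
import Cfsg.Agent.Blk.FongRey

set_option autoImplicit false
open Cfsg

namespace Cfsg.Agent.S4435

/-- Let N be a normal subgroup of the finite group G, b a block of N (relative to a maximal ideal M of the algebraic integers containing p), and T the stabilizer of b in G (the elements g such that conjugating any member of b by g gives a member of b); N ≤ T. Say that a block of T (or of G) covers b when some member has a constituent in b on restriction to N. Then: (i) every block B′ of T covering b induces a block B of G, B covers b, every ψ ∈ B′ induces to an irreducible character of G, and B consists exactly of the characters induced from members of B′; (ii) distinct blocks of T covering b induce distinct blocks of G; (iii) every block of G covering b is induced by some block of T covering b. -/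
theorem result {G : Type*} [Group G] [Fintype G] (p : ℕ) [Fact p.Prime] (M : Ideal Cfsg.AlgInt) (hM : Cfsg.IsPModular p M) (N : Subgroup G) [hN : N.Normal] [Fintype N] (b : Set (Cfsg.IrrCharacter N)) (hb : Cfsg.IsPBlock M b) (T : Subgroup G) [Fintype T] (hT : ∀ g : G, g ∈ T ↔ ∀ θ ∈ b, ∀ θ' : Cfsg.IrrCharacter N, (∀ n : N, (θ' : N → ℂ) n = (θ : N → ℂ) ⟨g * n * g⁻¹, hN.conj_mem n n.2 g⟩) → θ' ∈ b) (hNT : N ≤ T) : (∀ B' : Set (Cfsg.IrrCharacter T), Cfsg.IsPBlock M B' → (∃ ψ ∈ B', ∃ θ ∈ b, Cfsg.classInner (fun n : N => (ψ : T → ℂ) ⟨(n : G), hNT n.2⟩) (θ : N → ℂ) ≠ 0) → ∃ B : Set (Cfsg.IrrCharacter G), Cfsg.IsInducedBlock M T B' B ∧ (∃ χ ∈ B, ∃ θ ∈ b, Cfsg.classInner (fun n : N => (χ : G → ℂ) n) (θ : N → ℂ) ≠ 0) ∧ (∀ ψ ∈ B', Cfsg.IsIrrCharacter G (Cfsg.indFun T (ψ : T → ℂ))) ∧ ∀ χ : Cfsg.IrrCharacter G, χ ∈ B ↔ ∃ ψ ∈ B', (χ : G → ℂ) = Cfsg.indFun T (ψ : T → ℂ)) ∧ (∀ B'₁ B'₂ :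 Set (Cfsg.IrrCharacter T), Cfsg.IsPBlock M B'₁ → Cfsg.IsPBlock M B'₂ → (∃ ψ ∈ B'₁, ∃ θ ∈ b, Cfsg.classInner (fun n : N => (ψ : T → ℂ) ⟨(n : G), hNT n.2⟩) (θ : N → ℂ) ≠ 0) → (∃ ψ ∈ B'₂, ∃ θ ∈ b, Cfsg.classInner (fun n : N => (ψ : T → ℂ) ⟨(n : G), hNT n.2⟩) (θ : N → ℂ) ≠ 0) → ∀ B : Set (Cfsg.IrrCharacter G), Cfsg.IsInducedBlock M T B'₁ B → Cfsg.IsInducedBlock M T B'₂ B → B'₁ = B'₂) ∧ (∀ B : Set (Cfsg.IrrCharacter G), Cfsg.IsPBlock M B → (∃ χ ∈ B, ∃ θ ∈ b, Cfsg.classInner (fun n : N => (χ : G → ℂ) n) (θ : N → ℂ) ≠ 0) → ∃ B' : Set (Cfsg.IrrCharacter T), Cfsg.IsPBlock M B' ∧ (∃ ψ ∈ B', ∃ θ ∈ b, Cfsg.classInner (fun n : N => (ψ : T → ℂ) ⟨(n : G), hNT n.2⟩) (θ : N → ℂ) ≠ 0) ∧ Cfsg.IsInducedBlock M T B' B) := by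
  have hT' : T = blockStab b := Subgroup.ext fun g => (hT g).trans (hb.mem_blockStab_iff_conj hM).symm
  refine ⟨fun B' hB' hcov => ?_, fun B₁ B₂ _ _ h₁ h₂ B i₁ i₂ => hb.fr_inj hM hT' hNT h₁ h₂ i₁ i₂,
    fun B hB hcov => hb.fr_surj hM hT' hNT hB hcov⟩
  obtain ⟨B, hind⟩ := hb.fr_exists hM hT' hNT hB' hcov
  exact ⟨B, hind, hb.fr_covers hM hT' hNT hcov hind, fun ψ hψ => hb.fr_isIrr hM hT' hNT hB' hcov hψ,
    hb.fr_mem_iff hM hT' hNT hcov hind⟩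

end Cfsg.Agent.S4435
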