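import Cfsg.Statements.S4437
import Cfsg.Agent.Blk.PairMisc

set_option autoImplicit false
open Cfsg

namespace Cfsg.Agent.S4437

/-- Let P be a p-subgroup of the finite group G, H = P·C_G(P), and b a block of H (relative to a maximal ideal M of the algebraic integers containing p) having P as a defect group; let B be the block of G induced by b. Let T be the stabilizer of b in N_G(P): the elements g of N_G(P) such that the g-conjugate of every member of b is again a member of b. Then B has defect group P if and only if p does not divide the index of H in T. -/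
theorem result {G : Type*} [Group G] [Fintype G] (p : ℕ) [Fact p.Prime] (M : Ideal Cfsg.AlgInt) (hM : Cfsg.IsPModular p M) (P : Subgroup G) (hP : IsPGroup p P) (H : Subgroup G) [Fintype H] (hH : H = P ⊔ Subgroup.centralizer (P : Set G)) (b : Set (Cfsg.IrrCharacter H)) (hb : Cfsg.IsPBlock M b) (hbP : Cfsg.IsDefectGroup p M b (P.subgroupOf H)) (B : Set (Cfsg.IrrCharacter G)) (hind : Cfsg.IsInducedBlock M H b B) (T : Subgroup G) (hT : ∀ g : G, g ∈ T ↔ (g ∈ Subgroup.normalizer (P : Set G) ∧ ∀ θ ∈ b, ∀ θ' : Cfsg.IrrCharacter H, (∀ h h' : H, (h' : G) = g * h * g⁻¹ → (θ' : H → ℂ) h' = (θ : H → ℂ) h) → θ' ∈ b)) : Cfsg.IsDefectGroup p M B P ↔ ¬ p ∣ H.relIndex T := by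
  haveI := hM.charP
  subst hH
  have he := hb.isBlk_subIdem hM
  have hc := hind.2.1.isBlk_top hM
  have hp := (isBlk_sup_centralizer_iff hP).1 he
  have hn : P ⊔ Subgroup.centralizer (P : Set G) ≤ Subgroup.normalizer (P : Set G) :=
    sup_le Subgroup.le_normalizer (centralizer_le_normalizer' P)
  have hpo : IsPairOf p ⊤ ⊤ (idemK M B) P (subIdem M _ b) := ⟨hp, le_top,
    (hM.isInducedBlock_iff_of_normal hb hind.2.1 hP le_sup_left le_sup_right hn).1 hind⟩
  have hD := (hb.isDefectGroup_subgroupOf_iff hM le_sup_left).1 hbP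
  obtain rfl : T = pairStab ⊤ P (subIdem M _ b) := by
    ext g
    rw [hT, mem_pairStab, and_iff_right (Subgroup.mem_top g)]
    refine and_congr_right fun hg => hb.forall_conj_mem_iff hM ?_
    exact le_normalizer_sup' le_rfl (normalizer_le_normalizer_centralizer P) hg
  rw [hind.2.1.isDefectGroup_iff hM, ← and_iff_right hpo (b := IsDefGrp p ⊤ (idemK M B) P),
    ← isMaxPair_iff le_rfl top_le_normalizer_top hc,
    hpo.isMaxPair_iff le_rfl top_le_normalizer_top hc, ← hp.isDefGrp_sup_iff, cenIn_top,
    and_iff_right hD, sup_comm]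

end Cfsg.Agent.S4437
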