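import Cfsg.Statements.S4439
import Cfsg.Agent.Blk.Fong

set_option autoImplicit false
open Cfsg

namespace Cfsg.Agent.S4439

theorem aux {E : Type*} [Group E] [Finite E] {p : ℕ} [hp : Fact p.Prime] (h : IsPSolvable p E)
    (hZ : pPrimeCore p E ≤ Subgroup.center E) (S : Sylow p E) (β : IrrCharacter E) :
    (charDegree β.1).factorization p ≤ (Subgroup.center S).index.factorization p := by
  set A := Subgroup.centralizer ((pCore p E ⊔ pPrimeCore p E : Subgroup E) : Set E)
  have hA : IsMulCommutative A := ⟨⟨fun a b => Subtype.ext (b.2 a (h.centralizer_sup_le a.2))⟩⟩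
  have h1 := ito_charDegree_dvd_index (N := A) hA β
  have h2 : (Subgroup.center S).map (S : Subgroup E).subtype ≤ A := by
    refine Subgroup.le_centralizer_iff.1 (sup_le (fun x hx => ?_) (fun x hx => ?_))
    · rintro _ ⟨z, hz, rfl⟩
      exact congrArg Subtype.val (Subgroup.mem_center_iff.1 hz ⟨x, pCore_le_sylow S hx⟩).symm
    · intro y _
      exact Subgroup.mem_center_iff.1 (hZ hx) y
  have h3 := h1.trans (Subgroup.index_dvd_of_le h2)
  rw [Subgroup.index_map_subtype] at h3
  have h4 := (Nat.factorization_le_iff_dvd β.charDegree_pos.ne'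
    (mul_ne_zero Subgroup.index_ne_zero_of_finite Subgroup.index_ne_zero_of_finite)).2 h3 p
  rw [Nat.factorization_mul Subgroup.index_ne_zero_of_finite Subgroup.index_ne_zero_of_finite,
    Finsupp.add_apply, Nat.factorization_eq_zero_of_not_dvd S.not_dvd_index] at h4
  exact h4


/-- Let G be a finite p-solvable group and B a p-block of G with defect group P (relative to a maximal ideal M of the algebraic integers containing p). Then the height of every irreducible character in B is at most the exponent of p in the index of the centre of P in P. -/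
theorem result {G : Type*} [Group G] [Finite G] (p : ℕ) [Fact p.Prime] (M : Ideal Cfsg.AlgInt) (hM : Cfsg.IsPModular p M) (hsolv : Cfsg.IsPSolvable p G) (B : Set (Cfsg.IrrCharacter G)) (hB : Cfsg.IsPBlock M B) (P : Subgroup G) (hP : Cfsg.IsDefectGroup p M B P) (χ : Cfsg.IrrCharacter G) (hχ : χ ∈ B) : Cfsg.blockHeight p B (χ : G → ℂ) ≤ ((Subgroup.center P).index).factorization p := by
  obtain ⟨R⟩ := hsolv.nonempty_fongReduction hM hB
  obtain ⟨β, hβ, rfl⟩ := R.Φ.bijOn.surjOn hχ
  obtain ⟨e⟩ := R.defect P hP default
  rw [R.blockHeight_F hβ]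
  refine (aux R.isPSolvable R.central default β).trans (le_of_eq ?_)
  have := Finite.of_equiv _ e.toEquiv
  have h1 := Subgroup.index_mul_card (Subgroup.center P)
  rw [Nat.card_congr (Subgroup.centerCongr e).toEquiv, Nat.card_congr e.toEquiv,
    ← Subgroup.index_mul_card (Subgroup.center ((default : Sylow p R.E) : Subgroup R.E))] at h1
  exact congrArg (fun n => Nat.factorization n p) (Nat.eq_of_mul_eq_mul_right Nat.card_pos h1).symm

end Cfsg.Agent.S4439
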