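import Cfsg.Statements.S4440
import Cfsg.Agent.Blk.Fong

set_option autoImplicit false
open Cfsg

namespace Cfsg.Agent.S4440

/-- Let G be a finite p-solvable group and fix a maximal ideal M of the algebraic integers containing p. Let U be a set of irreducible characters of G such that the class function Σ_{χ ∈ U} χ(1)·χ vanishes at every p-singular element of G. Then U is a union of p-blocks: if χ ∈ U and ψ lies in the same block as χ, then ψ ∈ U. -/
theorem result {G : Type*} [Group G] [Finite G] (p : ℕ) [Fact p.Prime] (M : Ideal Cfsg.AlgInt) (hM : Cfsg.IsPModular p M) (hsolv : Cfsg.IsPSolvable p G) (U : Set (Cfsg.IrrCharacter G)) (hU : ∀ x : G, p ∣ orderOf x → ∑ᶠ χ ∈ U, (χ : G → ℂ) 1 * (χ : G → ℂ) x = 0) (χ : Cfsg.IrrCharacter G) (hχ : χ ∈ U) (ψ : Cfsg.IrrCharacter G) (hψ : Cfsg.SameBlock M (χ : G → ℂ) (ψ : G → ℂ)) : ψ ∈ U := by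
  classical
  have := Fintype.ofFinite G
  set B := blockOf M χ.1
  have hB : IsPBlock M B := isPBlock_blockOf χ
  have key : U ∩ B = B := by
    refine hsolv.eq_of_vanish hM hB Set.inter_subset_right ⟨χ, hχ, hM.mem_blockOf_self χ⟩
      (fun g hg => ?_)
    have h1 := (hB.isBlockUnion hM).blockPart_eq_zero_of_section hM
      (θ := fun x => ∑ φ : IrrCharacter G, (if φ ∈ U then φ.1 1 else 0) * φ.1 x) (g := g)
      (fun x hx => by
        have h2 : p ∣ orderOf x := by
          rw [← pPart_ne_one_iff] at hg ⊢
          intro h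
          rw [h, isConj_one_left] at hx
          exact hg hx
        refine Eq.trans ?_ (hU x h2)
        rw [finsum_mem_irr]
        simp only [ite_mul, zero_mul]
        rw [← Finset.sum_filter]
        congr 1
        ext φ
        simp)
    rw [blockPart_sum_irr] at h1
    refine Eq.trans ?_ h1
    simp only [ite_mul, zero_mul]
    rw [← Finset.sum_filter]
    congr 1
    ext φ
    simp [and_comm]
  have : ψ ∈ U ∩ B := key.symm ▸ hψ
  exact this.1

end Cfsg.Agent.S4440
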