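import Cfsg.Statements.S4441
import Cfsg.Agent.Blk.DefOneApp

set_option autoImplicit false
open Cfsg

namespace Cfsg.Agent.S4441

/-- Let p be an odd prime and G a finite group whose Sylow p-subgroup P has order p; let C = C_G(P), N = N_G(P), e the index of C in N and t = (p − 1)/e; fix a maximal ideal M of the algebraic integers containing p and let B₀ be the principal block. Then B₀ is the disjoint union of a set X of e characters and a set Y of t characters such that: each χ ∈ X has a sign ε_χ with χ(1) ≡ ε_χ (mod p) and χ(x y) = ε_χ for every non-identity x ∈ P and every p-regular y ∈ C; all members of Y agree on the p-regular elements of G; there is one sign ε with θ(1) ≡ ε e (mod p) for every θ ∈ Y; and for every θ ∈ Y and every p-regular g, ε θ(g) = Σ_{χ ∈ X} ε_χ χ(g). -/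
theorem result {G : Type*} [Group G] [Fintype G] (p : ℕ) [Fact p.Prime] (M : Ideal Cfsg.AlgInt) (hM : Cfsg.IsPModular p M) (hodd : p ≠ 2) (P : Sylow p G) (hP : Nat.card P = p) (e : ℕ) (he : (Subgroup.centralizer ((P : Subgroup G) : Set G)).relIndex (Subgroup.normalizer ((P : Subgroup G) : Set G)) = e) : ∃ X Y : Set (Cfsg.IrrCharacter G), Cfsg.principalBlock M G = X ∪ Y ∧ Disjoint X Y ∧ Nat.card X = e ∧ Nat.card Y = (p - 1) / e ∧ ∃ (εX : Cfsg.IrrCharacter G → ℤ) (ε : ℤ), (∀ χ ∈ X, (εX χ = 1 ∨ εX χ = -1) ∧ (Cfsg.charDegree (χ : G → ℂ) : ℤ) ≡ εX χ [ZMOD p] ∧ ∀ x : G, x ∈ (P : Subgroup G) → x ≠ 1 → ∀ y : G, y ∈ Subgroup.centralizer ((P : Subgroup G) : Set G) → ¬ p ∣ orderOf y → (χ : G → ℂ) (x * y) = (εX χ : ℂ)) ∧ (ε = 1 ∨ ε = -1) ∧ (∀ θ ∈ Y, (Cfsg.charDegree (θ : G → ℂ) : ℤ) ≡ ε * (e : ℤ) [ZMOD p]) ∧ (∀ θ ∈ Y, ∀ θ' ∈ Y, ∀ g : G, ¬ p ∣ orderOf g → (θ : G → ℂ) g = (θ' : G → ℂ) g) ∧ ∀ θ ∈ Y, ∀ g : G, ¬ p ∣ orderOf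 g → (ε : ℂ) * (θ : G → ℂ) g = ∑ᶠ χ ∈ X, (εX χ : ℂ) * (χ : G → ℂ) g := by
  classical
  obtain ⟨O⟩ := hM.nonempty_defOne_principal P hP
  have hDC := le_centralizer_of_card_prime hP
  have htriv := hM.triv_mem_principalBlock (G := Subgroup.centralizer ((P : Subgroup G) : Set G))
  have hdeg : charDegree (O.θ 1).1 = 1 := by
    rw [O.θ_one_eq_triv hDC htriv]; exact IrrCharacter.charDegree_triv
  refine ⟨O.X, O.Y, O.eq_union, O.disjoint_XY, O.card_coe_X.trans he, by rw [O.card_Y_eq, he],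
    O.δ, -O.δ₀, fun χ hχ => ⟨O.δ_sign χ hχ, ?_, fun x hx hx1 y hy hyr =>
      O.X_apply_of_triv hP rfl htriv hχ hx hx1 hy hyr⟩, ?_, ?_, ?_, ?_⟩
  · have := O.X_modEq hP rfl hχ
    rw [hdeg, Subgroup.relIndex_self] at this
    simpa using this
  · rcases O.δ₀_sign with h | h <;> simp [h]
  · rintro _ ⟨l, hl, rfl⟩
    have := O.ψ_modEq hP rfl hl
    rwa [hdeg, he, mul_one] at this
  · rintro _ ⟨l, hl, rfl⟩ _ ⟨m, hm, rfl⟩ g hg
    exact O.ψ_reg_eq hl hm hg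
  · rintro _ ⟨l, hl, rfl⟩ g hg
    rw [finsum_mem_coe_finset]
    have := O.reg l hl g hg
    push_cast
    linear_combination -this

end Cfsg.Agent.S4441
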