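import Cfsg.Statements.S4442
import Cfsg.Agent.Blk.DefOneApp
import Cfsg.Agent.Blk.Principal

set_option autoImplicit false
open Cfsg

namespace Cfsg.Agent.S4442

/-- Blocks of defect one. Let p be an odd prime and G a finite group whose Sylow p-subgroup P has order p; let C = C_G(P) and N = N_G(P), and fix a maximal ideal M of the algebraic integers containing p. Let B be a block of G with defect group P, b a block of C inducing B, and θ the member of b having P in its kernel (there is exactly one). Let T be the stabilizer of θ in N (the elements g ∈ N with θ(g c g⁻¹) = θ(c) for all c ∈ C) and e the index of C in T. Then e divides p − 1 and B contains exactly e + (p − 1)/e irreducible characters. Moreover B is the disjoint union of a set X of e characters and a set Y of (p − 1)/e characters such that, with f the index of C in N: every χ ∈ X has χ(1) ≡ ±(f/e)·θ(1) (mod p), there is one sign ε with ψ(1) ≡ ε f θ(1) (mod p) for all ψ ∈ Y, and all members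 of Y agree on the p-regular elements of G. -/
theorem result {G : Type*} [Group G] [Finite G] (p : ℕ) [Fact p.Prime] (M : Ideal Cfsg.AlgInt) (hM : Cfsg.IsPModular p M) (hodd : p ≠ 2) (P : Sylow p G) (hP : Nat.card P = p) (B : Set (Cfsg.IrrCharacter G)) (hB : Cfsg.IsPBlock M B) (hBP : Cfsg.IsDefectGroup p M B P) (b : Set (Cfsg.IrrCharacter (Subgroup.centralizer ((P : Subgroup G) : Set G)))) (hind : Cfsg.IsInducedBlock M (Subgroup.centralizer ((P : Subgroup G) : Set G)) b B) (θ : Cfsg.IrrCharacter (Subgroup.centralizer ((P : Subgroup G) : Set G))) (hθ : θ ∈ b) (hθP : ∀ x : Subgroup.centralizer ((P : Subgroup G) : Set G), (x : G) ∈ (P : Subgroup G) → (θ : Subgroup.centralizer ((P : Subgroup G) : Set G) → ℂ) x = (θ : Subgroup.centralizer ((P : Subgroup G) : Set G) → ℂ) 1) (T : Subgroup G) (hT : ∀ g : G, g ∈ T ↔ (g ∈ Subgroup.normalizer ((P : Subgroup G) : Set G) ∧ ∀ c c' : Subgroup.centralizer ((P : Subgroup G) : Set G), (c' : G) = g * c * g⁻¹ → (θ :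 Subgroup.centralizer ((P : Subgroup G) : Set G) → ℂ) c' = (θ : Subgroup.centralizer ((P : Subgroup G) : Set G) → ℂ) c)) (e f : ℕ) (he : (Subgroup.centralizer ((P : Subgroup G) : Set G)).relIndex T = e) (hf : (Subgroup.centralizer ((P : Subgroup G) : Set G)).relIndex (Subgroup.normalizer ((P : Subgroup G) : Set G)) = f) : e ∣ p - 1 ∧ Nat.card B = e + (p - 1) / e ∧ ∃ X Y : Set (Cfsg.IrrCharacter G), B = X ∪ Y ∧ Disjoint X Y ∧ Nat.card X = e ∧ Nat.card Y = (p - 1) / e ∧ (∀ χ ∈ X, (Cfsg.charDegree (χ : G → ℂ) : ℤ) ≡ ((f / e * Cfsg.charDegree (θ : Subgroup.centralizer ((P : Subgroup G) : Set G) → ℂ) : ℕ) : ℤ) [ZMOD p] ∨ (Cfsg.charDegree (χ : G → ℂ) : ℤ) ≡ -((f / e * Cfsg.charDegree (θ : Subgroup.centralizer ((P : Subgroup G) : Set G) → ℂ) : ℕ) : ℤ) [ZMOD p]) ∧ (∃ ε : ℤ, (ε = 1 ∨ ε = -1) ∧ ∀ ψ ∈ Y, (Cfsg.charDegree (ψ : G → ℂ) : ℤ) ≡ ε * ((f * Cfsg.charDegree (θ : Subgroup.centralizer ((P : Subgroup G) : Set G) → ℂ) : ℕ) : ℤ) [ZMOD p]) ∧ ∀ ψ ∈ Y, ∀ ψ'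 ∈ Y, ∀ g : G, ¬ p ∣ orderOf g → (ψ : G → ℂ) g = (ψ' : G → ℂ) g := by
  classical
  haveI := Fintype.ofFinite G
  obtain ⟨O⟩ := hind.nonempty_defOne hM hP hBP rfl
  have hDC := le_centralizer_of_card_prime hP
  obtain ⟨l, hl⟩ := (O.mem_root θ).1 hθ
  have hl1 : l = 1 := O.eq_one_of_const hDC fun x hx => by rw [hl]; exact hθP x hx
  subst hl1
  have hT' : pairStab ⊤ (P : Subgroup G) (subIdem M _ b) = T := by
    ext t
    rw [O.mem_T, hT, hl]
  have he' : (Subgroup.centralizer ((P : Subgroup G) : Set G)).relIndex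
      (pairStab ⊤ (P : Subgroup G) (subIdem M _ b)) = e := by rw [hT', he]
  have hfe : (pairStab ⊤ (P : Subgroup G) (subIdem M _ b)).relIndex
      (Subgroup.normalizer ((P : Subgroup G) : Set G)) = f / e := by
    rw [← hf, ← Subgroup.relIndex_mul_relIndex _ _ _ (O.le_T rfl) O.T_le, he',
      Nat.mul_div_cancel_left _ (he' ▸ O.relIndex_pos)]
  refine ⟨he' ▸ O.dvd, by rw [O.card_eq, he'], O.X, O.Y, O.eq_union, O.disjoint_XY,
    O.card_coe_X.trans he', by rw [O.card_Y_eq, he'], fun χ hχ => ?_, ⟨-O.δ₀, ?_, ?_⟩, ?_⟩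
  · have := O.X_modEq hP rfl hχ
    rw [hfe, hl] at this
    rcases O.δ_sign χ hχ with h | h
    · left; simpa [h] using this
    · right; simpa [h] using this
  · rcases O.δ₀_sign with h | h <;> simp [h]
  · rintro _ ⟨l, hl', rfl⟩
    have := O.ψ_modEq hP rfl hl'
    rwa [hf, hl] at this
  · rintro _ ⟨l, hl, rfl⟩ _ ⟨m, hm, rfl⟩ g hg
    exact O.ψ_reg_eq hl hm hg

end Cfsg.Agent.S4442
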