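import Cfsg.Statements.S4446
import Cfsg.Agent.CT.Glauberman

set_option autoImplicit false
open Cfsg

namespace Cfsg.Agent.S4446


/-- Let the finite group Γ be generated by a normal subgroup G and a cyclic subgroup S of coprime orders, C = G ⊓ C(S), and let χ be an S-invariant irreducible character of G with canonical extension χ̂ to Γ (the extension whose determinantal order is coprime to the order of S). Then there are exactly one irreducible character β of C and one sign ε such that χ̂(c s) = ε β(c) for every c ∈ C and every generator s of S; this β is a constituent of the restriction of χ to C; distinct S-invariant χ give distinct β; and every irreducible character of C arises in this way. -/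
theorem result {Γ : Type*} [Group Γ] [Fintype Γ] (G S : Subgroup Γ) [Fintype G] (hnorm : ∀ s ∈ S, ∀ g ∈ G, s * g * s⁻¹ ∈ G) (hcop : (Nat.card G).Coprime (Nat.card S)) (htop : G ⊔ S = ⊤) (hcyc : IsCyclic S) (C : Subgroup Γ) [Fintype C] (hC : C = G ⊓ Subgroup.centralizer (S : Set Γ)) (hCG : C ≤ G) : (∀ (χ : Cfsg.IrrCharacter G) (χh : Cfsg.IrrCharacter Γ), (∀ s ∈ S, ∀ g g' : G, (g' : Γ) = s * g * s⁻¹ → (χ : G → ℂ) g' = (χ : G → ℂ) g) → (∀ g : G, (χh : Γ → ℂ) g = (χ : G → ℂ) g) → (Cfsg.detOrder (χh : Γ → ℂ)).Coprime (Nat.card S) → (∃! βε : Cfsg.IrrCharacter C × ℤ, (βε.2 = 1 ∨ βε.2 = -1) ∧ ∀ c : C, ∀ s : Γ, Subgroup.zpowers s = S → (χh : Γ → ℂ) ((c : Γ) * s) = (βε.2 : ℂ) * (βε.1 : C → ℂ) c) ∧ ∀ β : Cfsg.IrrCharacter C, ∀ ε : ℤ, (ε = 1 ∨ ε = -1) → (∀ c : C, ∀ s : Γ, Subgroup.zpowers s = S → (χh : Γ → ℂ) ((c : Γ) * s) = (ε : ℂ) * (β : C → ℂ) c) → Cfsg.classInner (fun c : C => (χ : G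 → ℂ) ⟨c, hCG c.2⟩) (β : C → ℂ) ≠ 0) ∧ (∀ (χ χ' : Cfsg.IrrCharacter G) (χh χh' : Cfsg.IrrCharacter Γ), (∀ s ∈ S, ∀ g g' : G, (g' : Γ) = s * g * s⁻¹ → (χ : G → ℂ) g' = (χ : G → ℂ) g) → (∀ s ∈ S, ∀ g g' : G, (g' : Γ) = s * g * s⁻¹ → (χ' : G → ℂ) g' = (χ' : G → ℂ) g) → (∀ g : G, (χh : Γ → ℂ) g = (χ : G → ℂ) g) → (∀ g : G, (χh' : Γ → ℂ) g = (χ' : G → ℂ) g) → (Cfsg.detOrder (χh : Γ → ℂ)).Coprime (Nat.card S) → (Cfsg.detOrder (χh' : Γ → ℂ)).Coprime (Nat.card S) → ∀ β : Cfsg.IrrCharacter C, ∀ ε ε' : ℤ, (ε = 1 ∨ ε = -1) → (ε' = 1 ∨ ε' = -1) → (∀ c : C, ∀ s : Γ, Subgroup.zpowers s = S → (χh : Γ → ℂ) ((c : Γ) * s) = (ε : ℂ) * (β : C → ℂ) c) → (∀ c : C, ∀ s : Γ, Subgroup.zpowers s = S → (χh' : Γ → ℂ) ((c : Γ) * s) = (ε' : ℂ) * (β : C → ℂ) c) → χ = χ') ∧ (∀ β : Cfsg.IrrCharacter C, ∃ (χ : Cfsg.IrrCharacter G) (χh : Cfsg.IrrCharacter Γ) (ε : ℤ), (∀ s ∈ S, ∀ g g' : G, (g' : Γ) = s * g * s⁻¹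 → (χ : G → ℂ) g' = (χ : G → ℂ) g) ∧ (∀ g : G, (χh : Γ → ℂ) g = (χ : G → ℂ) g) ∧ (Cfsg.detOrder (χh : Γ → ℂ)).Coprime (Nat.card S) ∧ (ε = 1 ∨ ε = -1) ∧ ∀ c : C, ∀ s : Γ, Subgroup.zpowers s = S → (χh : Γ → ℂ) ((c : Γ) * s) = (ε : ℂ) * (β : C → ℂ) c) := by
  have hSG := Subgroup.le_normalizer_iff.2 hnorm
  haveI : G.Normal := by
    rw [← Subgroup.normalizer_eq_top_iff, eq_top_iff, ← htop]
    exact sup_le G.le_normalizer hSG
  have hidx : G.index = Nat.card S := by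
    have h1 := card_sup_of_disjoint hSG (inf_eq_bot_of_coprime_card hcop)
    rw [htop, Subgroup.card_top, ← G.card_mul_index] at h1
    exact Nat.eq_of_mul_eq_mul_left Nat.card_pos h1
  obtain ⟨s₀, hs₀⟩ := (Subgroup.isCyclic_iff_exists_zpowers_eq_top S).1 hcyc
  have hcop' : (Nat.card G).Coprime G.index := hidx ▸ hcop
  have hord : ∀ s, Subgroup.zpowers s = S → (Nat.card G).Coprime (orderOf s) := fun s hs => by
    rwa [← Nat.card_zpowers, hs]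
  have hC' : ∀ s, Subgroup.zpowers s = S → C = G ⊓ Subgroup.centralizer ({s} : Set Γ) :=
    fun s hs => by rw [hC, ← hs, centralizer_zpowers]
  have hne : ∀ ε : ℤ, ε = 1 ∨ ε = -1 → (ε : ℂ) ≠ 0 := by
    rintro _ (rfl | rfl) <;> simp
  have hgen : ∀ χh : IrrCharacter Γ, IsIrrCharacter G (fun n : G => χh.1 n) →
      (detOrder χh.1).Coprime G.index → ∀ (c : C) (s : Γ), Subgroup.zpowers s = S →
      χh.1 (c * s) = χh.1 (c * s₀) := by
    intro χh hirr hd c s hs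
    have h1 : s ∈ Submonoid.powers s₀ := by
      rw [mem_powers_iff_mem_zpowers, hs₀, ← hs]; exact Subgroup.mem_zpowers s
    obtain ⟨k, rfl⟩ := h1
    refine canonical_extension_mul_pow hcop' hirr hd (hord _ hs₀) (hCG c.2)
      (gl_commute_of_eq (hC' _ hs₀) c c.2) ?_
    have h2 : orderOf (s₀ ^ k) = orderOf s₀ := by
      rw [← Nat.card_zpowers, ← Nat.card_zpowers, hs₀, ← hs]
    rw [orderOf_pow, Nat.div_eq_self] at h2
    exact Nat.Coprime.symm (h2.resolve_left (orderOf_pos s₀).ne')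
  refine ⟨fun χ χh _ hext hd => ⟨?_, fun β ε hε h => ?_⟩,
    fun χ χ' χh χh' _ _ hext hext' _ _ β ε ε' hε hε' h h' => ?_, fun β => ?_⟩
  · rw [← hidx] at hd
    have hirr := isIrr_res_of_extends hext
    obtain ⟨β, ε, hε, hβ⟩ := gl_exists_irr hcop' hirr hd (hord _ hs₀) (hC' _ hs₀)
    refine ⟨(β, ε), ⟨hε, fun c s hs => by rw [hgen χh hirr hd c s hs, hβ]⟩, ?_⟩
    rintro ⟨β', ε'⟩ ⟨hε', hβ'⟩
    obtain ⟨h1, h2⟩ := irr_eq_of_mul_eq (hne ε' hε') (fun c => (hβ' c s₀ hs₀).symm.trans (hβ c))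
    exact Prod.ext h1 (Int.cast_injective h2)
  · have := gl_classInner_res_ne_zero χh.isCharacter (gl_commute_of_eq (hC' _ hs₀))
      β.isCharacter (by
        simp only [h _ s₀ hs₀, classInner_const_mul_left, β.classInner_self, mul_one]
        exact hne ε hε)
    simpa only [← hext] using this
  · exact gl_res_eq (hord _ hs₀) (hC' _ hs₀) χh.isCharacter χh'.isCharacter hext hext'
      (hne ε hε) (hne ε' hε') (fun c => h c s₀ hs₀) (fun c => h' c s₀ hs₀)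
  · obtain ⟨χh, ε, hirr, hd, hε, hβ⟩ := gl_surj hcop' (hord _ hs₀) (hs₀ ▸ htop) (hC' _ hs₀) β
    refine ⟨⟨_, hirr⟩, χh, ε, fun s _ g g' hg => ?_, fun _ => rfl, hidx ▸ hd, hε,
      fun c s hs => by rw [hgen χh hirr hd c s hs, hβ]⟩
    change χh.1 g' = χh.1 g
    rw [hg, χh.isClassFunction]

end Cfsg.Agent.S4446
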