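import Cfsg.Statements.S4451
import Cfsg.Agent.CT.Glauberman

set_option autoImplicit false
open Cfsg

namespace Cfsg.Agent.S4451


/-- Let the finite group Γ be generated by a normal subgroup G and a cyclic subgroup S of coprime orders such that every non-identity element of S has the same centraliser C = G ⊓ C(S) in G. Let χ be an S-invariant irreducible character of G, χ̂ its canonical extension to Γ (determinantal order coprime to the order of S), and β the irreducible character of C with χ̂(c s) = ε₀ β(c) for c ∈ C and generators s of S (ε₀ = ±1). Then there are a sign ε = ±1, which may differ from ε₀, and a linear character μ of S with μ² = 1, such that: (a) χ̂(c x) = ε β(c) μ(x) for all c ∈ C and all x ∈ S other than 1; (b) the restriction of χ to C equals |S|·ϑ + ε β for some character ϑ of C or ϑ = 0; (c) |S| divides χ(1) − ε β(1). -/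
theorem result {Γ : Type*} [Group Γ] [Fintype Γ] (G S : Subgroup Γ) [Fintype G] (hnorm : ∀ s ∈ S, ∀ g ∈ G, s * g * s⁻¹ ∈ G) (hcop : (Nat.card G).Coprime (Nat.card S)) (htop : G ⊔ S = ⊤) (hcyc : IsCyclic S) (C : Subgroup Γ) [Fintype C] (hC : C = G ⊓ Subgroup.centralizer (S : Set Γ)) (hCG : C ≤ G) (hfpf : ∀ x ∈ S, x ≠ 1 → G ⊓ Subgroup.centralizer ({x} : Set Γ) = C) (χ : Cfsg.IrrCharacter G) (hinv : (∀ s ∈ S, ∀ g g' : G, (g' : Γ) = s * g * s⁻¹ → (χ : G → ℂ) g' = (χ : G → ℂ) g)) (χh : Cfsg.IrrCharacter Γ) (hext : (∀ g : G, (χh : Γ → ℂ) g = (χ : G → ℂ) g)) (hdet : (Cfsg.detOrder (χh : Γ → ℂ)).Coprime (Nat.card S)) (β : Cfsg.IrrCharacter C) (ε₀ : ℤ) (hε₀ : ε₀ = 1 ∨ ε₀ = -1) (hβ : ∀ c : C, ∀ s : Γ, Subgroup.zpowers s = S → (χh : Γ → ℂ) ((c : Γ) * s) = (ε₀ : ℂ) * (β : C → ℂ) c) : ∃ ε : ℤ, (ε = 1 ∨ ε = -1) ∧ (∃ μ : S → ℂ, Cfsg.IsCharacter S μ ∧ μ 1 = 1 ∧ (∀ x : S, μ x * μ x = 1) ∧ ∀ c : C, ∀ x : S, x ≠ 1 → (χh : Γ → ℂ) ((c : Γ) * x) = (ε : ℂ) * (β : C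 → ℂ) c * μ x) ∧ (∃ ϑ : C → ℂ, Cfsg.IsCharacter C ϑ ∧ (fun c : C => (χ : G → ℂ) ⟨c, hCG c.2⟩) = fun c => (Nat.card S : ℂ) * ϑ c + (ε : ℂ) * (β : C → ℂ) c) ∧ (Nat.card S : ℤ) ∣ (Cfsg.charDegree (χ : G → ℂ) : ℤ) - ε * (Cfsg.charDegree (β : C → ℂ) : ℤ) := by
  classical
  have hSG := Subgroup.le_normalizer_iff.2 hnorm
  haveI : G.Normal := by
    rw [← Subgroup.normalizer_eq_top_iff, eq_top_iff, ← htop]
    exact sup_le G.le_normalizer hSG
  have hidx : G.index = Nat.card S := by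
    have h1 := card_sup_of_disjoint hSG (inf_eq_bot_of_coprime_card hcop)
    rw [htop, Subgroup.card_top, ← G.card_mul_index] at h1
    exact Nat.eq_of_mul_eq_mul_left Nat.card_pos h1
  obtain ⟨s₀, hs₀⟩ := (Subgroup.isCyclic_iff_exists_zpowers_eq_top S).1 hcyc
  have hcop' : (Nat.card G).Coprime G.index := hidx ▸ hcop
  have hirr := isIrr_res_of_extends hext
  rw [← hidx] at hdet
  have hres : (fun c : C => χ.1 ⟨c, hCG c.2⟩) = fun c : C => χh.1 c :=
    funext fun c => (hext ⟨c, hCG c.2⟩).symm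
  have hfin : ∀ ε : ℤ, (∃ ϑ : C → ℂ, IsCharacter C ϑ ∧ (fun c : C => χ.1 ⟨c, hCG c.2⟩) =
      fun c => (Nat.card S : ℂ) * ϑ c + (ε : ℂ) * β.1 c) →
      (Nat.card S : ℤ) ∣ (charDegree χ.1 : ℤ) - ε * (charDegree β.1 : ℤ) := by
    rintro ε ⟨ϑ, hϑ, h⟩
    have h1 : χ.1 1 = _ := congrFun h 1
    rw [χ.one_eq_charDegree, hϑ.one_eq_charDegree, β.one_eq_charDegree] at h1
    refine ⟨charDegree ϑ, ?_⟩
    have h2 : (charDegree χ.1 : ℤ) = Nat.card S * charDegree ϑ + ε * charDegree β.1 := by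
      exact_mod_cast h1
    rw [h2]; ring
  rcases subsingleton_or_nontrivial S with hS | hS
  · have h1 : s₀ = 1 := congrArg Subtype.val
      (Subsingleton.elim (⟨s₀, hs₀ ▸ Subgroup.mem_zpowers s₀⟩ : S) 1)
    have h2 : ∃ ϑ : C → ℂ, IsCharacter C ϑ ∧ (fun c : C => χ.1 ⟨c, hCG c.2⟩) =
        fun c => (Nat.card S : ℂ) * ϑ c + (ε₀ : ℂ) * β.1 c := by
      refine ⟨0, IsCharacter.zero, funext fun c => ?_⟩
      rw [← hβ c s₀ hs₀, h1, ← hext]
      simp
    exact ⟨ε₀, hε₀, ⟨fun _ => 1, IsCharacter.one, rfl, fun _ => one_mul _,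
      fun c x hx => absurd (Subsingleton.elim x 1) hx⟩, h2, hfin _ h2⟩
  have := Fintype.ofFinite S
  haveI := hcyc.isMulCommutative
  have hCS : ∀ c ∈ C, ∀ a ∈ S, Commute c a := fun c hc a ha => by
    rw [hC] at hc; exact (hc.2 a ha).symm
  have hcomm : ∀ a ∈ S, ∀ b ∈ S, Commute a b := fun a ha b hb =>
    congrArg Subtype.val (mul_comm' (⟨a, ha⟩ : S) ⟨b, hb⟩)
  have hex : ∀ x ∈ S, x ≠ 1 → ∃ (γ : IrrCharacter C) (ε : ℤ), (ε = 1 ∨ ε = -1) ∧
      ∀ c : C, χh.1 (c * x) = ε * γ.1 c := fun x hx hx1 =>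
    gl_exists_irr hcop' hirr hdet (hcop.coprime_dvd_right (S.orderOf_dvd_natCard hx))
      (hfpf x hx hx1).symm
  let R : Γ → Prop := fun x => ∃ ε : ℤ, (ε = 1 ∨ ε = -1) ∧ ∀ c : C, χh.1 (c * x) = ε * β.1 c
  have hstep : ∀ p : ℕ, p.Prime → ∀ u ∈ S, ∀ k : ℕ, u ^ p ^ k = 1 → ∀ y ∈ S, u * y ≠ 1 →
      R y → R (u * y) := by
    rintro p hp u hu k hk y hy huy ⟨ε, hε, h⟩
    obtain ⟨γ, ε', hε', h'⟩ := hex _ (S.mul_mem hu hy) huy
    by_cases hγ : γ = β
    · exact ⟨ε', hε', hγ ▸ h'⟩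
    · exfalso
      have := gl_prime_dvd_sub χh.isCharacter hCS β.isCharacter hp hu hy (hcomm u hu y hy) hk
        (m := 0) (m' := ε)
        (by simp only [h', classInner_const_mul_left, IrrCharacter.classInner_of_ne hγ]; simp)
        (by simp only [h, classInner_const_mul_left, β.classInner_self, mul_one])
      refine not_dvd_sign_add_mul hp hε 0 ?_
      simpa using this
  have hall : ∀ n : ℕ, ∀ u ∈ S, orderOf u = n → ∀ y ∈ S, u * y ≠ 1 → R y → R (u * y) := by
    intro n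
    induction n using Nat.strong_induction_on with
    | _ n ih =>
    intro u hu hn y hy huy hR
    by_cases hu1 : u = 1
    · rwa [hu1, one_mul]
    obtain ⟨p, hp, hpu⟩ := Nat.exists_prime_and_dvd (fun h => hu1 (orderOf_eq_one_iff.1 h))
    haveI := Fact.mk hp
    have hlt : orderOf (pRegPart p u) < n := by
      rw [← hn]
      refine lt_of_le_of_ne (Nat.le_of_dvd (orderOf_pos u)
        (orderOf_dvd_of_mem_zpowers (pRegPart_mem_zpowers p u))) (fun h => ?_)
      exact not_dvd_orderOf_pRegPart u (h ▸ hpu)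
    have ha := pPart_mem p hu
    have hb := pRegPart_mem p hu
    by_cases h1 : pRegPart p u * y = 1
    · have h2 : pPart p u * y ≠ 1 := fun h => by
        have h3 : pPart p u = pRegPart p u := mul_right_cancel (h.trans h1.symm)
        have h4 := pPart_pRegPart (p := p) u
        rw [← h3, pPart_pPart] at h4
        exact pPart_ne_one_iff.2 hpu h4
      have h5 : u * y = pRegPart p u * (pPart p u * y) := by
        rw [← mul_assoc, pRegPart_mul_pPart]
      rw [h5] at huy ⊢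
      exact ih _ hlt _ hb rfl _ (S.mul_mem ha hy) huy
        (hstep p hp _ ha _ (pPart_pow_ordProj u) y hy h2 hR)
    · have h5 : u * y = pPart p u * (pRegPart p u * y) := by
        rw [← mul_assoc, pPart_mul_pRegPart]
      rw [h5] at huy ⊢
      exact hstep p hp _ ha _ (pPart_pow_ordProj u) _ (S.mul_mem hb hy) huy
        (ih _ hlt _ hb rfl y hy h1 hR)
  have hs₀S : s₀ ∈ S := hs₀ ▸ Subgroup.mem_zpowers s₀
  have hR : ∀ x : S, x ≠ 1 → R x := fun x hx => by
    have := hall _ _ (S.mul_mem x.2 (S.inv_mem hs₀S)) rfl s₀ hs₀S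
      (by simpa using hx) ⟨ε₀, hε₀, fun c => hβ c s₀ hs₀⟩
    simpa using this
  have hψ := χh.isCharacter.gl_slice hCS β.isCharacter
  have hval : ∀ (x : S) (ε : ℤ), (∀ c : C, χh.1 (c * x) = ε * β.1 c) →
      classInner (fun c : C => χh.1 (c * x)) β.1 = ε := fun x ε h => by
    simp only [h, classInner_const_mul_left, β.classInner_self, mul_one]
  obtain ⟨a, ε, μ, hε, h1, h2⟩ := hψ.isGeneralizedCharacter.exists_eq_regular_add_sign
    (fun x hx => by
      obtain ⟨ε, hε, h⟩ := hR x hx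
      rw [hval x ε h]
      rcases hε with rfl | rfl <;> simp)
  have hn0 : (Nat.card S : ℂ) ≠ 0 := Nat.cast_ne_zero.2 Nat.card_pos.ne'
  have h3 : ∃ ϑ : C → ℂ, IsCharacter C ϑ ∧ (fun c : C => χ.1 ⟨c, hCG c.2⟩) =
      fun c => (Nat.card S : ℂ) * ϑ c + (ε : ℂ) * β.1 c := by
    refine ⟨fun c => (Nat.card S : ℂ)⁻¹ * (χh.1 c - ε * β.1 c), ?_, ?_⟩
    · have hcl : IsClassFunction C (fun c : C => χh.1 c - ε * β.1 c) :=
        (χh.isClassFunction.res C).sub (β.isClassFunction.smul (ε : ℂ))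
      refine isCharacter_of_classInner (hcl.smul _) (fun γ => ?_)
      have h4 : (fun c : C => χh.1 c - ε * β.1 c) =
          (fun c : C => χh.1 c) - fun c : C => ε * β.1 c := rfl
      rw [classInner_const_mul_left, h4, classInner_sub_left, classInner_const_mul_left]
      by_cases hγ : β = γ
      · subst hγ
        obtain ⟨m, hm⟩ := (χh.isCharacter.res C).exists_classInner_eq_nat β.isCharacter
        simp only [OneMemClass.coe_one, mul_one] at h1
        have h5 : (m : ℤ) = a * Nat.card S + ε := by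
          rw [hm] at h1
          exact_mod_cast h1
        have h6 : (1 : ℤ) < Nat.card S := by exact_mod_cast Finite.one_lt_card
        have h7 : 0 ≤ a := by
          by_contra hh
          have : a * Nat.card S ≤ -1 * Nat.card S :=
            mul_le_mul_of_nonneg_right (by omega) (by omega)
          omega
        refine ⟨a.toNat, ?_⟩
        rw [h1, β.classInner_self, ← Int.cast_natCast, ← Int.cast_natCast (R := ℂ) a.toNat,
          Int.toNat_of_nonneg h7]
        push_cast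
        field_simp
        ring
      · obtain ⟨m, hm⟩ := (χh.isCharacter.gl_slice hCS γ.isCharacter).exists_classInner_eq_nat
          IsCharacter.one
        refine ⟨m, ?_⟩
        rw [← hm, IrrCharacter.classInner_of_ne hγ, mul_zero, sub_zero,
          classInner_def (G := S), Finset.sum_eq_single 1]
        · simp
        · intro x _ hx
          obtain ⟨ε, -, h⟩ := hR x hx
          simp only [h, classInner_const_mul_left, IrrCharacter.classInner_of_ne hγ]
          simp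
        · simp
    · rw [hres]
      funext c
      rw [← mul_assoc, mul_inv_cancel₀ hn0]
      ring
  refine ⟨ε, hε, ⟨fun x => μ x, isCharacter_unitsHom μ, by simp, fun x => ?_, fun c x hx => ?_⟩,
    h3, hfin ε h3⟩
  · by_cases hx : x = 1
    · simp [hx]
    · obtain ⟨ε', hε', h⟩ := hR x hx
      have h4 := (hval x ε' h).symm.trans (h2 x hx)
      have h5 : ((ε' : ℂ)) * ε' = (ε * ε) * (μ x * μ x) := by rw [h4]; ring
      rcases hε with rfl | rfl <;> rcases hε' with rfl | rfl <;> simpa using h5.symm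
  · obtain ⟨ε', -, h⟩ := hR x hx
    rw [h, (hval x ε' h).symm.trans (h2 x hx)]
    ring

end Cfsg.Agent.S4451
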