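import Cfsg.Statements.S4452
import Cfsg.Agent.CT.GlExtra

set_option autoImplicit false
open Cfsg

namespace Cfsg.Agent.S4452


/-- Let the finite group G be the product of a normal subgroup K and a solvable subgroup H of coprime orders, and let N = N_G(H). Then the number of irreducible characters of G of degree coprime to the order of H equals the number of irreducible characters of N of degree coprime to the order of H. (The two sets are in fact in a canonical bijection; only the equality of their sizes is stated here.) -/
theorem result {G : Type*} [Group G] [Finite G] (K H : Subgroup G) [K.Normal] (hKH : K ⊔ H = ⊤) (hcop : (Nat.card K).Coprime (Nat.card H)) (hsolv : Group.IsSolvable H) : Nat.card {χ : Cfsg.IrrCharacter G // (Cfsg.charDegree (χ : G → ℂ)).Coprime (Nat.card H)} = Nat.card {η : Cfsg.IrrCharacter (Subgroup.normalizer (H : Set G)) // (Cfsg.charDegree (η : Subgroup.normalizer (H : Set G) → ℂ)).Coprime (Nat.card H)} := by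
  have hHK : H ≤ Subgroup.normalizer (K : Set G) := by
    rw [Subgroup.normalizer_eq_top]; exact le_top
  have hidx : K.index = Nat.card H := by
    have h1 := card_sup_of_disjoint hHK (inf_eq_bot_of_coprime_card hcop)
    rw [hKH, Subgroup.card_top, ← K.card_mul_index] at h1
    exact Nat.eq_of_mul_eq_mul_left Nat.card_pos h1
  set N := Subgroup.normalizer (H : Set G) with hN
  set C := K ⊓ Subgroup.centralizer (H : Set G) with hC
  have hHN : H ≤ N := H.le_normalizer
  have hKN : K ⊔ N = ⊤ := eq_top_iff.2 (hKH ▸ sup_le_sup_left hHN K)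
  have hKC : K ⊓ N = C := inf_normalizer_eq_inf_centralizer hHK (inf_eq_bot_of_coprime_card hcop)
  have hCN : C ≤ N := hKC ▸ inf_le_right
  have hKC' : K.subgroupOf N = C.subgroupOf N := by
    rw [← hKC, Subgroup.inf_subgroupOf_right]
  have hidx' : (K.subgroupOf N).index = Nat.card H := by
    rw [← Subgroup.relIndex, ← Subgroup.relIndex_sup_left, hKN, Subgroup.relIndex_top_right, hidx]
  have h1 := card_irr_coprime_index (N := K) (hidx ▸ hcop)
  have h2 := card_irr_coprime_index (N := K.subgroupOf N) (by
    rw [hidx', card_subgroupOf]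
    exact hcop.coprime_dvd_left (Subgroup.card_dvd_of_le inf_le_left))
  rw [hidx] at h1
  rw [hidx'] at h2
  rw [h1, h2]
  congr 1
  · have := Fintype.ofFinite C
    have h3 := (constBij_of_isSolvable hsolv hHK hcop hC inf_le_left).card_eq
    have h4 : ∀ θ : IrrCharacter K, charInertia θ.1 = ⊤ ↔ ∀ s ∈ H, CharInv s θ.1 := fun θ => by
      simp only [← mem_charInertia_iff_charInv]
      rw [eq_top_iff, ← hKH, sup_le_iff, and_iff_right θ.le_charInertia]
      rfl
    have h5 : ∀ θ : IrrCharacter (K.subgroupOf N), charInertia θ.1 = ⊤ := fun θ => by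
      have h6 : K.subgroupOf N ⊔ H.subgroupOf N = ⊤ := by
        rw [eq_top_iff]
        intro x _
        obtain ⟨k, hk, h, hh, hx⟩ := Subgroup.mem_sup_of_normal_left.1
          (hKH ▸ Subgroup.mem_top (x : G) : (x : G) ∈ K ⊔ H)
        have hkN : k ∈ N := by
          rw [← N.mul_mem_cancel_right (hHN hh), hx]; exact x.2
        have : x = ⟨k, hkN⟩ * ⟨h, hHN hh⟩ := Subtype.ext hx.symm
        rw [this]
        exact Subgroup.mul_mem_sup hk hh
      rw [eq_top_iff, ← h6]
      refine sup_le θ.le_charInertia (le_trans ?_ (centralizer_le_charInertia _))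
      intro h hh k hk
      have hk' : (k : G) ∈ C := by
        rw [← hKC]; exact ⟨hk, k.2⟩
      exact Subtype.ext (hk'.2 h hh).symm
    rw [Nat.card_congr (Equiv.subtypeEquivRight h4), h3,
      Nat.card_congr (Equiv.subtypeUnivEquiv (fun _ => trivial)),
      Nat.card_congr (Equiv.subtypeUnivEquiv h5), hKC']
    exact Nat.card_congr (IrrCharacter.congr (Subgroup.subgroupOfEquivOfLe hCN)).symm
  · have h3 := index_ker_sup_commutator (QuotientGroup.mk' K) (QuotientGroup.mk'_surjective K)
    have h4 := index_ker_sup_commutator ((QuotientGroup.mk' K).comp N.subtype) (by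
      rw [← MonoidHom.range_eq_top, MonoidHom.range_comp, N.range_subtype, map_mk_eq_top_iff,
        sup_comm, hKN])
    rw [← MonoidHom.comap_ker, QuotientGroup.ker_mk'] at h4
    rw [QuotientGroup.ker_mk'] at h3
    rw [h3, ← h4]
    rfl

end Cfsg.Agent.S4452
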