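import Cfsg.Statements.S4454
import Cfsg.Agent.CT.GlExtra

set_option autoImplicit false
open Cfsg

namespace Cfsg.Agent.S4454


/-- Let N ≤ G be normal subgroups of the finite group Γ with Γ/G cyclic and Γ/N a Frobenius group with kernel G/N: G ≠ Γ, N ≠ G, and no element of Γ outside G fixes a non-identity coset of N in G under conjugation. Let ϑ be an irreducible character of N invariant under conjugation by Γ and suppose ϑ is fully ramified in G: the character of G induced from ϑ equals e·χ for an irreducible character χ of G and a natural number e. Then the index of G in Γ divides e − 1 or e + 1. -/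
theorem result {Γ : Type*} [Group Γ] [Fintype Γ] (G N : Subgroup Γ) [hG : G.Normal] [hN : N.Normal] [Fintype G] [Fintype N] (hNG : N ≤ G) (hGlt : G ≠ ⊤) (hNlt : N ≠ G) (hcyc : IsCyclic (Γ ⧸ G)) (hfrob : ∀ x : Γ, x ∉ G → ∀ g : Γ, g ∈ G → x * g * x⁻¹ * g⁻¹ ∈ N → g ∈ N) (θ : Cfsg.IrrCharacter N) (hinv : ∀ (x : Γ) (n : N), (θ : N → ℂ) ⟨x * n * x⁻¹, hN.conj_mem n n.2 x⟩ = (θ : N → ℂ) n) (χ : Cfsg.IrrCharacter G) (e : ℕ) (hram : Cfsg.indFun (N.subgroupOf G) (fun n : N.subgroupOf G => (θ : N → ℂ) ⟨(n : G), n.2⟩) = fun g => (e : ℂ) * (χ : G → ℂ) g) : (G.index : ℤ) ∣ (e : ℤ) - 1 ∨ (G.index : ℤ) ∣ (e : ℤ) + 1 := by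
  classical
  have := Fintype.ofFinite (N.subgroupOf G)
  have hθ : charInertia θ.1 = ⊤ := charInertia_eq_top_iff.2 hinv
  have hθ' : charInertia (θ.subgroupOf hNG).1 = ⊤ :=
    charInertia_subgroupOf_eq_top hNG (hθ ▸ le_top)
  have hram' : indFun (N.subgroupOf G) (θ.subgroupOf hNG).1 = fun g => (e : ℂ) * χ.1 g := hram
  have he : (e : ℂ) ≠ 0 := fun h => by
    have := congrFun hram' 1
    rw [indFun_one, h, zero_mul] at this
    exact mul_ne_zero (Nat.cast_ne_zero.2 Subgroup.FiniteIndex.index_ne_zero)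
      (θ.subgroupOf hNG).one_ne_zero this
  have hover : ∀ η : IrrCharacter G, classInner (fun n : N.subgroupOf G => η.1 n)
      (θ.subgroupOf hNG).1 = e * classInner η.1 χ.1 := fun η => by
    rw [← classInner_indFun_right _ _ η.isClassFunction, hram', classInner_const_mul_right]
    simp
  have hres : ∀ n : N, χ.1 ⟨n, hNG n.2⟩ = e * θ.1 n := by
    have h1 := hover χ
    rw [χ.classInner_self, mul_one] at h1
    obtain ⟨e', -, h2, h3, -⟩ := clifford_of_invariant χ hθ' (h1 ▸ he)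
    intro n
    rw [← h1, h2]
    exact h3 ⟨⟨n, hNG n.2⟩, n.2⟩
  have hχinv : charInertia χ.1 = ⊤ := by
    rw [IrrCharacter.charInertia_eq_top_iff]
    intro x
    refine IrrCharacter.eq_of_classInner_ne_zero (right_ne_zero_of_mul (a := (e : ℂ)) ?_)
    rw [← hover, classInner_res_of_eq_mul (χ := (x • χ).1) (e := e)]
    · exact he
    · intro n
      rw [IrrCharacter.smul_apply]
      have h1 := hres ⟨x⁻¹ * n * x⁻¹⁻¹, hN.conj_mem _ n.2 _⟩
      rw [hinv x⁻¹ ⟨n, n.2⟩] at h1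
      simpa using h1
  obtain ⟨χh, hχh⟩ := exists_extension_of_isCyclic hcyc hχinv
  obtain ⟨q, hq⟩ := hcyc.exists_generator
  obtain ⟨s, rfl⟩ := QuotientGroup.mk_surjective q
  have hsG : s ∉ G := fun h => hGlt (eq_top_iff.2 fun g _ => by
    have h1 := hq (g : Γ ⧸ G)
    rw [(QuotientGroup.eq_one_iff s).2 h, Subgroup.zpowers_one_eq_bot, Subgroup.mem_bot] at h1
    exact (QuotientGroup.eq_one_iff g).1 h1)
  set H := N ⊔ Subgroup.zpowers s with hH
  have hNH : N ≤ H := le_sup_left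
  have hHG : ∀ x ∈ H, x ∈ G → x ∈ N := by
    intro x hx hxG
    obtain ⟨n, hn, y, hy, rfl⟩ := Subgroup.mem_sup_of_normal_left.1 hx
    refine N.mul_mem hn (hfrob s hsG y ((G.mul_mem_cancel_left (hNG hn)).1 hxG) ?_)
    rw [← (commute_of_mem_zpowers (Commute.refl s) hy).symm.eq]
    simp
  have hGH : G ⊔ H = ⊤ := by
    rw [eq_top_iff]
    intro g _
    obtain ⟨k, hk⟩ := Subgroup.mem_zpowers_iff.1 (hq (g : Γ ⧸ G))
    have h1 : (s ^ k)⁻¹ * g ∈ G := QuotientGroup.eq.1 hk
    have h2 : s ^ k ∈ G ⊔ H := (le_sup_right : H ≤ _) ((le_sup_right : _ ≤ H)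
      (Subgroup.zpow_mem_zpowers s k))
    simpa using (G ⊔ H).mul_mem h2 ((le_sup_left : G ≤ _) h1)
  have hcard : Nat.card (H ⧸ N.subgroupOf H) = G.index := by
    have h1 : N.subgroupOf H = G.subgroupOf H := by
      ext x
      exact ⟨fun h => hNG h, fun h => hHG x x.2 h⟩
    rw [← Subgroup.index_eq_card, h1, ← Subgroup.relIndex, ← Subgroup.relIndex_sup_left, hGH,
      Subgroup.relIndex_top_right]
  obtain ⟨θh, hθh⟩ := exists_extension_sup_zpowers (θ := θ) (g := s) (hθ ▸ Subgroup.mem_top s)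
  have hθh' : ∀ n : N.subgroupOf H, θh.1 n = (θ.subgroupOf hNH).1 n := fun n => hθh ⟨n, n.2⟩
  obtain ⟨ψ, hψ, hψ'⟩ := (χh.isCharacter.res H).exists_gallagher_factor θh.isCharacter hθh'
    (e := e) (fun n => (hχh ⟨n, hNG n.2⟩).trans (hres ⟨n, n.2⟩))
  haveI := (isCyclic_quotient_sup_zpowers (N := N) s).isMulCommutative
  haveI : Nontrivial (H ⧸ N.subgroupOf H) := by
    rw [← Finite.one_lt_card_iff_nontrivial, hcard]
    exact Subgroup.one_lt_index_of_ne_top hGlt
  obtain ⟨c, ε, -, hε, h1, -⟩ := hψ.isGeneralizedCharacter.exists_eq_regular_add_sign (by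
    intro q hq
    obtain ⟨x, rfl⟩ := QuotientGroup.mk_surjective q
    have hxG : (x : Γ) ∉ G := fun h => hq ((QuotientGroup.eq_one_iff x).2 (hHG x x.2 h))
    have hF : ∀ g y, χh.1 (g * y * g⁻¹) * (starRingEnd ℂ) (χh.1 (g * y * g⁻¹)) =
        χh.1 y * (starRingEnd ℂ) (χh.1 y) := fun g y => by rw [χh.isClassFunction]
    have h1 := sum_coset_eq_relIndex_smul hNG (x := (x : Γ)) (fun g hg => hG.conj_mem g hg x)
      (fun g hg d hd d' hd' h => hfrob x hxG g hg (by
        have h2 := congrArg (QuotientGroup.mk' N) h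
        simp only [map_mul, map_inv, QuotientGroup.mk'_apply, (QuotientGroup.eq_one_iff d).2 hd,
          (QuotientGroup.eq_one_iff d').2 hd', one_mul] at h2
        rw [← QuotientGroup.eq_one_iff]
        simp only [QuotientGroup.mk_mul, QuotientGroup.mk_inv]
        rw [mul_inv_eq_iff_eq_mul] at h2
        rw [← h2]
        group))
      (fun y => χh.1 y * (starRingEnd ℂ) (χh.1 y)) (fun g _ => hF g)
    rw [sum_coset_left_eq_right (F := fun y => χh.1 y * (starRingEnd ℂ) (χh.1 y)) hF,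
      sum_coset_left_eq_right (F := fun y => χh.1 y * (starRingEnd ℂ) (χh.1 y)) hF,
      sum_coset_mul_conj χh.isCharacter (isIrr_res_of_extends hχh)] at h1
    have := Fintype.ofFinite (N.subgroupOf H)
    have h3 := sum_coset_mul_conj θh.isCharacter (isIrr_res_of_extends hθh') x
    have h4 : ∑ n : N, χh.1 (x * n) * (starRingEnd ℂ) (χh.1 (x * n)) =
        ψ x * (starRingEnd ℂ) (ψ x) * Nat.card N := by
      rw [← card_subgroupOf_of_le hNH, ← h3, Finset.mul_sum]
      refine (Fintype.sum_equiv (Subgroup.subgroupOfEquivOfLe hNH).toEquiv _ _ (fun n => ?_)).symm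
      have h5 := hψ' (x * n)
      rw [QuotientGroup.mk_mul, (QuotientGroup.eq_one_iff (n : H)).2 n.2, mul_one] at h5
      change _ = χh.1 ((x * n : H) : Γ) * (starRingEnd ℂ) (χh.1 ((x * n : H) : Γ))
      rw [h5, map_mul]
      ring
    rw [h4, ← card_mul_relIndex hNG, nsmul_eq_mul, Nat.cast_mul] at h1
    have h6 : (Nat.card N : ℂ) * N.relIndex G ≠ 0 := by
      rw [← Nat.cast_mul, card_mul_relIndex hNG]
      exact Nat.cast_ne_zero.2 Nat.card_pos.ne'
    refine mul_left_cancel₀ h6 ?_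
    linear_combination -h1)
  have h2 : ψ 1 = e := by
    have h3 := hψ' 1
    have h4 : θh.1 1 = θ.1 1 := hθh 1
    have h5 : χh.1 1 = e * θ.1 1 := (hχh 1).trans (hres 1)
    rw [h4, QuotientGroup.mk_one, OneMemClass.coe_one, h5] at h3
    exact (mul_right_cancel₀ θ.one_ne_zero h3).symm
  rw [h2, hcard] at h1
  have h6 : (e : ℤ) = c * G.index + ε := by exact_mod_cast h1
  rcases hε with rfl | rfl
  · exact Or.inl ⟨c, by rw [h6]; ring⟩
  · exact Or.inr ⟨c, by rw [h6]; ring⟩

end Cfsg.Agent.S4454
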