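import Cfsg.Statements.S4456
import Cfsg.Agent.CT.Degrees

set_option autoImplicit false
open Cfsg

namespace Cfsg.Agent.S4456

/-- Let p be a prime and G a finite group such that p divides the degree of every irreducible character of G of degree greater than one. Then G has a normal p-complement: a normal subgroup of order prime to p whose index is a power of p. -/
theorem result {G : Type*} [Group G] [Finite G] (p : ℕ) (hp : p.Prime) (hdeg : ∀ χ : Cfsg.IrrCharacter G, Cfsg.charDegree (χ : G → ℂ) ≠ 1 → p ∣ Cfsg.charDegree (χ : G → ℂ)) : ∃ N : Subgroup G, N.Normal ∧ (Nat.card N).Coprime p ∧ ∃ k : ℕ, N.index = p ^ k := by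
  have : Fact p.Prime := ⟨hp⟩
  exact hasNormalPComplement_iff_exists_coprime.1 (hasNormalPComplement_of_dvd_charDegree hdeg)

end Cfsg.Agent.S4456
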