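import Cfsg.Statements.S4459
import Cfsg.Agent.CT.Degrees
import Cfsg.Agent.Grp.Misc

set_option autoImplicit false
open Cfsg

namespace Cfsg.Agent.S4459

open scoped commutatorElement

universe u

variable {G : Type u} [Group G] [Finite G]

/-- `z ↦ [w, z]` on an abelian normal subgroup -/
def phi (Z : Subgroup G) [Z.Normal] [IsMulCommutative Z] (w : G) : Z →* Z :=
  MonoidHom.mk' (fun z => MulAut.conjNormal w z * z⁻¹) fun a b => by
    rw [map_mul, mul_inv_rev, mul_assoc, mul_assoc, ← mul_assoc (MulAut.conjNormal w b),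
      mul_comm' _ a⁻¹]

omit [Finite G] in
theorem phi_apply (Z : Subgroup G) [Z.Normal] [IsMulCommutative Z] (w : G) (z : Z) :
    phi Z w z = MulAut.conjNormal w z * z⁻¹ := rfl

theorem mem_inertia_iff {Z : Subgroup G} [Z.Normal] [IsMulCommutative Z] (w : G)
    (θ : IrrCharacter Z) : w ∈ charInertia θ.1 ↔ (phi Z w).range ≤ charKer θ.1 := by
  obtain ⟨l, rfl⟩ := θ.exists_eq_ofHom θ.charDegree_eq_one_of_comm
  rw [mem_charInertia_ofHom, IrrCharacter.charKer_ofHom]
  refine ⟨fun h => ?_, fun h n => ?_⟩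
  · rintro _ ⟨z, rfl⟩
    rw [MonoidHom.mem_ker, phi_apply, map_mul, map_inv, mul_inv_eq_one]
    exact h z
  · have h1 := h ⟨n, rfl⟩
    rwa [MonoidHom.mem_ker, phi_apply, map_mul, map_inv, mul_inv_eq_one] at h1

open Classical in
theorem card_filter_ker {Z : Type u} [Group Z] [Finite Z] [IsMulCommutative Z] (D : Subgroup Z) :
    ((Finset.univ.filter fun θ : IrrCharacter Z => D ≤ charKer θ.1).card : ℚ) =
      Nat.card Z / Nat.card D := by
  have h := sum_charDegree_sq_le_charKer D
  simp only [IrrCharacter.charDegree_eq_one_of_comm, one_pow, Finset.sum_const, smul_eq_mul,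
    mul_one] at h
  have h2 : (Nat.card D : ℚ) ≠ 0 := by exact_mod_cast Nat.card_pos.ne'
  rw [h, ← D.card_mul_index, eq_div_iff h2]
  push_cast; ring

theorem center_index {p : ℕ} (hp : p.Prime) {Z : Subgroup G} [Z.Normal] [hZ : IsMulCommutative Z]
    (hZi : Z.index = p ^ 2) (hG' : commutator G ≤ Z) (hGp : IsPGroup p (commutator G))
    (hT : ∀ θ : IrrCharacter Z, charInertia θ.1 ≠ Z) (hG : ¬ IsMulCommutative G)
    (hno : ∀ A : Subgroup G, A.Normal → IsMulCommutative A → A.index ≠ p) :
    (Subgroup.center G).index = p ^ 3 := by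
  classical
  have : Fact p.Prime := ⟨hp⟩
  have hidx : ∀ T : Subgroup G, Z ≤ T → T ≠ Z → T.index = 1 ∨ T.index = p := fun T h1 h2 => by
    have h3 := Subgroup.index_dvd_of_le h1
    rw [hZi] at h3
    obtain ⟨k, hk, h4⟩ := (Nat.dvd_prime_pow hp).1 h3
    interval_cases k
    · exact Or.inl h4
    · exact Or.inr (by simpa using h4)
    · refine absurd (le_antisymm (Subgroup.relIndex_eq_one.1 ?_) h1) h2
      have h5 := Subgroup.relIndex_mul_index h1
      rw [h4, hZi] at h5
      exact (Nat.mul_eq_right (pow_pos hp.pos 2).ne').1 h5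
  have hnorm : ∀ T : Subgroup G, Z ≤ T → T.Normal := fun T h =>
    Subgroup.Normal.of_commutator_le G (hG'.trans h)
  have hcent : ∀ w, w ∈ Subgroup.centralizer (Z : Set G) → w ∈ Z := fun w hw => by
    by_contra hwZ
    have h1 := isMulCommutative_sup_zpowers hZ hw
    rcases hidx (Z ⊔ Subgroup.zpowers w) le_sup_left
      (fun h => hwZ (h ▸ Subgroup.mem_sup_right (Subgroup.mem_zpowers w))) with h | h
    · rw [Subgroup.index_eq_one] at h
      rw [h] at h1
      exact hG ⟨⟨fun a b => congrArg Subtype.val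
        (h1.is_comm.comm ⟨a, Subgroup.mem_top a⟩ ⟨b, Subgroup.mem_top b⟩)⟩⟩
    · exact hno _ (hnorm _ le_sup_left) h1 h
  have hpow : ∀ w : G, w ^ p ∈ Z := fun w => hcent _
    (mem_centralizer_of_forall_mem_charInertia hZ fun l => by
      have h1 := (IrrCharacter.ofHom l).le_charInertia
      have := hnorm _ h1
      rcases hidx _ h1 (hT _) with h | h
      · rw [Subgroup.index_eq_one.1 h]; trivial
      · exact h ▸ Subgroup.pow_index_mem _ w)
  have hM : ∀ w, w ∉ Z → (Z ⊔ Subgroup.zpowers w).index = p := fun w hw => by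
    refine (hidx _ le_sup_left
      (fun h => hw (h ▸ Subgroup.mem_sup_right (Subgroup.mem_zpowers w)))).resolve_left fun h => ?_
    have h1 := Subgroup.relIndex_mul_index (le_sup_left : Z ≤ Z ⊔ Subgroup.zpowers w)
    rw [h, mul_one, Subgroup.relIndex_sup_left, ← card_map_mk, MonoidHom.map_zpowers,
      Nat.card_zpowers, hZi] at h1
    have h2 : orderOf (QuotientGroup.mk' Z w) ∣ p := orderOf_dvd_of_pow_eq_one (by
      rw [← map_pow]; exact (QuotientGroup.eq_one_iff _).2 (hpow w))
    have h3 := Nat.le_of_dvd hp.pos h2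
    have := hp.one_lt
    rw [h1] at h3
    nlinarith
  have hker : ∀ (w : G) (z : Z), phi Z w z = 1 ↔ w * z = z * w := fun w z => by
    rw [phi_apply, mul_inv_eq_one, Subtype.ext_iff, MulAut.conjNormal_apply, mul_inv_eq_iff_eq_mul]
  have hD : ∀ w, w ∉ Z → (phi Z w).range ≠ ⊥ := fun w hw h =>
    hw (hcent w fun z hz => ((hker w ⟨z, hz⟩).1 (by
      rw [← Subgroup.mem_bot, ← h]; exact ⟨_, rfl⟩)).symm)
  have hDp : ∀ w, w ∉ Z → p ≤ Nat.card (phi Z w).range := fun w hw => by
    refine Nat.le_of_dvd Nat.card_pos (dvd_card_of_isPGroup_of_ne_bot ?_ (hD w hw))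
    refine (hGp.comap_of_injective Z.subtype Z.subtype_injective).to_le ?_
    rintro _ ⟨z, rfl⟩
    exact Subgroup.commutator_mem_commutator (Subgroup.mem_top w) (Subgroup.mem_top (z : G))
  have hn : ∀ y, y ∉ Z → Nat.card (phi Z y).range = p := by
    intro y hy
    obtain ⟨x, hx⟩ : ∃ x, x ∉ Z ⊔ Subgroup.zpowers y := by
      by_contra h
      push Not at h
      have h1 := hM y hy
      rw [(Subgroup.eq_top_iff' _).2 h, Subgroup.index_top] at h1
      exact hp.ne_one h1.symm
    have hxZ : x ∉ Z := fun h => hx (Subgroup.mem_sup_left h)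
    have hyx : y ∉ Z ⊔ Subgroup.zpowers x := fun h => by
      have h1 : Z ⊔ Subgroup.zpowers y ≤ Z ⊔ Subgroup.zpowers x :=
        sup_le le_sup_left ((Subgroup.zpowers_le).2 h)
      have h2 := Subgroup.relIndex_mul_index h1
      rw [hM x hxZ, hM y hy, Nat.mul_eq_right hp.pos.ne', Subgroup.relIndex_eq_one] at h2
      exact hx (h2 (Subgroup.mem_sup_right (Subgroup.mem_zpowers x)))
    have hj : ∀ j : ℕ, x ^ j * y ∉ Z := fun j h => hyx (by
      have h1 : x ^ j ∈ Z ⊔ Subgroup.zpowers x :=
        Subgroup.pow_mem _ (Subgroup.mem_sup_right (Subgroup.mem_zpowers x)) j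
      simpa using Subgroup.mul_mem _ (Subgroup.inv_mem _ h1) (Subgroup.mem_sup_left h))
    let S : Subgroup Z → Finset (IrrCharacter Z) := fun D =>
      Finset.univ.filter fun θ => D ≤ charKer θ.1
    have hcover : Finset.univ \ S (phi Z x).range ⊆ (Finset.range p).biUnion fun j =>
        S (phi Z (x ^ j * y)).range \ S ((phi Z (x ^ j * y)).range ⊔ (phi Z x).range) := by
      intro θ hθ
      simp only [S, Finset.mem_sdiff, Finset.mem_univ, true_and, Finset.mem_filter,
        Finset.mem_biUnion, Finset.mem_range, sup_le_iff, ← mem_inertia_iff] at hθ ⊢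
      have h1 := θ.le_charInertia
      have := hnorm _ h1
      have h2 : (charInertia θ.1).index = p := (hidx _ h1 (hT θ)).resolve_left fun h =>
        hθ (by rw [Subgroup.index_eq_one.1 h]; trivial)
      have h3 := sup_zpowers_eq_top_of_index_prime (h2 ▸ hp) hθ
      obtain ⟨t, ht, a, ha, e⟩ := mem_sup_normal_left.1 (h3 ▸ Subgroup.mem_top y⁻¹)
      obtain ⟨k, rfl⟩ := (mem_powers_iff_mem_zpowers.2 ha)
      have h4 : x ^ k * y = t⁻¹ := by
        rw [eq_inv_iff_mul_eq_one, mul_assoc, mul_eq_one_comm, mul_assoc]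
        simp only at e
        rw [e, mul_inv_cancel]
      refine ⟨k % p, Nat.mod_lt _ hp.pos, ?_, fun h => hθ h.2⟩
      have h5 : x ^ (k % p) * y = ((x ^ p) ^ (k / p))⁻¹ * t⁻¹ := by
        rw [← h4, ← pow_mul, eq_inv_mul_iff_mul_eq, ← mul_assoc, ← pow_add, Nat.div_add_mod]
      rw [h5]
      exact Subgroup.mul_mem _ (Subgroup.inv_mem _ (Subgroup.pow_mem _ (h1 (hpow x)) _))
        (Subgroup.inv_mem _ ht)
    have h1 := (Finset.card_le_card hcover).trans Finset.card_biUnion_le
    have hN : (0 : ℚ) < Nat.card Z := by exact_mod_cast Nat.card_pos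
    have hpos : ∀ D : Subgroup Z, (0 : ℚ) < Nat.card D := fun D => by exact_mod_cast Nat.card_pos
    have hp0 : (0 : ℚ) < p := by exact_mod_cast hp.pos
    have h2 : ∀ D D' : Subgroup Z, ((S D \ S (D ⊔ D')).card : ℚ) ≤
        (Nat.card Z - Nat.card Z / Nat.card D') / Nat.card D := fun D D' => by
      rw [Finset.cast_card_sdiff (fun θ hθ => by
        simp only [S, Finset.mem_filter, Finset.mem_univ, true_and, sup_le_iff] at hθ ⊢
        exact hθ.1), card_filter_ker, card_filter_ker, sub_div, div_div]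
      refine sub_le_sub_left (div_le_div_of_nonneg_left hN.le (hpos _) ?_) _
      rw [mul_comm]
      exact_mod_cast Nat.le_of_dvd (Nat.mul_pos Nat.card_pos Nat.card_pos)
        (card_sup_dvd_mul Subgroup.le_normalizer_of_normal)
    have h3 : (Nat.card Z - Nat.card Z / Nat.card (phi Z x).range : ℚ) ≤
        ∑ j ∈ Finset.range p, (Nat.card Z - Nat.card Z / Nat.card (phi Z x).range : ℚ) /
          Nat.card (phi Z (x ^ j * y)).range := by
      refine le_trans (le_of_eq ?_) ((Nat.cast_le.2 h1).trans ?_)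
      · rw [Finset.cast_card_sdiff (Finset.subset_univ _), card_filter_ker, Finset.card_univ,
          ← Nat.card_eq_fintype_card, card_irr_of_comm]
      · rw [Nat.cast_sum]
        exact Finset.sum_le_sum fun j _ => h2 _ _
    have h4 : (0 : ℚ) < Nat.card Z - Nat.card Z / Nat.card (phi Z x).range := by
      rw [sub_pos]
      refine div_lt_self hN ?_
      exact_mod_cast hp.one_lt.trans_le (hDp x hxZ)
    by_contra hne
    have h5 : p < Nat.card (phi Z y).range := lt_of_le_of_ne (hDp y hy) (Ne.symm hne)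
    generalize (Nat.card Z - Nat.card Z / Nat.card (phi Z x).range : ℚ) = c at h3 h4
    refine absurd h3 (not_le.2 ?_)
    refine (Finset.sum_lt_sum (g := fun _ => c / p) (fun j _ => ?_)
      ⟨0, Finset.mem_range.2 hp.pos, ?_⟩).trans_le (le_of_eq ?_)
    · exact div_le_div_of_nonneg_left h4.le hp0 (by exact_mod_cast hDp _ (hj j))
    · rw [pow_zero, one_mul]
      exact div_lt_div_of_pos_left h4 hp0 (by exact_mod_cast h5)
    · rw [Finset.sum_const, Finset.card_range, nsmul_eq_mul]; field_simp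
  obtain ⟨x, hx⟩ : ∃ x, x ∉ Z := by
    by_contra h
    push Not at h
    rw [(Subgroup.eq_top_iff' _).2 h, Subgroup.index_top] at hZi
    exact (Nat.one_lt_pow two_ne_zero hp.one_lt).ne hZi
  obtain ⟨θ, hθ⟩ := exists_irr_not_le_charKer (hD x hx)
  obtain ⟨y, hyT, hy⟩ := SetLike.exists_of_lt (lt_of_le_of_ne θ.le_charInertia (hT θ).symm)
  have hxT : x ∉ charInertia θ.1 := fun h => hθ ((mem_inertia_iff x θ).1 h)
  have hxy : x * y ∉ Z := fun h => hxT (by
    simpa using Subgroup.mul_mem _ (θ.le_charInertia h) (Subgroup.inv_mem _ hyT))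
  have hinf : (phi Z x).range ⊓ (phi Z y).range = ⊥ := by
    have h1 : Fact (Nat.card (phi Z x).range).Prime := ⟨by rw [hn x hx]; exact hp⟩
    rcases ((phi Z y).range.subgroupOf (phi Z x).range).eq_bot_or_eq_top_of_prime_card with h | h
    · rw [Subgroup.subgroupOf_eq_bot] at h
      exact h.symm.eq_bot
    · rw [Subgroup.subgroupOf_eq_top] at h
      exact absurd (h.trans ((mem_inertia_iff y θ).1 hyT)) hθ
  have htop : (Z ⊔ Subgroup.zpowers y) ⊔ Subgroup.zpowers x = ⊤ :=
    sup_zpowers_eq_top_of_index_prime (by rw [hM y hy]; exact hp) fun h =>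
      hxT (sup_le θ.le_charInertia ((Subgroup.zpowers_le).2 hyT) h)
  have hcen : Subgroup.center G = (phi Z (x * y)).ker.map Z.subtype := by
    refine le_antisymm (fun z hz => ⟨⟨z, hcent z (Subgroup.center_le_centralizer _ hz)⟩,
      (hker _ _).2 (Subgroup.mem_center_iff.1 hz _), rfl⟩) ?_
    rintro _ ⟨z, hz, rfl⟩
    have h1 : phi Z (x * y) z = phi Z x (MulAut.conjNormal y z) * phi Z y z := by
      simp only [phi_apply, map_mul, MulAut.mul_apply, mul_assoc, inv_mul_cancel_left]
    rw [SetLike.mem_coe, MonoidHom.mem_ker, h1, mul_eq_one_iff_inv_eq] at hz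
    have h2 : phi Z y z = 1 := by
      rw [← Subgroup.mem_bot, ← hinf]
      exact ⟨hz ▸ Subgroup.inv_mem _ ⟨_, rfl⟩, _, rfl⟩
    have h3 : MulAut.conjNormal y z = z := mul_inv_eq_one.1 h2
    rw [h2, h3, inv_eq_one] at hz
    have h4 : (⊤ : Subgroup G) ≤ Subgroup.centralizer {(z : G)} := by
      rw [← htop]
      refine sup_le (sup_le (fun a ha => ?_) ?_) ?_
      · exact Subgroup.mem_centralizer_singleton_iff.2
          (congrArg Subtype.val (mul_comm' (⟨a, ha⟩ : Z) z))
      · exact (Subgroup.zpowers_le).2 (Subgroup.mem_centralizer_singleton_iff.2 ((hker _ _).1 h2))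
      · exact (Subgroup.zpowers_le).2 (Subgroup.mem_centralizer_singleton_iff.2 ((hker _ _).1 hz))
    exact Subgroup.mem_center_iff.2 fun g =>
      Subgroup.mem_centralizer_singleton_iff.1 (h4 (Subgroup.mem_top g))
  rw [hcen, Subgroup.index_map_subtype, Subgroup.index_ker, hn _ hxy, hZi]
  ring

theorem comm_charCenter {m : ℕ}
    (hcd : ∀ χ : IrrCharacter G, charDegree χ.1 = 1 ∨ charDegree χ.1 = m) (hm : m.Prime)
    (χ : IrrCharacter G) (hχ : charDegree χ.1 = m) : IsMulCommutative (charCenter χ.1) := by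
  classical
  have := Fintype.ofFinite G
  refine isMulCommutative_iff_forall_charDegree_eq_one.2 fun ψ => ?_
  obtain ⟨β, hβ⟩ := ψ.exists_over
  have h1 := clifford_charDegree_dvd β hβ
  rcases hcd β with h | h
  · exact Nat.dvd_one.1 (h ▸ h1)
  refine ((Nat.dvd_prime hm).1 (h ▸ h1)).resolve_right fun h2 => ?_
  have hext := IrrCharacter.extends_of_charDegree_le β.isCharacter hβ (by omega)
  obtain ⟨l, -, hl, -⟩ := χ.isCharacter.exists_hom_of_le_charCenter
    (fun h => χ.one_ne_zero (congrFun h 1)) le_rfl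
  have h3 := isaacs616_isIrr (φ := IrrCharacter.ofHom l)
    (charInertia_eq_top_of_res_eq χ.isClassFunction χ.one_ne_zero hl)
    (ψ.2.mul_of_charDegree_eq_one (IrrCharacter.ofHom l).isCharacter
      (IrrCharacter.charDegree_ofHom l)) β.isCharacter hext χ
    (by rw [classInner_res_of_eq_mul hl]; exact χ.one_ne_zero)
  have h4 := hcd ⟨_, h3⟩
  rw [χ.isCharacter.charDegree_mul β.isCharacter, hχ, h] at h4
  have := hm.one_lt
  rcases h4 with h4 | h4 <;> nlinarith

/-- Let G be a non-abelian finite group and p a prime. Then the irreducible character degrees of G are exactly 1 and p if and only if either G has an abelian normal subgroup of index p or the centre of G has index p³. -/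
theorem result {G : Type*} [Group G] [Finite G] (hG : ∃ a b : G, a * b ≠ b * a) (p : ℕ) (hp : p.Prime) : ((∀ χ : Cfsg.IrrCharacter G, Cfsg.charDegree (χ : G → ℂ) = 1 ∨ Cfsg.charDegree (χ : G → ℂ) = p) ∧ ∃ χ : Cfsg.IrrCharacter G, Cfsg.charDegree (χ : G → ℂ) = p) ↔ ((∃ A : Subgroup G, A.Normal ∧ (∀ a ∈ A, ∀ b ∈ A, a * b = b * a) ∧ A.index = p) ∨ (Subgroup.center G).index = p ^ 3) := by
  classical
  have := Fintype.ofFinite G
  have : Fact p.Prime := ⟨hp⟩
  have hG' : ¬ IsMulCommutative G := fun h => by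
    obtain ⟨a, b, hab⟩ := hG
    exact hab (mul_comm' a b)
  constructor
  · rintro ⟨hcd, hm⟩
    by_cases hno : ∃ A : Subgroup G, A.Normal ∧ IsMulCommutative A ∧ A.index = p
    · obtain ⟨A, h1, h2, h3⟩ := hno
      exact Or.inl ⟨A, h1, fun a ha b hb => congrArg Subtype.val (mul_comm' (⟨a, ha⟩ : A) ⟨b, hb⟩), h3⟩
    right
    obtain ⟨q, e, hq, he, h1, -, h2⟩ := (two_degrees_structure hcd hm hp.ne_one).resolve_left hno
    obtain rfl : q = p := by
      rcases e with _ | e
      · exact absurd he (by simpa using hp.ne_one)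
      · exact (Nat.prime_dvd_prime_iff_eq hq hp).1 (he ▸ dvd_pow_self q (by omega))
    have h3 : ¬ commutator G ≤ ⁅commutator G, (⊤ : Subgroup G)⁆ := fun h =>
      hG' (Subgroup.center_eq_top_iff.1 ((commutator_eq_bot_iff_center_eq_top G).1
        (eq_bot_of_le_commutator_of_isNilpotent (P := ⊤) inferInstance le_top h)))
    obtain ⟨g, hg1, hg2⟩ := SetLike.not_le_iff_exists.1 h3
    obtain ⟨χ, h4, h5⟩ := exists_irr_le_charKer_notMem _ hg2
    have h6 : charDegree χ.1 = q := (hcd χ).resolve_left fun h =>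
      h5 (χ.charDegree_eq_one_iff_commutator_le.1 h hg1)
    have h7 : commutator G ≤ charCenter χ.1 := fun a ha =>
      χ.mem_charCenter_iff_commutator.2 fun x =>
        h4 (Subgroup.commutator_mem_commutator ha (Subgroup.mem_top x))
    have h8 := χ.sq_charDegree_eq_index_of_commutator_le h7
    rw [h6] at h8
    have := comm_charCenter hcd hq χ h6
    refine center_index hq h8.symm h7 ((isPGroup_pCore q G).to_le h2) (fun θ hθ => ?_) hG'
      fun A h1 h2 h3 => hno ⟨A, h1, h2, h3⟩
    have h9 := hcd ⟨_, θ.isIrr_indFun_iff.2 hθ⟩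
    rw [θ.isCharacter.charDegree_indFun, ← h8, θ.charDegree_eq_one_of_comm] at h9
    have := hq.one_lt
    rcases h9 with h9 | h9 <;> nlinarith
  · intro h
    have hcd : ∀ χ : IrrCharacter G, charDegree χ.1 = 1 ∨ charDegree χ.1 = p := fun χ => by
      rcases h with ⟨A, h1, h2, h3⟩ | h
      · exact (Nat.dvd_prime hp).1 (h3 ▸ ito_charDegree_dvd_index
          ⟨⟨fun a b => Subtype.ext (h2 a a.2 b b.2)⟩⟩ χ)
      · have h1 := χ.charDegree_dvd_index_center
        have h2 := χ.sq_charDegree_le_index_center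
        rw [h] at h1 h2
        obtain ⟨k, -, hk⟩ := (Nat.dvd_prime_pow hp).1 h1
        rw [hk, ← pow_mul, Nat.pow_le_pow_iff_right hp.one_lt] at h2
        obtain rfl | rfl : k = 0 ∨ k = 1 := by omega
        · exact Or.inl hk
        · exact Or.inr (by simpa using hk)
    refine ⟨hcd, ?_⟩
    by_contra hne
    push Not at hne
    exact hG' (isMulCommutative_iff_forall_charDegree_eq_one.2 fun χ =>
      (hcd χ).resolve_right (hne χ))

end Cfsg.Agent.S4459
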