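import Cfsg.Statements.S4460
import Cfsg.Agent.CT.Degrees2

set_option autoImplicit false
open Cfsg

namespace Cfsg.Agent.S4460

/-- A finite group with exactly three distinct irreducible character degrees is solvable of derived length at most 3: its third derived subgroup is trivial. -/
theorem result {G : Type*} [Group G] [Finite G] (hcd : Nat.card {n : ℕ // ∃ χ : Cfsg.IrrCharacter G, Cfsg.charDegree (χ : G → ℂ) = n} = 3) : derivedSeries G 3 = ⊥ := by
  have h1 : {n : ℕ | ∃ χ : IrrCharacter G, charDegree χ.1 = n}.ncard = 3 := hcd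
  obtain ⟨a, b, c, -, -, -, h2⟩ := Set.ncard_eq_three.1 h1
  have h3 : ∀ χ : IrrCharacter G, charDegree χ.1 = a ∨ charDegree χ.1 = b ∨ charDegree χ.1 = c :=
    fun χ => by
      have : charDegree χ.1 ∈ ({a, b, c} : Set ℕ) := h2 ▸ ⟨χ, rfl⟩
      simpa using this
  have h4 := h3 (IrrCharacter.triv G)
  rw [IrrCharacter.charDegree_triv] at h4
  rcases h4 with h | h | h
  · exact derivedSeries_three_eq_bot_of_three_degrees (m := b) (n := c) fun χ => by
      have := h3 χ; omega
  · exact derivedSeries_three_eq_bot_of_three_degrees (m := a) (n := c) fun χ => by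
      have := h3 χ; omega
  · exact derivedSeries_three_eq_bot_of_three_degrees (m := a) (n := b) fun χ => by
      have := h3 χ; omega

end Cfsg.Agent.S4460
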