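import Cfsg.Statements.S4462
import Cfsg.Agent.CT.Degrees2

set_option autoImplicit false
open Cfsg

namespace Cfsg.Agent.S4462

universe u

theorem nilpotent_comap {G : Type u} [Group G] (F : Subgroup G) [F.Normal]
    (A B : Subgroup (G ⧸ F)) [(A.subgroupOf B).Normal]
    [((A.comap (QuotientGroup.mk' F)).subgroupOf (B.comap (QuotientGroup.mk' F))).Normal]
    (h : Group.IsNilpotent (B ⧸ A.subgroupOf B)) :
    Group.IsNilpotent (B.comap (QuotientGroup.mk' F) ⧸
      (A.comap (QuotientGroup.mk' F)).subgroupOf (B.comap (QuotientGroup.mk' F))) := by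
  let f := QuotientGroup.map ((A.comap (QuotientGroup.mk' F)).subgroupOf
    (B.comap (QuotientGroup.mk' F))) (A.subgroupOf B) ((QuotientGroup.mk' F).subgroupComap B)
    fun x hx => hx
  refine Subgroup.isNilpotent_of_ker_le_center f ?_
  intro x hx
  obtain ⟨x, rfl⟩ := QuotientGroup.mk_surjective x
  have h1 : (x : _ ⧸ (A.comap (QuotientGroup.mk' F)).subgroupOf
      (B.comap (QuotientGroup.mk' F))) = 1 :=
    (QuotientGroup.eq_one_iff _).2 ((QuotientGroup.eq_one_iff (N := A.subgroupOf B)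
      ((QuotientGroup.mk' F).subgroupComap B x)).1 hx)
  rw [h1]; exact Subgroup.one_mem _

theorem aux (n : ℕ) : ∀ (G : Type u) [Group G] [Finite G], Group.IsSolvable G →
    (charDegrees G).ncard ≤ n + 1 →
    ∃ N : ℕ → Subgroup G, N 0 = ⊥ ∧ N (n + 1) = ⊤ ∧ Monotone N ∧ (∀ i, (N i).Normal) ∧
      ∀ i, ∀ _ : ((N i).subgroupOf (N (i + 1))).Normal,
        Group.IsNilpotent (N (i + 1) ⧸ (N i).subgroupOf (N (i + 1))) := by
  have base : ∀ (G : Type u) [Group G] [Finite G], Group.IsNilpotent G →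
      ∃ N : ℕ → Subgroup G, N 0 = ⊥ ∧ (∀ n, N (n + 1) = ⊤) ∧ Monotone N ∧ (∀ i, (N i).Normal) ∧
      ∀ i, ∀ _ : ((N i).subgroupOf (N (i + 1))).Normal,
        Group.IsNilpotent (N (i + 1) ⧸ (N i).subgroupOf (N (i + 1))) := fun G _ _ h =>
    ⟨fun i => if i = 0 then ⊥ else ⊤, rfl, fun _ => rfl, monotone_nat_of_le_succ fun _ => le_top,
      fun i => by dsimp only; split_ifs <;> infer_instance, fun _ _ => inferInstance⟩
  have step : ∀ (G : Type u) [Group G] [Finite G], Group.IsSolvable G → ¬ Group.IsNilpotent G →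
      (charDegrees (G ⧸ fittingSubgroup G)).ncard < (charDegrees G).ncard := fun G _ _ hs hn => by
    obtain ⟨χ, hχ⟩ := Finite.exists_max fun χ : IrrCharacter G => charDegree χ.1
    refine Set.ncard_lt_ncard ⟨?_, fun h => ?_⟩ finite_charDegrees
    · rintro _ ⟨ψ, rfl⟩
      exact ⟨ψ.inflate _, IrrCharacter.charDegree_inflate _ _⟩
    · obtain ⟨ψ, hψ⟩ := h ⟨χ, rfl⟩
      rw [← IrrCharacter.charDegree_inflate] at hψ
      have h1 := ψ.le_charKer_inflate _
      by_cases h2 : charKer (ψ.inflate _).1 ≤ fittingSubgroup G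
      · obtain ⟨ξ, h3, -⟩ := (ψ.inflate _).exists_lt_of_eq_fitting (le_antisymm h2 h1)
          inferInstance fun h => hn (fittingSubgroup_eq_top_iff.1 (top_le_iff.1 (h ▸ h2)))
        have := hχ ξ
        omega
      · obtain ⟨ξ, h3, -⟩ := (ψ.inflate _).exists_lt_of_not_le_fitting h2
        have := hχ ξ
        omega
  induction n with
  | zero =>
    intro G _ _ hs h
    by_cases hn : Group.IsNilpotent G
    · obtain ⟨N, h1, h2, h3⟩ := base G hn
      exact ⟨N, h1, h2 _, h3⟩
    · have h1 := step G hs hn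
      have h2 : 0 < (charDegrees (G ⧸ fittingSubgroup G)).ncard :=
        (Set.ncard_pos finite_charDegrees).2 ⟨_, IrrCharacter.triv _, rfl⟩
      omega
  | succ n ih =>
    intro G _ _ hs h
    by_cases hn : Group.IsNilpotent G
    · obtain ⟨N, h1, h2, h3⟩ := base G hn
      exact ⟨N, h1, h2 _, h3⟩
    · have h1 := step G hs hn
      obtain ⟨N, h2, h3, h4, h5, h6⟩ := ih (G ⧸ fittingSubgroup G) inferInstance (by omega)
      refine ⟨fun i => Nat.casesOn i ⊥ fun i => (N i).comap (QuotientGroup.mk' _), rfl, ?_,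
        monotone_nat_of_le_succ fun i => ?_, fun i => ?_, fun i _ => ?_⟩
      · change (N (n + 1)).comap _ = ⊤
        rw [h3, Subgroup.comap_top]
      · rcases i with _ | i
        · exact bot_le
        · exact Subgroup.comap_mono (h4 (Nat.le_succ i))
      · rcases i with _ | i
        · exact Subgroup.normal_bot
        · exact (h5 i).comap _
      · rcases i with _ | i
        · have h7 : Group.IsNilpotent ((N 0).comap (QuotientGroup.mk' (fittingSubgroup G))) := by
            rw [h2, MonoidHom.comap_bot, QuotientGroup.ker_mk']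
            exact isNilpotent_fittingSubgroup G
          exact nilpotent_quotient_of_nilpotent _
        · have := h5 i
          exact nilpotent_comap _ _ _ (h6 i inferInstance)

/-- Let G be a finite solvable group with exactly n distinct irreducible character degrees. Then G has normal subgroups 1 = N₀ ≤ N₁ ≤ ⋯ ≤ Nₙ = G with every quotient N_{i+1}/N_i nilpotent (the nilpotent length of G is at most n). -/
theorem result {G : Type*} [Group G] [Finite G] (hsolv : Group.IsSolvable G) (n : ℕ) (hcd : Nat.card {d : ℕ // ∃ χ : Cfsg.IrrCharacter G, Cfsg.charDegree (χ : G → ℂ) = d} = n) : ∃ N : Fin (n + 1) → Subgroup G, N 0 = ⊥ ∧ N (Fin.last n) = ⊤ ∧ Monotone N ∧ (∀ i, (N i).Normal) ∧ ∀ i : Fin n, ∀ h : (N i.castSucc).subgroupOf (N i.succ) |>.Normal, Group.IsNilpotent (↥(N i.succ) ⧸ (N i.castSucc).subgroupOf (N i.succ)) := by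
  have h1 : (charDegrees G).ncard = n := hcd
  have h2 : 0 < (charDegrees G).ncard :=
    (Set.ncard_pos finite_charDegrees).2 ⟨_, IrrCharacter.triv _, rfl⟩
  obtain ⟨n, rfl⟩ : ∃ k, n = k + 1 := ⟨n - 1, by omega⟩
  obtain ⟨N, h3, h4, h5, h6, h7⟩ := aux n G hsolv h1.le
  exact ⟨fun i => N i, h3, h4, fun i j hij => h5 hij, fun i => h6 i, fun i h => h7 i h⟩

end Cfsg.Agent.S4462
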