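import Cfsg.Statements.S4464
import Cfsg.Agent.CT.Feit
import Cfsg.Agent.CT.Burnside

set_option autoImplicit false
open Cfsg

namespace Cfsg.Agent.S4464

open scoped Pointwise

/-- Let p be a prime and G a finite group all of whose irreducible character degrees are less than p. Then G has a normal abelian Sylow p-subgroup. -/
theorem result {G : Type*} [Group G] [Finite G] (p : ℕ) (hp : p.Prime) (hb : ∀ χ : Cfsg.IrrCharacter G, Cfsg.charDegree (χ : G → ℂ) < p) : ∃ P : Subgroup G, P.Normal ∧ (∀ x ∈ P, ∀ y ∈ P, x * y = y * x) ∧ IsPGroup p P ∧ ¬ p ∣ P.index := by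
  classical
  have : Fact p.Prime := ⟨hp⟩
  have := Fintype.ofFinite G
  obtain ⟨P⟩ : Nonempty (Sylow p G) := inferInstance
  set H := Subgroup.normalizer ((P : Subgroup G) : Set G) with hH
  have hall : ∀ χ : IrrCharacter G,
      classInner (fun x : H => χ.1 x) (fun _ => 1) = classInner χ.1 (fun _ => 1) := fun χ => by
    refine χ.isCharacter.classInner_res_one_eq_of_lt P.isPGroup' Subgroup.le_normalizer
      fun g hg => (hb χ).trans_le ?_
    obtain ⟨k, hk⟩ := (IsPGroup.iff_card.1 P.isPGroup')
    have hd : (MulAut.conj g • H).relIndex P ∣ p ^ k := hk ▸ Subgroup.relIndex_dvd_card _ _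
    obtain ⟨j, -, hj⟩ := (Nat.dvd_prime_pow hp).1 hd
    rw [hj]
    refine Nat.le_self_pow ?_ p
    rintro rfl
    rw [pow_zero, Subgroup.relIndex_eq_one, hH, ← normalizer_conj_smul] at hj
    have h1 : (P : Subgroup G) = MulAut.conj g • (P : Subgroup G) := by
      have h2 : IsPGroup p ((MulAut.conj g • (P : Subgroup G) ⊔ P : Subgroup G)) :=
        IsPGroup.to_sup_of_normal_left' (isPGroup_conj_smul P.isPGroup' g) P.isPGroup' hj
      have h3 := P.is_maximal' h2 le_sup_right
      refine (Subgroup.eq_of_le_of_card_ge (le_sup_left.trans h3.le) ?_).symm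
      rw [card_conj_smul]
    exact hg (conj_smul_eq_iff_mem_normalizer.1 h1.symm)
  have h1 : indFun H (fun _ => (1 : ℂ)) = fun _ => 1 :=
    (indFun_isClassFunction _ _).ext_classInner (IsClassFunction.const 1) fun χ => by
      rw [classInner_indFun_left _ _ χ.isClassFunction, ← conj_classInner, hall, conj_classInner]
  have h2 := congrFun h1 1
  rw [indFun_one, mul_one] at h2
  have h3 : H = ⊤ := Subgroup.index_eq_one.1 (by exact_mod_cast h2)
  have hcomm : IsMulCommutative P := by
    refine isMulCommutative_iff_forall_charDegree_eq_one.2 fun θ => ?_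
    obtain ⟨χ, hχ⟩ := θ.exists_over
    obtain ⟨k, hk⟩ := θ.exists_charDegree_eq_pow P.isPGroup'
    have h4 := (θ.charDegree_le_of_over χ.isCharacter hχ).trans_lt (hb χ)
    rw [hk] at h4 ⊢
    rcases k with _ | k
    · rfl
    · exact absurd h4 (not_lt.2 (Nat.le_self_pow (by omega) p))
  refine ⟨P, Subgroup.normalizer_eq_top_iff.1 h3, fun x hx y hy => ?_, P.isPGroup', P.not_dvd_index⟩
  exact congrArg Subtype.val (hcomm.is_comm.comm (⟨x, hx⟩ : P) ⟨y, hy⟩)

end Cfsg.Agent.S4464
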