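import Cfsg.Statements.S4463
import Cfsg.Agent.CT.Degrees2
import Cfsg.Agent.S4464

set_option autoImplicit false
open Cfsg

namespace Cfsg.Agent.S4463

universe u

theorem num1 {b : ℕ} (hb : 5 ≤ b) : b ^ 2 * (b / 2).factorial ≤ b.factorial := by
  obtain ⟨c, rfl⟩ : ∃ c, b = c + 3 := ⟨b - 3, by omega⟩
  have h1 : ((c + 3) / 2).factorial ≤ c.factorial := Nat.factorial_le (by omega)
  have h2 : (c + 3) ^ 2 ≤ (c + 3) * ((c + 2) * (c + 1)) := by nlinarith
  calc _ ≤ (c + 3) * ((c + 2) * (c + 1)) * c.factorial := Nat.mul_le_mul h2 h1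
    _ = _ := by simp only [Nat.factorial_succ]; ring

theorem num2 {b : ℕ} (hb : 5 ≤ b) : (b / 2).factorial ^ 2 * b ^ 4 ≤ b.factorial ^ 2 := by
  have := Nat.pow_le_pow_left (num1 hb) 2
  calc _ = (b ^ 2 * (b / 2).factorial) ^ 2 := by ring
    _ ≤ _ := this

theorem num3 {b : ℕ} (hb : 3 ≤ b) : (b / 2).factorial ^ 2 * b ^ 3 ≤ b.factorial ^ 2 := by
  by_cases h : 5 ≤ b
  · exact (Nat.mul_le_mul_left _ (Nat.pow_le_pow_right (by omega) (by omega))).trans (num2 h)
  · obtain rfl | rfl : b = 3 ∨ b = 4 := by omega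
    all_goals decide

theorem aux (b : ℕ) : ∀ (G : Type u) [Group G] [Finite G],
    (∀ χ : IrrCharacter G, charDegree χ.1 ≤ b) →
    ∃ A : Subgroup G, IsMulCommutative A ∧ A.index ≤ b.factorial ^ 2 := by
  induction b using Nat.strong_induction_on with
  | _ b ih =>
  intro G _ _ hb
  classical
  have := Fintype.ofFinite G
  have hsub : ∀ (L : Subgroup G) (c : ℕ), c < b → (∀ θ : IrrCharacter L, charDegree θ.1 ≤ c) →
      c.factorial ^ 2 * L.index ≤ b.factorial ^ 2 →
      ∃ A : Subgroup G, IsMulCommutative A ∧ A.index ≤ b.factorial ^ 2 := fun L c hc hL h => by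
    obtain ⟨A, h1, h2⟩ := ih c hc L hL
    refine ⟨A.map L.subtype, inferInstance, ?_⟩
    rw [Subgroup.index_map_subtype]
    exact (Nat.mul_le_mul_right _ h2).trans h
  have hb0 : 0 < b := (IrrCharacter.triv G).charDegree_pos.trans_le (hb _)
  have hsub1 : ∀ L : Subgroup G, (∀ θ : IrrCharacter L, charDegree θ.1 < b) → L.index ≤ b ^ 2 →
      ∃ A : Subgroup G, IsMulCommutative A ∧ A.index ≤ b.factorial ^ 2 := fun L hL h =>
    hsub L (b - 1) (by omega) (fun θ => by have := hL θ; omega) (by
      rw [← Nat.mul_factorial_pred hb0.ne', mul_pow, mul_comm]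
      exact Nat.mul_le_mul_right _ h)
  by_cases hab : commutator G = ⊥
  · have := Subgroup.center_eq_top_iff.1 ((commutator_eq_bot_iff_center_eq_top G).1 hab)
    exact ⟨⊤, inferInstance, by
      rw [Subgroup.index_top]; exact Nat.one_le_pow _ _ b.factorial_pos⟩
  obtain ⟨K, hK, -, h1, h2⟩ := exists_maximal_nonabelian_quotient (D := (⊥ : Subgroup G))
    (by rwa [le_bot_iff])
  have hhalf : ∀ θ : IrrCharacter K, charDegree θ.1 ≤ b / 2 := fun θ => by
    have := two_mul_charDegree_le_of_not_commutator_le hb h1 θ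
    omega
  by_cases hs : Group.IsSolvable (commutator (G ⧸ K))
  · obtain ⟨p, hp, ⟨-, χ, -, h3, h4⟩ | ⟨N, hN, hKN, -, h4, ⟨k, h5⟩, h6, h7, h8, χ, -, h9⟩⟩ :=
      minimal_nonabelian_quotient_structure h1 h2 hs
    · refine hsub1 (charCenter χ.1) (fun ψ => ?_) ?_
      · by_contra h5
        obtain ⟨β, hβ⟩ := ψ.exists_over
        have h6 := hb β
        have hext := IrrCharacter.extends_of_charDegree_le β.isCharacter hβ (by omega)
        have h7 := hb ⟨_, χ.isIrr_mul_of_res_charCenter β (isIrr_res_of_extends hext)⟩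
        rw [χ.isCharacter.charDegree_mul β.isCharacter, charDegree_eq_of_extends hext] at h7
        have h8 := χ.charDegree_pos
        have h9 : 2 ≤ charDegree χ.1 := by omega
        nlinarith
      · rw [← χ.sq_charDegree_eq_index_of_commutator_le h4]
        exact Nat.pow_le_pow_left (hb χ) 2
    · have h10 : N.index ≤ b := h9 ▸ hb χ
      have h11 : 2 ≤ N.index := by
        have := Subgroup.index_eq_one.not.2 h7
        have := N.index_ne_zero_of_finite
        omega
      by_cases h12 : ∀ θ : IrrCharacter N, charDegree θ.1 < b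
      · exact hsub1 N h12 (by nlinarith)
      push Not at h12
      obtain ⟨ψ, hψ⟩ := h12
      obtain ⟨β, hβ⟩ := ψ.exists_over
      have h12 : charDegree ψ.1 = b :=
        le_antisymm ((ψ.charDegree_le_of_over β.isCharacter hβ).trans (hb β)) hψ
      rcases frobenius_section_degree h4 h8 ψ with ⟨ξ, hξ⟩ | h
      · have := hb ξ
        nlinarith
      rw [h12] at h
      have h13 : b ≠ 2 := by
        rintro rfl
        have h14 : p ∣ 2 := hp.dvd_of_dvd_pow ((h5 ▸ dvd_pow_self p (by omega) :
          p ∣ K.relIndex N).trans h)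
        exact h6 ((show N.index = 2 by omega) ▸ h14)
      refine hsub K (b / 2) (by omega) hhalf (le_trans (Nat.mul_le_mul_left _ ?_) (num3 (by omega)))
      rw [← Subgroup.relIndex_mul_index hKN.le, pow_succ]
      exact Nat.mul_le_mul (Nat.le_of_dvd (by positivity) h) h10
  · have hmap := map_commutator_eq_of_surjective _ (QuotientGroup.mk'_surjective K)
    have hmin : ∀ L : Subgroup (G ⧸ K), L.Normal → L ≠ ⊥ → commutator (G ⧸ K) ≤ L :=
      fun L hL hL1 => by
        rw [← hmap, Subgroup.map_le_iff_le_comap]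
        refine h2 _ inferInstance (lt_of_le_of_ne (le_comap_mk K L) fun h => hL1 ?_)
        rw [← map_comap_mk K L, ← h, map_mk_eq_bot_iff]
    have hbq : ∀ χ : IrrCharacter (G ⧸ K), charDegree χ.1 ≤ b := fun χ => by
      rw [← IrrCharacter.charDegree_inflate]; exact hb _
    have : Nontrivial (G ⧸ K) := by
      by_contra h
      rw [not_nontrivial_iff_subsingleton] at h
      exact hs inferInstance
    obtain ⟨x, hx1, hx2⟩ := exists_index_centralizer_le_sq hbq
    rw [← index_comap_mk] at hx2
    set L := (Subgroup.centralizer ({x} : Set (G ⧸ K))).comap (QuotientGroup.mk' K) with hL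
    have hKL : K ≤ L := le_comap_mk _ _
    by_cases h12 : ∀ θ : IrrCharacter L, charDegree θ.1 < b
    · exact hsub1 L h12 hx2
    push Not at h12
    obtain ⟨ψ, hψ⟩ := h12
    have hcore : L.normalCore ≤ K := by
      by_contra h3
      have h4 := (h2 L.normalCore inferInstance (lt_of_le_of_ne
        (Subgroup.normal_le_normalCore.2 hKL) fun h => h3 h.ge)).trans L.normalCore_le
      rw [hL, ← Subgroup.map_le_iff_le_comap, hmap] at h4
      have h5 := hmin (Subgroup.centralizer (commutator (G ⧸ K) : Set (G ⧸ K))) inferInstance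
        fun h => hx1 (by
          rw [← Subgroup.mem_bot, ← h]
          exact fun g hg => Subgroup.mem_centralizer_singleton_iff.1 (h4 hg))
      exact hs (isSolvable_of_isMulCommutative (Subgroup.le_centralizer_iff_isMulCommutative.1 h5))
    obtain ⟨β, hβ⟩ := ψ.exists_over
    have h3 := (β.isCharacter.res L).eq_of_constituent_of_charDegree_eq ψ hβ
      (by rw [charDegree_res]; exact (hb β).trans hψ)
    have h4 : charDegree ψ.1 = b :=
      le_antisymm ((ψ.charDegree_le_of_over β.isCharacter hβ).trans (hb β)) hψ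
    have h5 := ψ.index_dvd_sq_of_vanish (K := K.subgroupOf L) fun g hg => by_contra fun h =>
      hg (hcore (β.mem_normalCore_of_forall_over (congrFun h3) (fun ξ _ => (hb ξ).trans hψ) g.2
        (fun h0 => h ((congrFun h3 g).symm.trans h0))))
    have h6 : 5 ≤ b := by
      by_contra h6
      have h7 : Group.IsSolvable (G ⧸ K) :=
        isSolvable_of_forall_prime_dvd Nat.prime_two Nat.prime_three fun r hr hd => by
          by_contra h7
          push Not at h7
          have h8 : 5 ≤ r := by
            have := hr.two_le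
            have h9 : r ≠ 4 := by rintro rfl; exact absurd hr (by norm_num)
            omega
          obtain ⟨P, hP1, hP2, -, hP4⟩ := S4464.result r hr fun χ => (hbq χ).trans_lt (by omega)
          have h9 := hmin P hP1 (by rintro rfl; rw [Subgroup.index_bot] at hP4; exact hP4 hd)
          exact hs (isSolvable_of_isMulCommutative
            ⟨⟨fun a b => Subtype.ext (hP2 _ (h9 a.2) _ (h9 b.2))⟩⟩)
      exact hs inferInstance
    refine hsub K (b / 2) (by omega) hhalf (le_trans (Nat.mul_le_mul_left _ ?_) (num2 h6))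
    rw [← Subgroup.relIndex_mul_index hKL, show b ^ 4 = b ^ 2 * b ^ 2 by ring]
    exact Nat.mul_le_mul (Nat.le_of_dvd (by positivity) (h4 ▸ h5)) hx2

/-- Let b be the largest irreducible character degree of the finite group G. Then G has an abelian subgroup of index at most (b!)². -/
theorem result {G : Type*} [Group G] [Finite G] (b : ℕ) (hb : IsGreatest {d : ℕ | ∃ χ : Cfsg.IrrCharacter G, Cfsg.charDegree (χ : G → ℂ) = d} b) : ∃ A : Subgroup G, (∀ x ∈ A, ∀ y ∈ A, x * y = y * x) ∧ A.index ≤ (Nat.factorial b) ^ 2 := by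
  obtain ⟨A, h1, h2⟩ := aux b G fun χ => hb.2 ⟨χ, rfl⟩
  exact ⟨A, fun x hx y hy => congrArg Subtype.val (mul_comm' (⟨x, hx⟩ : A) ⟨y, hy⟩), h2⟩

end Cfsg.Agent.S4463
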