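import Cfsg.Statements.S4467
import Cfsg.Agent.CT.SolvLin


set_option autoImplicit false
open Cfsg

namespace Cfsg.Agent.S4467


/-- Let the finite solvable group G have a faithful irreducible character of degree n, and suppose that for the prime p a Sylow p-subgroup of G is not normal. Then n is divisible by a prime power q > 1 with q congruent to −1, 0 or 1 modulo p. -/
theorem result {G : Type*} [Group G] [Finite G] (χ : Cfsg.IrrCharacter G) (hfaith : ∀ g : G, (χ : G → ℂ) g = (χ : G → ℂ) 1 → g = 1) (n : ℕ) (hn : Cfsg.charDegree (χ : G → ℂ) = n) (hsolv : Group.IsSolvable G) (p : ℕ) (hp : p.Prime) (P : Sylow p G) (hP : ¬ (P : Subgroup G).Normal) : ∃ q : ℕ, IsPrimePow q ∧ q ∣ n ∧ ((q : ℤ) ≡ -1 [ZMOD p] ∨ (q : ℤ) ≡ 0 [ZMOD p] ∨ (q : ℤ) ≡ 1 [ZMOD p]) := by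
-----
  haveI := Fact.mk hp
  have hf := χ.charKer_eq_bot_iff.2 hfaith
  obtain ⟨q, h1, h2, h3⟩ := IrrCharacter.exists_primePow_dvd_of_not_pEltClosed (p := p) G hsolv χ
    fun h => hP ((sylow_normal_iff_pEltClosed P).2 (h.of_mulEquiv
      ((QuotientGroup.quotientMulEquivOfEq hf).trans QuotientGroup.quotientBot)))
  refine ⟨q, h1, hn ▸ h2, ?_⟩
  rcases h3 with rfl | h3
  · exact Or.inr (Or.inl (Int.modEq_zero_iff_dvd.2 dvd_rfl))
  · have h4 : (p : ℤ) ∣ ((q : ℤ) + 1) * ((q : ℤ) - 1) := by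
      have := (Int.natCast_modEq_iff.2 h3).symm.dvd
      push_cast at this
      convert this using 1; ring
    rcases (Nat.prime_iff_prime_int.1 hp).dvd_or_dvd h4 with h5 | h5
    · exact Or.inl (Int.ModEq.symm (Int.modEq_iff_dvd.2 (by simpa using h5)))
    · exact Or.inr (Or.inr (Int.ModEq.symm (Int.modEq_iff_dvd.2 h5)))

end Cfsg.Agent.S4467
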