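import Cfsg.Statements.S4468
import Cfsg.Agent.CT.SolvLin
import Cfsg.Agent.CT.Gallagher


set_option autoImplicit false
open Cfsg

namespace Cfsg.Agent.S4468

open Cfsg
open scoped commutatorElement

theorem exists_solvable {G : Type*} [Group G] [Finite G] {p : ℕ} [hp : Fact p.Prime]
    (h : IsPSolvable p G) (hG : ¬ PEltClosed p G) :
    ∃ H : Subgroup G, Group.IsSolvable H ∧ ¬ PEltClosed p H := by
  obtain ⟨P⟩ : Nonempty (Sylow p (G ⧸ pCore p G)) := inferInstance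
  set K := pPrimeCore p (G ⧸ pCore p G) with hK
  have hpK : ¬ p ∣ Nat.card K := not_dvd_card_pPrimeCore p
  have hc := (coprime_card_of_isPGroup P.2 hpK).symm
  obtain ⟨Q, hQK, ⟨r, hr, hQ⟩, hQP, hQ'⟩ : ∃ Q : Subgroup (G ⧸ pCore p G), Q ≤ K ∧
      (∃ r : ℕ, r.Prime ∧ IsPGroup r Q) ∧ (P : Subgroup _) ≤ Subgroup.normalizer (Q : Set (G ⧸ pCore p G)) ∧
      ¬ Q ≤ Subgroup.centralizer ((P : Subgroup (G ⧸ pCore p G)) : Set (G ⧸ pCore p G)) := by
    by_contra! hcon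
    have h1 : K ≤ Subgroup.centralizer ((P : Subgroup (G ⧸ pCore p G)) : Set (G ⧸ pCore p G)) := by
      rw [← Subgroup.relIndex_eq_one, ← Subgroup.inf_relIndex_left]
      refine Nat.eq_one_iff_not_exists_prime_dvd.2 fun r hr hd => ?_
      haveI := Fact.mk hr
      obtain ⟨Q, h1, h2, h3, h4⟩ := exists_invariant_sylow (N := K) (A := (P : Subgroup _)) r
        Subgroup.le_normalizer_of_normal hc (Or.inr (isSolvable_of_isPGroup P.2))
      exact h3 (hd.trans (Subgroup.relIndex_dvd_of_le_left K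
        (le_inf h1 (hcon Q h1 ⟨r, hr, h2⟩ h4))))
    have h2 : (P : Subgroup _) ≤ K := (Subgroup.le_centralizer_iff.1 h1).trans
      ((h.quotient _).centralizer_pPrimeCore_le (pCore_quotient_pCore p))
    have h3 := eq_bot_of_isPGroup_of_not_dvd P.2 fun hd => hpK (hd.trans (Subgroup.card_dvd_of_le h2))
    obtain ⟨S⟩ : Nonempty (Sylow p G) := inferInstance
    refine hG ((sylow_normal_iff_pEltClosed S).1 ((sylow_normal_iff_not_dvd_index_pCore S).2 ?_))
    have h4 := P.not_dvd_index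
    rwa [h3, Subgroup.index_bot] at h4
  haveI := Fact.mk hr
  refine ⟨(Q ⊔ (P : Subgroup _)).comap (QuotientGroup.mk' _), isSolvable_comap_mk
    (isSolvable_of_isPGroup (isPGroup_pCore p G)) (isSolvable_sup_of_le_normalizer hQP
      (isSolvable_of_isPGroup hQ) (isSolvable_of_isPGroup P.2)), fun hH => hQ' fun q hq y hy => ?_⟩
  obtain ⟨q, rfl⟩ := QuotientGroup.mk'_surjective _ q
  obtain ⟨y, rfl⟩ := QuotientGroup.mk'_surjective _ y
  obtain ⟨k, hk⟩ := isPGroup_comap_mk (isPGroup_pCore p G) P.2 ⟨y, hy⟩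
  have hk' : y ^ p ^ k = 1 := congrArg Subtype.val hk
  have hq' : q ∈ (Q ⊔ (P : Subgroup _)).comap (QuotientGroup.mk' (pCore p G)) :=
    Subgroup.mem_sup_left hq
  have hy' : y ∈ (Q ⊔ (P : Subgroup _)).comap (QuotientGroup.mk' (pCore p G)) :=
    Subgroup.mem_sup_right hy
  obtain ⟨j, hj⟩ := hH ⟨q * y * q⁻¹, mul_mem (mul_mem hq' hy') (inv_mem hq')⟩ ⟨y⁻¹, inv_mem hy'⟩
    ⟨k, Subtype.ext (by change (q * y * q⁻¹) ^ _ = 1; rw [conj_pow, hk', mul_one, mul_inv_cancel])⟩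
    ⟨k, Subtype.ext (by change (y⁻¹) ^ _ = 1; rw [inv_pow, hk', inv_one])⟩
  have h1 : (QuotientGroup.mk' (pCore p G) (q * y * q⁻¹ * y⁻¹)) ^ p ^ j = 1 := by
    rw [← map_pow, show (q * y * q⁻¹ * y⁻¹) ^ p ^ j = 1 from congrArg Subtype.val hj, map_one]
  have h2 : QuotientGroup.mk' (pCore p G) (q * y * q⁻¹ * y⁻¹) ∈ K := by
    rw [mul_assoc q, mul_assoc q, map_mul, map_mul, map_mul, map_inv, map_inv]
    exact mul_mem (hQK hq) (Subgroup.Normal.conj_mem inferInstance _ (inv_mem (hQK hq)) _)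
  have h3 : QuotientGroup.mk' (pCore p G) (q * y * q⁻¹ * y⁻¹) = 1 := by
    rw [← orderOf_eq_one_iff]
    obtain ⟨i, -, hi⟩ := (Nat.dvd_prime_pow hp.out).1 (orderOf_dvd_of_pow_eq_one h1)
    have h4 := not_dvd_orderOf_of_mem_pPrimeCore h2
    rw [hi] at h4 ⊢
    rcases i with _ | i
    · rfl
    · exact (h4 (dvd_pow_self p i.succ_ne_zero)).elim
  rw [map_mul, map_mul, map_mul, map_inv, map_inv, mul_inv_eq_one, mul_inv_eq_iff_eq_mul] at h3
  exact h3.symm


/-- Let the finite p-solvable group G have a faithful character χ of degree n ≤ p − 1 and suppose that a Sylow p-subgroup of G is not normal. Then n = p − 1, n is a power of 2, and χ is irreducible. -/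
theorem result {G : Type*} [Group G] [Finite G] (χ : G → ℂ) (hχ : Cfsg.IsCharacter G χ) (hfaith : ∀ g : G, χ g = χ 1 → g = 1) (n : ℕ) (hn : Cfsg.charDegree χ = n) (p : ℕ) (hp : p.Prime) (hsolv : Cfsg.IsPSolvable p G) (hnp : n + 1 ≤ p) (P : Sylow p G) (hP : ¬ (P : Subgroup G).Normal) : n + 1 = p ∧ (∃ k : ℕ, n = 2 ^ k) ∧ Cfsg.IsIrrCharacter G χ := by
  classical
  haveI := Fact.mk hp
  obtain ⟨H, hH, hH'⟩ := exists_solvable hsolv (mt (sylow_normal_iff_pEltClosed P).2 hP)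
  haveI := Fintype.ofFinite H
  obtain ⟨ψ, h1, h2⟩ := (hχ.res H).exists_constituent_not_pEltClosed
    (by rw [hχ.charKer_res, hχ.charKer_eq_bot_iff.2 hfaith, Subgroup.bot_subgroupOf]) hH'
  obtain ⟨q, hq1, hq2, hq3⟩ := IrrCharacter.exists_primePow_dvd_of_not_pEltClosed H hH ψ h2
  have h3 := IrrCharacter.charDegree_le_of_over hχ ψ h1
  have h4 := Nat.le_of_dvd ψ.charDegree_pos hq2
  have h5 := hq1.two_le
  have h6 : q + 1 = p := by
    rcases hq3 with rfl | hq3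
    · omega
    · have h6 : p ∣ (q + 1) * (q - 1) := by
        have := (Nat.modEq_iff_dvd' (Nat.one_le_pow _ _ (by omega))).1 hq3.symm
        rwa [← Nat.sq_sub_sq, one_pow]
      rcases (Nat.Prime.dvd_mul hp).1 h6 with h7 | h7
      · have := Nat.le_of_dvd (by omega) h7; omega
      · have := Nat.le_of_dvd (by omega) h7; omega
  refine ⟨by omega, ?_, hχ.isIrr_of_res (IrrCharacter.extends_of_charDegree_le hχ h1 (by omega))⟩
  obtain ⟨r, k, hr, hk, rfl⟩ := (isPrimePow_nat_iff _).1 hq1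
  have h7 : 2 ∣ r ^ k := by
    have := hp.eq_two_or_odd
    omega
  obtain rfl := (Nat.prime_dvd_prime_iff_eq Nat.prime_two hr).1 (Nat.prime_two.dvd_of_dvd_pow h7)
  exact ⟨k, by omega⟩

end Cfsg.Agent.S4468
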