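import Cfsg.Statements.S4469
import Cfsg.Agent.CT.Blichfeldt
import Cfsg.Agent.CT.Jordan
import Cfsg.Agent.CT.Monomial

set_option autoImplicit false
open Cfsg

namespace Cfsg.Agent.S4469

universe u

theorem normalCore_index_dvd {G : Type u} [Group G] [Finite G] (H : Subgroup G) :
    H.normalCore.index ∣ H.index.factorial := by
  rw [Subgroup.normalCore_eq_ker, Subgroup.index_ker, Subgroup.index_eq_card, ← Nat.card_perm]
  exact Subgroup.card_subgroup_dvd_card _

theorem index_biInf_dvd {G : Type u} [Group G] {ι : Type*} (s : Finset ι) (N : ι → Subgroup G)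
    (hN : ∀ i, (N i).Normal) : (⨅ i ∈ s, N i).index ∣ ∏ i ∈ s, (N i).index := by
  classical
  induction s using Finset.induction_on with
  | empty => simp
  | insert a s ha ih =>
    rw [Finset.prod_insert ha, Finset.iInf_insert, ← Subgroup.relIndex_mul_index inf_le_right,
      Subgroup.inf_relIndex_right]
    have := hN a
    exact mul_dvd_mul (Subgroup.relIndex_dvd_index_of_normal _ _) ih

/-- an M-group with a faithful character of degree `n` has an abelian subgroup of index dividing
`n !` -/
theorem exists_comm_index_dvd_factorial {G : Type u} [Group G] [Fintype G] (hG : IsMGroup G)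
    {χ : G → ℂ} (hχ : IsCharacter G χ) (hf : ∀ g : G, χ g = χ 1 → g = 1) :
    ∃ B : Subgroup G, (∀ x ∈ B, ∀ y ∈ B, x * y = y * x) ∧ B.index ∣ (charDegree χ).factorial := by
  classical
  choose H lam hH using fun ψ : IrrCharacter G => hG ψ.1 ψ.2
  have hdeg : ∀ ψ : IrrCharacter G, (H ψ).index = charDegree ψ.1 := by
    intro ψ
    conv_rhs => rw [hH ψ]
    rw [(isCharacter_unitsHom (lam ψ)).charDegree_indFun]
    have : charDegree (fun h : H ψ => (lam ψ h : ℂ)) = 1 := IrrCharacter.charDegree_ofHom _
    rw [this, mul_one]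
  obtain ⟨m, hm⟩ := isCharacter_iff_exists_sum.1 hχ
  let s : Finset (IrrCharacter G) := Finset.univ.filter fun ψ => m ψ ≠ 0
  refine ⟨⨅ ψ ∈ s, (H ψ).normalCore, fun x hx y hy => ?_, ?_⟩
  · have h1 : x * y * x⁻¹ * y⁻¹ = 1 := by
      apply hf
      apply apply_eq_one_of_mem_charKer
      rw [hχ.mem_charKer_iff_constituents]
      intro ψ hψ
      have hs : ψ ∈ s := by
        rw [hm, classInner_sum_irr (fun χ => (m χ : ℂ))] at hψ
        simpa [s] using hψ
      simp only [Subgroup.mem_iInf] at hx hy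
      rw [ψ.isCharacter.mem_charKer, hH ψ,
        (isCharacter_unitsHom (lam ψ)).indFun_apply_eq_one_iff
          (fun h => by simpa using congrFun h 1)]
      intro z
      have h2 := hx ψ hs z
      have h3 := hy ψ hs z
      have h4 : z * (x * y * x⁻¹ * y⁻¹) * z⁻¹ =
          ((⟨_, h2⟩ * ⟨_, h3⟩ * ⟨_, h2⟩⁻¹ * ⟨_, h3⟩⁻¹ : H ψ) : G) := by
        simp only [Subgroup.coe_mul, Subgroup.coe_inv]; group
      refine ⟨h4 ▸ Subtype.prop _, ?_⟩
      have h5 : (⟨z * (x * y * x⁻¹ * y⁻¹) * z⁻¹, h4 ▸ Subtype.prop _⟩ : H ψ) =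
          ⟨_, h2⟩ * ⟨_, h3⟩ * ⟨_, h2⟩⁻¹ * ⟨_, h3⟩⁻¹ := Subtype.ext h4
      rw [h5]
      simp only [map_mul, map_inv, map_one, mul_inv_cancel_comm, mul_inv_cancel]
    calc x * y = (x * y * x⁻¹ * y⁻¹) * (y * x) := by group
      _ = _ := by rw [h1, one_mul]
  · refine (index_biInf_dvd s _ fun ψ => inferInstance).trans ?_
    refine (Finset.prod_dvd_prod_of_dvd _ (fun ψ => (charDegree ψ.1).factorial)
      fun ψ _ => hdeg ψ ▸ normalCore_index_dvd _).trans ?_
    refine (Nat.prod_factorial_dvd_factorial_sum s _).trans (Nat.factorial_dvd_factorial ?_)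
    have h1 : charDegree χ = ∑ ψ : IrrCharacter G, m ψ * charDegree ψ.1 := by
      apply charDegree_eq_of_one_eq
      rw [hm]
      simp [IrrCharacter.one_eq_charDegree]
    rw [h1]
    calc ∑ ψ ∈ s, charDegree ψ.1 ≤ ∑ ψ ∈ s, m ψ * charDegree ψ.1 := by
          refine Finset.sum_le_sum fun ψ hψ => Nat.le_mul_of_pos_left _ ?_
          simpa [s, Nat.pos_iff_ne_zero] using hψ
      _ ≤ _ := Finset.sum_le_sum_of_subset (Finset.subset_univ _)

/-- The classical bound for finite linear groups, in explicit form. Let the finite group G have a faithful character of degree n. Then G has an abelian normal subgroup whose index is at most n! · 12^(n·(π(n+1)+1)), π(k) denoting the number of primes not exceeding k. -/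
theorem result {G : Type*} [Group G] [Finite G] (χ : G → ℂ) (hχ : Cfsg.IsCharacter G χ) (hfaith : ∀ g : G, χ g = χ 1 → g = 1) (n : ℕ) (hn : Cfsg.charDegree χ = n) : ∃ A : Subgroup G, A.Normal ∧ (∀ x ∈ A, ∀ y ∈ A, x * y = y * x) ∧ A.index ≤ Nat.factorial n * 12 ^ (n * (Nat.primeCounting (n + 1) + 1)) := by
  classical
  subst hn
  set n := charDegree χ with hn
  obtain ⟨A, hA, hAc, hAi⟩ := exists_abelian_normal_index_le_twelve_pow hχ hfaith
  obtain ⟨H, hHc, -, hHi⟩ := exists_abelian_hall_of_faithful hχ hfaith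
  refine ⟨A, hA, hAc, ?_⟩
  have hfac : ∀ K : Subgroup G, A.relIndex K * (A ⊔ K).index = A.index := fun K => by
    rw [← Subgroup.relIndex_sup_left K A, sup_comm, Subgroup.relIndex_mul_index le_sup_right]
  set r := (A ⊔ H).index with hr
  have hr0 : r ≠ 0 := Subgroup.index_ne_zero_of_finite
  have hrA : r ∣ A.index := Subgroup.index_dvd_of_le le_sup_left
  have hq : ∀ q ∈ r.primeFactors, q ^ r.factorization q ≤ q ^ n.factorial.factorization q * 12 ^ n := by
    intro q hq
    have hq' := Nat.prime_of_mem_primeFactors hq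
    have := Fact.mk hq'
    obtain ⟨Q⟩ : Nonempty (Sylow q G) := inferInstance
    have := Fintype.ofFinite Q
    obtain ⟨B, hBc, hBi⟩ := exists_comm_index_dvd_factorial (isMGroup_of_isPGroup Q.isPGroup')
      (hχ.res Q) (fun g hg => Subtype.ext (hfaith g hg))
    rw [charDegree_res] at hBi
    have h1 : q ^ r.factorization q ∣ A.relIndex Q := by
      have h2 := (Nat.ordProj_dvd r q).trans hrA
      rw [← hfac Q] at h2
      refine Nat.Coprime.dvd_of_dvd_mul_right (Nat.Coprime.pow_left _ ?_) h2
      exact (Nat.Prime.coprime_iff_not_dvd hq').2 fun h =>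
        Q.not_dvd_index (h.trans (Subgroup.index_dvd_of_le le_sup_right))
    have h2 : B.index ≤ q ^ n.factorial.factorization q := by
      obtain ⟨k, hk⟩ := Q.isPGroup'.index B
      rw [hk] at hBi ⊢
      exact Nat.pow_le_pow_right hq'.pos
        ((hq'.pow_dvd_iff_le_factorization (Nat.factorial_ne_zero _)).1 hBi)
    set B' := B.map (Q : Subgroup G).subtype with hB'
    have hBQ : B' ≤ Q := Subgroup.map_subtype_le B
    have h3 : B'.relIndex Q = B.index := by
      rw [Subgroup.relIndex, Subgroup.subgroupOf, hB',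
        Subgroup.comap_map_eq_self_of_injective (Q : Subgroup G).subtype_injective]
    have h4 : A.relIndex B' ≤ 12 ^ n := hAi B' (by
      rintro _ ⟨x, hx, rfl⟩ _ ⟨y, hy, rfl⟩
      rw [← map_mul, hBc x hx y hy, map_mul])
    have h5 : A.relIndex Q ≤ A.relIndex B' * B'.relIndex Q := by
      have h6 := Subgroup.relIndex_inf_mul_relIndex A B' Q
      rw [inf_eq_left.2 hBQ] at h6
      rw [h6]
      exact Subgroup.relIndex_le_of_le_left inf_le_left Subgroup.index_ne_zero_of_finite
    calc _ ≤ A.relIndex Q :=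
          Nat.le_of_dvd (Nat.pos_of_ne_zero Subgroup.index_ne_zero_of_finite) h1
      _ ≤ A.relIndex B' * B'.relIndex Q := h5
      _ ≤ 12 ^ n * q ^ n.factorial.factorization q := by
          rw [h3]; exact Nat.mul_le_mul h4 h2
      _ = _ := mul_comm _ _
  have hcard : r.primeFactors.card ≤ Nat.primeCounting (n + 1) := by
    rw [Nat.primeCounting, ← Nat.primesBelow_card_eq_primeCounting']
    refine Finset.card_le_card fun q hq => ?_
    have hq' := Nat.prime_of_mem_primeFactors hq
    have := hHi q hq' ((Nat.dvd_of_mem_primeFactors hq).trans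
      (Subgroup.index_dvd_of_le le_sup_right))
    rw [Nat.mem_primesBelow]
    exact ⟨by omega, hq'⟩
  have hprod : ∏ q ∈ r.primeFactors, q ^ n.factorial.factorization q ≤ n.factorial := by
    refine Nat.le_of_dvd (Nat.factorial_pos n) ?_
    refine Finset.prod_dvd_of_isRelPrime ?_ fun q _ => Nat.ordProj_dvd _ _
    intro a ha b hb hab
    exact Nat.coprime_iff_isRelPrime.1 (Nat.coprime_pow_primes _ _
      (Nat.prime_of_mem_primeFactors ha) (Nat.prime_of_mem_primeFactors hb) hab)
  have hrle : r ≤ n.factorial * (12 ^ n) ^ Nat.primeCounting (n + 1) := by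
    calc r = ∏ q ∈ r.primeFactors, q ^ r.factorization q :=
          (Nat.factorization_prod_pow_eq_self hr0).symm
      _ ≤ ∏ q ∈ r.primeFactors, (q ^ n.factorial.factorization q * 12 ^ n) :=
          Finset.prod_le_prod' hq
      _ = (∏ q ∈ r.primeFactors, q ^ n.factorial.factorization q) *
            (12 ^ n) ^ r.primeFactors.card := by
          rw [Finset.prod_mul_distrib, Finset.prod_const]
      _ ≤ _ := Nat.mul_le_mul hprod (Nat.pow_le_pow_right (by positivity) hcard)
  rw [← hfac H]
  calc A.relIndex H * r ≤ 12 ^ n * (n.factorial * (12 ^ n) ^ Nat.primeCounting (n + 1)) :=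
        Nat.mul_le_mul (hAi H hHc) hrle
    _ = _ := by rw [pow_mul, pow_succ]; ring

end Cfsg.Agent.S4469
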