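import Cfsg.Statements.S4471
import Cfsg.Agent.CT.Unitary
import Cfsg.Agent.CT.Jordan
import Cfsg.Agent.CT.Blichfeldt
import Cfsg.Agent.CT.Clifford
import Cfsg.Agent.Grp.Cores
import Cfsg.Agent.Grp.Landau
import Cfsg.Agent.CT.GaloisField

set_option autoImplicit false
open Cfsg

namespace Cfsg.Agent.S4471

theorem commutator_le {P : Type*} [Group P] [Fintype P] {p : ℕ} [Fact p.Prime] (hP : IsPGroup p P)
    {ψ : P → ℂ} (hψ : IsCharacter P ψ) (hd : charDegree ψ < p) {z : P} (hz : z ∈ commutator P) :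
    ψ z = ψ 1 := by
  apply apply_eq_one_of_mem_charKer
  rw [hψ.mem_charKer_iff_constituents]
  intro θ hθ
  obtain ⟨k, hk⟩ := θ.exists_charDegree_eq_pow hP
  have h1 := (hψ.charDegree_le_of_constituent θ hθ).trans_lt hd
  have h2 : k = 0 := by
    by_contra h
    rw [hk] at h1
    exact h1.not_ge (Nat.le_self_pow h p)
  obtain ⟨f, rfl⟩ := θ.exists_eq_ofHom (by rw [hk, h2, pow_zero])
  rw [IrrCharacter.charKer_ofHom]
  exact Abelianization.commutator_subset_ker f hz

theorem exists_two_eig {G : Type*} [Group G] [Finite G] {χ : G → ℂ} (hχ : IsCharacter G χ)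
    (hf : ∀ g : G, χ g = χ 1 → g = 1) {p : ℕ} [hp : Fact p.Prime] (hn : charDegree χ < 2 * p)
    (P : Subgroup G) (hP : IsPGroup p P) (hne : commutator P ≠ ⊥) :
    ∃ g : G, orderOf g = p ∧ p ≤ charDegree χ ∧ ∀ k : ℕ, χ (g ^ k) =
      p * Complex.exp (2 * Real.pi * Complex.I / p) ^ k + (charDegree χ - p : ℕ) := by
  have := Fintype.ofFinite P
  have hP1 : commutator P ⊓ Subgroup.center P ≠ ⊥ :=
    inf_center_ne_bot_of_isNilpotent hP.isNilpotent hne
  have := Fintype.ofFinite (commutator P ⊓ Subgroup.center P : Subgroup P)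
  obtain ⟨k, hk⟩ := IsPGroup.iff_card.1 (hP.to_subgroup (commutator P ⊓ Subgroup.center P))
  obtain ⟨z, hz⟩ := exists_prime_orderOf_dvd_card' (G := (commutator P ⊓ Subgroup.center P :
    Subgroup P)) p (hk ▸ dvd_pow_self p fun h => hP1 (by
      rwa [h, pow_zero, Subgroup.card_eq_one] at hk))
  rw [← Subgroup.orderOf_coe] at hz
  obtain ⟨z, hz1, hz2⟩ := z
  simp only at hz
  have hr : IsCharacter P fun x : P => χ x := hχ.comp P.subtype
  have h1 : z ∉ charKer fun x : P => χ x := fun h => by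
    have := hf z (apply_eq_one_of_mem_charKer (χ := fun x : P => χ x) h)
    rw [← Subgroup.orderOf_coe, this, orderOf_one] at hz
    exact hp.out.one_lt.ne hz
  rw [hr.mem_charKer_iff_constituents] at h1
  push Not at h1
  obtain ⟨θ, h1, h2⟩ := h1
  have h3 : p ≤ charDegree θ.1 := by
    by_contra! h
    exact h2 (θ.isCharacter.mem_charKer.2 (commutator_le hP θ.isCharacter h hz1))
  have h4 := hr.charDegree_le_of_constituent θ h1
  have h0 : charDegree (fun x : P => χ x) = charDegree χ := rfl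
  obtain ⟨j, hj⟩ := θ.exists_charDegree_eq_pow hP
  have h5 : charDegree θ.1 = p := by
    rcases j with _ | _ | j
    · exact absurd h3 (by rw [hj, pow_zero]; exact hp.out.one_lt.not_ge)
    · rw [hj]; simp
    · have : p * p ≤ p ^ (j + 1 + 1) := by
        rw [← sq]; exact Nat.pow_le_pow_right hp.out.pos (by omega)
      have := hp.out.two_le
      nlinarith
  have h6 := hr.sub_irr θ h1
  have h7 : ((fun x : P => χ x) - θ.1) 1 = (charDegree χ - p : ℕ) := by
    rw [Pi.sub_apply, hr.one_eq_charDegree, θ.one_eq_charDegree, h5, h0, Nat.cast_sub (by omega)]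
  obtain ⟨l, -, hl, hl'⟩ := θ.isCharacter.exists_hom_of_le_charCenter
    (fun h => θ.one_ne_zero (congrFun h 1)) θ.center_le_charCenter
  have h8 : IsPrimitiveRoot (l ⟨z, hz2⟩ : ℂ) p := by
    rw [IsPrimitiveRoot.coe_units_iff]
    refine (orderOf_eq_prime (x := l ⟨z, hz2⟩) (p := p) ?_ fun h => h2 ?_) ▸
      IsPrimitiveRoot.orderOf _
    · rw [← map_pow, show (⟨z, hz2⟩ : Subgroup.center P) ^ p = 1 from
        Subtype.ext (hz ▸ pow_orderOf_eq_one z), map_one]
    · have : (⟨z, hz2⟩ : Subgroup.center P) ∈ l.ker := h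
      rwa [hl'] at this
  have : NeZero p := ⟨hp.out.ne_zero⟩
  obtain ⟨i, hi, h9⟩ := h8.eq_pow_of_pow_eq_one (exp_div_pow_self p)
  have hi0 : i ≠ 0 := by
    rintro rfl
    exact (Complex.isPrimitiveRoot_exp p hp.out.ne_zero).ne_one hp.out.one_lt (by simpa using h9.symm)
  refine ⟨(z ^ i : P), ?_, by omega, fun k => ?_⟩
  · rw [Subgroup.orderOf_coe, Nat.Coprime.orderOf_pow, hz]
    rw [hz]
    exact (Nat.coprime_of_lt_prime hi0 hi hp.out)
  · have h10 := commutator_le hP h6 (by rw [charDegree_eq_of_one_eq h7]; omega)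
      (pow_mem (pow_mem hz1 i) k)
    have h11 := hl ((⟨z, hz2⟩ ^ i) ^ k)
    rw [h7, Pi.sub_apply, sub_eq_iff_eq_add'] at h10
    rw [← h9, ← h5, ← θ.one_eq_charDegree, h5]
    simp only [map_pow, Units.val_pow_eq_pow_val] at h11
    rw [← h11]
    exact h10

theorem exists_comm {G : Type*} [Group G] [Finite G] (χ : IrrCharacter G)
    (hf : ∀ g : G, χ.1 g = χ.1 1 → g = 1) {p : ℕ} [hp : Fact p.Prime] (h7 : 7 ≤ p)
    (hn : charDegree χ.1 < 2 * p) (hnp : charDegree χ.1 ≠ p)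
    (P : Subgroup G) (hP : IsPGroup p P) (hne : commutator P ≠ ⊥) :
    ∃ K : Subgroup G, K.Normal ∧ IsMulCommutative K ∧ K.index ∣ (charDegree χ.1).factorial := by
  classical
  have := Fintype.ofFinite G
  obtain ⟨g, hg, hpn, h⟩ := exists_two_eig χ.isCharacter hf hn P hP hne
  obtain ⟨A, hA, hAc, hgA⟩ := exists_abelian_normal_near_scalar χ.isCharacter hf
  set ζ := Complex.exp (2 * Real.pi * Complex.I / p) with hζ
  have hζp := Complex.isPrimitiveRoot_exp p hp.out.ne_zero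
  rw [← hζ] at hζp
  have h1 : ‖ζ - 1‖ < 1 := by
    refine norm_sub_one_lt_one_of_re (hζp.norm'_eq_one hp.out.ne_zero) ?_
    have : ζ = Complex.exp ((2 * Real.pi / p : ℝ) * Complex.I) := by
      rw [hζ]; congr 1; push_cast; ring
    rw [this, Complex.exp_ofReal_mul_I_re]
    have h7' : (7 : ℝ) ≤ p := by exact_mod_cast h7
    refine Real.cos_lt_cos_of_nonneg_of_le_pi (by positivity) ?_ ?_
    · rw [div_le_iff₀ (by norm_num)]; push_cast; nlinarith [Real.pi_pos]
    · exact div_lt_div_of_pos_left (by positivity) (by norm_num) (by push_cast; linarith)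
  replace hgA := hgA g (p + (charDegree χ.1 - p)) (Fin.append (fun _ => ζ) fun _ => 1)
    (fun i => by
      refine Fin.addCases (fun i => ?_) (fun i => ?_) i
      · rw [Fin.append_left, hg, hζp.pow_eq_one]
      · rw [Fin.append_right, one_pow])
    (fun k => by rw [h, Fin.sum_univ_add]; simp) ((1 + ζ) / 2) fun i => by
      refine Fin.addCases (fun i => ?_) (fun i => ?_) i
      · rw [Fin.append_left, show ζ - (1 + ζ) / 2 = (ζ - 1) / 2 by ring, norm_div]
        simp only [Complex.norm_ofNat]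
        linarith
      · rw [Fin.append_right, show 1 - (1 + ζ) / 2 = -(ζ - 1) / 2 by ring, norm_div, norm_neg]
        simp only [Complex.norm_ofNat]
        linarith
  have : IsMulCommutative A := ⟨⟨fun x y => Subtype.ext (hAc _ x.2 _ y.2)⟩⟩
  have := Fintype.ofFinite A
  obtain ⟨θ, hθ⟩ := (χ.isCharacter.comp A.subtype).exists_irr_constituent
    fun h => χ.one_ne_zero (congrFun h 1)
  obtain ⟨e, he, -, h2, h3, -⟩ := clifford χ hθ
  rw [θ.charDegree_eq_one_of_comm, mul_one] at h3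
  have h4 : ∀ φ : IrrCharacter A, ∃ m : ℕ, ∑ k ∈ Finset.range p, φ.1 (⟨g, hgA⟩ ^ k) = p * m :=
    fun φ => by
      obtain ⟨ε, h5, h6, -⟩ := φ.isCharacter.exists_eigenvalues ⟨g, hgA⟩
      have := sum_range_apply_pow_eq h5 h6
      rw [Subgroup.orderOf_mk, hg] at this
      exact ⟨_, this⟩
  choose m hm using h4
  have h5 : ∑ k ∈ Finset.range p, χ.1 (g ^ k) = p * (charDegree χ.1 - p : ℕ) := by
    simp only [h, Finset.sum_add_distrib, ← Finset.mul_sum, hζp.geom_sum_eq_zero hp.out.one_lt]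
    simp
  rw [Finset.sum_congr (f := fun k => χ.1 (g ^ k)) rfl fun k _ => h2 (⟨g, hgA⟩ ^ k),
    ← Finset.mul_sum, Finset.sum_comm,
    Finset.sum_congr rfl fun φ _ => hm φ, ← Finset.mul_sum, mul_left_comm] at h5
  have h6 : e ∣ charDegree χ.1 - p := ⟨_, by
    exact_mod_cast (mul_left_cancel₀ (Nat.cast_ne_zero.2 hp.out.ne_zero) h5).symm⟩
  have h8 : e ∣ charDegree χ.1 := ⟨_, h3⟩
  have h9 : e = 1 := by
    have := Nat.dvd_sub h8 h6
    rw [show charDegree χ.1 - (charDegree χ.1 - p) = p by omega] at this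
    refine ((Nat.dvd_prime hp.out).1 this).resolve_right fun h => ?_
    have := Nat.le_of_dvd (by omega) h6
    omega
  rw [h9, one_mul] at h3
  obtain ⟨ψ, -, hψ⟩ := clifford_corr_surj θ.le_charInertia le_rfl χ hθ
  have h10 := ψ.isCharacter.charDegree_indFun
  rw [hψ, h3] at h10
  obtain ⟨l, rfl⟩ := ψ.exists_eq_ofHom (by
    have := (charInertia θ.1).index_ne_zero_of_finite
    exact (Nat.mul_eq_left this).1 h10.symm)
  refine ⟨(charInertia θ.1).normalCore, inferInstance, ⟨⟨fun x y => Subtype.ext ?_⟩⟩,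
    h3 ▸ index_normalCore_dvd_factorial _⟩
  have h1 : x.1 * y.1 * x.1⁻¹ * y.1⁻¹ = 1 := by
    apply hf
    rw [← hψ, (IrrCharacter.isCharacter _).indFun_apply_eq_one_iff
      (fun h => by simpa using congrFun h 1)]
    intro z
    have h2 := x.2 z
    have h3 := y.2 z
    have h4 : z * (x.1 * y.1 * x.1⁻¹ * y.1⁻¹) * z⁻¹ =
        ((⟨_, h2⟩ * ⟨_, h3⟩ * ⟨_, h2⟩⁻¹ * ⟨_, h3⟩⁻¹ : charInertia θ.1) : G) := by
      simp only [Subgroup.coe_mul, Subgroup.coe_inv]; group
    refine ⟨h4 ▸ Subtype.prop _, ?_⟩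
    have h5 : (⟨z * (x.1 * y.1 * x.1⁻¹ * y.1⁻¹) * z⁻¹, h4 ▸ Subtype.prop _⟩ : charInertia θ.1) =
        ⟨_, h2⟩ * ⟨_, h3⟩ * ⟨_, h2⟩⁻¹ * ⟨_, h3⟩⁻¹ := Subtype.ext h4
    rw [h5]
    simp only [IrrCharacter.ofHom_apply, map_mul, map_inv, map_one, mul_inv_cancel_comm,
      mul_inv_cancel]
  calc x.1 * y.1 = (x.1 * y.1 * x.1⁻¹ * y.1⁻¹) * (y.1 * x.1) := by group
    _ = _ := by rw [h1, one_mul]; rfl

/-- Let p ≥ 7 be a prime and let the finite group G have a faithful irreducible character of degree n with n < 2p and n ≠ p. If the Sylow p-subgroups of G are non-abelian then p² does not divide the index of O_p(G) in G; consequently, in every case G/O_p(G) has abelian Sylow p-subgroups. -/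
theorem result {G : Type*} [Group G] [Finite G] (χ : Cfsg.IrrCharacter G) (hfaith : ∀ g : G, (χ : G → ℂ) g = (χ : G → ℂ) 1 → g = 1) (n : ℕ) (hn : Cfsg.charDegree (χ : G → ℂ) = n) (p : ℕ) (hp : p.Prime) (h7 : 7 ≤ p) (hn2 : n < 2 * p) (hnp : n ≠ p) : ((∃ P : Sylow p G, ∃ x ∈ (P : Subgroup G), ∃ y ∈ (P : Subgroup G), x * y ≠ y * x) → ¬ p ^ 2 ∣ (Cfsg.pCore p G).index) ∧ ∀ Q : Sylow p (G ⧸ Cfsg.pCore p G), ∀ x ∈ (Q : Subgroup (G ⧸ Cfsg.pCore p G)), ∀ y ∈ (Q : Subgroup (G ⧸ Cfsg.pCore p G)), x * y = y * x := by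
  have := Fact.mk hp
  subst hn
  have key : (∃ P : Sylow p G, ∃ x ∈ (P : Subgroup G), ∃ y ∈ (P : Subgroup G), x * y ≠ y * x) →
      ¬ p ^ 2 ∣ (Cfsg.pCore p G).index := by
    rintro ⟨P, x, hx, y, hy, hxy⟩ h
    obtain ⟨K, hK, hKc, hi⟩ := exists_comm χ hfaith h7 hn2 hnp P P.isPGroup' fun h => hxy (by
      have := (commutator_eq_bot_iff _).1 h
      exact congrArg Subtype.val (mul_comm' (⟨x, hx⟩ : (P : Subgroup G)) ⟨y, hy⟩))
    have h1 : ¬ p ∣ (pCore p G).relIndex K := by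
      obtain ⟨Q⟩ : Nonempty (Sylow p K) := inferInstance
      have := (sylow_normal_iff_not_dvd_index_pCore Q).1 inferInstance
      rwa [← Subgroup.relIndex_top_right, ← Subgroup.relIndex_map_map_of_injective _ _
        K.subtype_injective, map_subtype_pCore_of_normal, ← MonoidHom.range_eq_map,
        Subgroup.range_subtype, Subgroup.inf_relIndex_right] at this
    have h2 : p ^ 2 ∣ (pCore p G).relIndex K * K.index := by
      rw [← Subgroup.inf_relIndex_right, Subgroup.relIndex_mul_index inf_le_right]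
      exact h.trans (Subgroup.index_dvd_of_le inf_le_left)
    have h3 := (((hp.coprime_iff_not_dvd.2 h1).pow_left 2).dvd_of_dvd_mul_left h2).trans hi
    have h4 := h3.trans (Nat.factorial_dvd_factorial (Nat.le_sub_one_of_lt hn2))
    rw [hp.pow_dvd_factorial_iff (b := 2) (Nat.log_lt_of_lt_pow (by omega) (by
      refine (Nat.sub_le _ _).trans_lt ?_; nlinarith))] at h4
    simp only [Nat.Ico_succ_singleton, Finset.sum_singleton, pow_one] at h4
    have := (Nat.le_div_iff_mul_le hp.pos).1 h4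
    omega
  refine ⟨key, fun Q x hx y hy => ?_⟩
  by_cases h : ∃ P : Sylow p G, ∃ x ∈ (P : Subgroup G), ∃ y ∈ (P : Subgroup G), x * y ≠ y * x
  · have h1 := key h
    obtain ⟨k, hk⟩ := IsPGroup.iff_card.1 Q.isPGroup'
    have h2 : Nat.card Q ∣ p := by
      rw [hk]
      refine (pow_dvd_pow p ?_).trans (pow_one p).dvd
      by_contra! h2
      exact h1 ((pow_dvd_pow p h2).trans (hk ▸ Subgroup.card_subgroup_dvd_card _))
    have := isCyclic_of_card_dvd_prime h2
    exact congrArg Subtype.val (mul_comm' (⟨x, hx⟩ : (Q : Subgroup _)) ⟨y, hy⟩)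
  · push Not at h
    obtain ⟨P, rfl⟩ := Sylow.mapSurjective_surjective (QuotientGroup.mk'_surjective (pCore p G)) p Q
    obtain ⟨x, hx, rfl⟩ := hx
    obtain ⟨y, hy, rfl⟩ := hy
    rw [← map_mul, h P x hx y hy, map_mul]

end Cfsg.Agent.S4471
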