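import Cfsg.Statements.S4472
import Cfsg.Agent.CT.FeitBound
import Cfsg.Agent.CT.GlCyclic
import Cfsg.Agent.Grp.PSolvable
import Cfsg.Agent.Grp.SchurZassenhaus


set_option autoImplicit false
open Cfsg

namespace Cfsg.Agent.S4472

universe u

open scoped Pointwise

theorem exists_lift_irr {Γ : Type u} [Group Γ] [Finite Γ] {H : Subgroup Γ} [H.Normal]
    (hcop : (Nat.card H).Coprime H.index) (χ : IrrCharacter Γ) :
    ∃ ψ : Γ → ℂ, IsCharacter Γ ψ ∧ (∀ h : H, ψ h = χ.1 h) ∧
      ∀ σ : ℂ ≃+* ℂ, (∀ w : ℂ, w ^ Nat.card H = 1 → σ w = w) → ∀ g, σ (ψ g) = ψ g := by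
  haveI := Fintype.ofFinite Γ
  haveI := Fintype.ofFinite H
  obtain ⟨θ, hθ⟩ := χ.exists_under H
  obtain ⟨T, hT⟩ : ∃ T, T = charInertia θ.1 := ⟨_, rfl⟩
  haveI := Fintype.ofFinite T
  have hHT : H ≤ T := hT ▸ θ.le_charInertia
  have hcop' : (Nat.card (H.subgroupOf T)).Coprime (H.subgroupOf T).index := by
    rw [card_subgroupOf_of_le hHT]
    exact hcop.coprime_dvd_right (Subgroup.relIndex_dvd_index_of_le hHT)
  obtain ⟨η, hη, hd⟩ := exists_canonical_extension hcop' (θ := θ.subgroupOf hHT)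
    (charInertia_subgroupOf_eq_top hHT hT.le)
  have hη' : ∀ n : H, η.1 ⟨n, hHT n.2⟩ = θ.1 n := fun n => hη ⟨⟨n, hHT n.2⟩, n.2⟩
  have h1 : classInner (fun n : H => η.1 ⟨n, hHT n.2⟩) θ.1 = 1 := by
    rw [funext hη']; exact θ.classInner_self
  have hirr := clifford_corr_isIrr hHT hT.ge η (by rw [h1]; exact one_ne_zero)
  have h2 := clifford_corr_classInner hHT hT.ge η (by rw [h1]; exact one_ne_zero)
  rw [h1] at h2
  obtain ⟨e, -, -, he, -⟩ := clifford χ hθ
  refine ⟨fun g => (e : ℂ) * indFun T η.1 g, hirr.isCharacter.nsmul e, fun h => ?_,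
    fun σ hσ g => ?_⟩
  · have h3 := clifford_res_eq (⟨_, hirr⟩ : IrrCharacter Γ) (θ := θ)
      (h2.trans_ne one_ne_zero) h
    have h4 : indFun T η.1 h = _ := h3.trans (congrArg (· * _) h2)
    simp only [he, h4, one_mul]
  · have h3 : η.galois (σ : ℂ →+* ℂ) = η := by
      refine canonical_extension_unique hcop' ?_ (fun n => ?_) hd ?_
      · rw [show (fun n : H.subgroupOf T => η.1 n) = (θ.subgroupOf hHT).1 from funext hη]
        exact (θ.subgroupOf hHT).2
      · rw [IrrCharacter.galois_apply, hη, IrrCharacter.subgroupOf_apply]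
        exact ringHom_apply_eq_of_mem_cycField hσ
          (θ.isCharacter.isGeneralizedCharacter.mem_cycField_card _)
      · rw [IrrCharacter.galois_val, η.isCharacter.detOrder_galois]
        exact hd
    have h4 := congrFun (indFun_galois (σ : ℂ →+* ℂ) T η.1) g
    rw [← IrrCharacter.galois_val, h3] at h4
    rw [map_mul, map_natCast]
    exact congrArg _ h4.symm

theorem exists_lift {Γ : Type u} [Group Γ] [Finite Γ] {H : Subgroup Γ} [H.Normal]
    (hcop : (Nat.card H).Coprime H.index) {χ : Γ → ℂ} (hχ : IsCharacter Γ χ) :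
    ∃ ψ : Γ → ℂ, IsCharacter Γ ψ ∧ (∀ h : H, ψ h = χ h) ∧
      ∀ g, ψ g ∈ cycField (Nat.card H) := by
  classical
  haveI := Fintype.ofFinite Γ
  choose f hf1 hf2 hf3 using exists_lift_irr hcop
  have h1 : IsCharacter Γ (∑ ξ : IrrCharacter Γ, fun g => (cmult χ ξ.1 : ℂ) * f ξ g) :=
    IsCharacter.sum _ fun ξ _ => (hf1 ξ).nsmul _
  refine ⟨_, h1, fun h => ?_, fun g => ?_⟩
  · rw [hχ.eq_sum_cmult, Finset.sum_apply]
    exact Finset.sum_congr rfl fun ξ _ => by rw [hf2]
  · refine mem_cycField_of_forall_fixed Nat.card_pos.ne'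
      (h1.isGeneralizedCharacter.isAlgebraic_apply g) fun σ hσ => ?_
    rw [Finset.sum_apply, map_sum]
    exact Finset.sum_congr rfl fun ξ _ => by rw [map_mul, map_natCast, hf3 ξ σ hσ]

theorem exists_index_le {G : Type u} [Group G] [Finite G] {p : ℕ} [hp : Fact p.Prime]
    {H P : Subgroup G} [H.Normal] (hH : ¬ p ∣ Nat.card H) (hP : IsPGroup p P) {χ : G → ℂ}
    (hχ : IsCharacter G χ) (hf : ∀ g, χ g = χ 1 → g = 1) :
    ∃ L : Subgroup P, L.index ≤ p ^ ∑ i ∈ Finset.range (charDegree χ + 1),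
      charDegree χ / ((p - 1) * p ^ i) ∧ ∀ x ∈ L, (x : G) ∈ Subgroup.centralizer (H : Set G) := by
  have hcop : (Nat.card (H.subgroupOf (H ⊔ P))).Coprime (H.subgroupOf (H ⊔ P)).index := by
    rw [card_subgroupOf_of_le le_sup_left]
    obtain ⟨k, hk⟩ := IsPGroup.iff_card.1 hP
    have h1 : H.relIndex (H ⊔ P) ∣ p ^ k := by
      rw [Subgroup.relIndex_sup_left, ← hk]
      exact Subgroup.relIndex_dvd_card _ _
    exact (((Nat.Prime.coprime_iff_not_dvd hp.out).2 hH).symm.pow_right k).coprime_dvd_right h1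
  obtain ⟨ψ, h1, h2, h3⟩ := exists_lift hcop (hχ.res (H ⊔ P))
  rw [card_subgroupOf_of_le le_sup_left] at h3
  let ι : P →* ↥(H ⊔ P) := Subgroup.inclusion le_sup_right
  have h4 : ψ 1 = χ 1 := h2 1
  refine ⟨charKer fun x => ψ (ι x), index_charKer_le_of_rational hP _ _ le_rfl _ (h1.comp ι)
    (fun σ g => ?_) ?_, fun x hx => ?_⟩
  · obtain ⟨k, hk⟩ := hP g
    obtain ⟨q, hq⟩ := h1.isGeneralizedCharacter.exists_rat_of_pRational hp.out ⟨_, hH, h3⟩
      (g := ι g) (a := k) (by rw [← map_pow, hk, map_one])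
    rw [hq]
    simp
  · simp only [charDegree, map_one, h4]
  · rw [h1.charKer_comp, Subgroup.mem_comap] at hx
    haveI := h1.charKer_normal
    refine Subgroup.mem_centralizer_iff.2 fun h hh => ?_
    let h' : ↥(H ⊔ P) := ⟨h, Subgroup.mem_sup_left hh⟩
    have h5 : h' * ι x * h'⁻¹ * (ι x)⁻¹ ∈ charKer ψ :=
      mul_mem (Subgroup.Normal.conj_mem inferInstance _ hx h') (inv_mem hx)
    have h6 : h' * ι x * h'⁻¹ * (ι x)⁻¹ ∈ H.subgroupOf (H ⊔ P) := by
      rw [mul_assoc, mul_assoc, ← mul_assoc (ι x)]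
      exact mul_mem hh (Subgroup.Normal.conj_mem inferInstance _ (inv_mem hh) _)
    have h7 := hf _ ((h2 ⟨_, h6⟩).symm.trans ((apply_eq_one_of_mem_charKer h5).trans h4))
    have h8 : h * x * h⁻¹ * (x : G)⁻¹ = 1 := h7
    rwa [mul_inv_eq_one, mul_inv_eq_iff_eq_mul] at h8


/-- Let the finite p-solvable group G have a faithful character of degree n, and let p^a be the index of O_p(G) in a Sylow p-subgroup of G (the p-part of [G : O_p(G)]). Then a ≤ Σ_{i ≥ 0} ⌊n / ((p − 1) p^i)⌋ (a finite sum; the terms vanish for p^i > n). -/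
theorem result {G : Type*} [Group G] [Finite G] (χ : G → ℂ) (hχ : Cfsg.IsCharacter G χ) (hfaith : ∀ g : G, χ g = χ 1 → g = 1) (n : ℕ) (hn : Cfsg.charDegree χ = n) (p : ℕ) (hp : p.Prime) (hsolv : Cfsg.IsPSolvable p G) : ((Cfsg.pCore p G).index).factorization p ≤ ∑ i ∈ Finset.range (n + 1), n / ((p - 1) * p ^ i) := by
  haveI : Fact p.Prime := ⟨hp⟩
  set O := pCore p G with hO
  have hOp : IsPGroup p O := isPGroup_pCore p G
  set K := (pPrimeCore p (G ⧸ O)).comap (QuotientGroup.mk' O) with hK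
  have hOK : O ≤ K := fun x hx => by
    rw [hK, Subgroup.mem_comap, QuotientGroup.mk'_apply, (QuotientGroup.eq_one_iff x).2 hx]
    exact one_mem _
  have hKm : K.map (QuotientGroup.mk' O) = pPrimeCore p (G ⧸ O) :=
    Subgroup.map_comap_eq_self_of_surjective (QuotientGroup.mk'_surjective O) _
  have hrel : ¬ p ∣ O.relIndex K := by
    have h1 := Subgroup.relIndex_ker K (QuotientGroup.mk' O)
    rw [QuotientGroup.ker_mk', hKm] at h1
    rw [h1]
    exact not_dvd_card_pPrimeCore (G := G ⧸ O) p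
  obtain ⟨H, -, hsup, hcard⟩ := exists_complement_in hOK Subgroup.le_normalizer_of_normal
    (coprime_card_of_isPGroup hOp hrel)
  have hH : ¬ p ∣ Nat.card H := hcard ▸ hrel
  have hHm : H.map (QuotientGroup.mk' O) = pPrimeCore p (G ⧸ O) := by
    rw [← hKm, ← hsup, Subgroup.map_sup, (Subgroup.map_eq_bot_iff O).2 (by simp), bot_sup_eq]
  set N := Subgroup.normalizer (H : Set G) with hN
  let f : N →* G ⧸ O := (QuotientGroup.mk' O).comp N.subtype
  have hf : Function.Surjective f := by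
    intro g
    obtain ⟨g, rfl⟩ := QuotientGroup.mk_surjective g
    have h1 := card_conj_smul H g
    obtain ⟨n, hn, h2⟩ := exists_conj_le_of_le_sup (N := O) (A := H) (B := MulAut.conj g • H)
      Subgroup.le_normalizer_of_normal (coprime_card_of_isPGroup hOp hH) (fun x hx => by
        have h2 : g⁻¹ * x * g ∈ K := hsup ▸ Subgroup.mem_sup_right (mem_conj_smul_iff.1 hx)
        have h3 := Subgroup.Normal.conj_mem inferInstance _ h2 g
        rw [hsup]
        simpa [mul_assoc] using h3) (h1 ▸ coprime_card_of_isPGroup hOp hH)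
      (Or.inl (isSolvable_of_isPGroup hOp))
    have h3 := Subgroup.eq_of_le_of_card_ge h2 (by rw [h1, card_conj_smul])
    have h4 : n⁻¹ * g ∈ N := by
      rw [hN, ← conj_smul_eq_iff_mem_normalizer, ← conj_smul_conj_smul, h3, conj_smul_conj_smul,
        inv_mul_cancel, map_one, one_smul]
    refine ⟨⟨_, h4⟩, ?_⟩
    show ((n⁻¹ * g : G) : G ⧸ O) = g
    rw [QuotientGroup.mk_mul, (QuotientGroup.eq_one_iff _).2 (inv_mem hn), one_mul]
  obtain ⟨P⟩ : Nonempty (Sylow p N) := inferInstance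
  obtain ⟨L, hL, hL'⟩ := exists_index_le (H := H.subgroupOf N) (P := (P : Subgroup N))
    (by rwa [card_subgroupOf_of_le Subgroup.le_normalizer]) P.isPGroup' (hχ.res N)
    (fun g hg => Subtype.ext (hfaith g hg))
  have h1 : L ≤ (f.comp (P : Subgroup N).subtype).ker := by
    intro x hx
    have h2 : f x ∈ pPrimeCore p (G ⧸ O) := by
      refine (hsolv.quotient O).centralizer_pPrimeCore_le (pCore_quotient_pCore p) ?_
      rw [← hHm]
      rintro _ ⟨h, hh, rfl⟩
      have h3 := Subgroup.mem_centralizer_iff.1 (hL' x hx) ⟨h, Subgroup.le_normalizer hh⟩ hh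
      have h4 := congrArg f h3
      rwa [map_mul, map_mul] at h4
    have h3 : f x ∈ (P : Subgroup N).map f := Subgroup.mem_map_of_mem f x.2
    exact Subgroup.mem_bot.1 ((disjoint_iff.1 (Subgroup.disjoint_of_coprime_natCard
      (coprime_card_of_isPGroup (P.isPGroup'.map f) (not_dvd_card_pPrimeCore (G := G ⧸ O) p)))).le
      ⟨h3, h2⟩)
  have h2 := Nat.le_of_dvd (Nat.pos_of_ne_zero Subgroup.FiniteIndex.index_ne_zero)
    (Subgroup.index_dvd_of_le h1)
  rw [Subgroup.index_ker, MonoidHom.range_comp, Subgroup.range_subtype] at h2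
  have h3 := (P.mapSurjective hf).card_eq_multiplicity
  rw [Sylow.coe_mapSurjective] at h3
  rw [h3] at h2
  subst hn
  exact (Nat.pow_le_pow_iff_right hp.one_lt).1 (h2.trans hL)

end Cfsg.Agent.S4472
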