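import Cfsg.Statements.S4473
import Cfsg.Agent.Grp.DicksonCA
import Cfsg.Agent.CT.Monomial
import Cfsg.Agent.CT.Kernel

set_option autoImplicit false
open Cfsg

namespace Cfsg.Agent.S4473

/-- Let the finite group G have a faithful irreducible character χ of degree 2 that is primitive: χ is not induced from a character of any proper subgroup. Then the centre of G has index 12, 24 or 60. -/
theorem result {G : Type*} [Group G] [Fintype G] (χ : Cfsg.IrrCharacter G) (hfaith : ∀ g : G, (χ : G → ℂ) g = (χ : G → ℂ) 1 → g = 1) (h2 : Cfsg.charDegree (χ : G → ℂ) = 2) (hprim : ∀ H : Subgroup G, H ≠ ⊤ → ∀ θ : H → ℂ, Cfsg.IsCharacter H θ → (χ : G → ℂ) ≠ Cfsg.indFun H θ) : (Subgroup.center G).index = 12 ∨ (Subgroup.center G).index = 24 ∨ (Subgroup.center G).index = 60 := by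
  obtain ⟨n, X, hX⟩ := Cfsg.isCharacter_iff_matrix.1 χ.isCharacter
  have hn : n = 2 := by
    have h1 := hX 1
    rw [map_one, Matrix.trace_one, Fintype.card_fin, χ.one_eq_charDegree, h2] at h1
    exact_mod_cast h1.symm
  subst hn
  have hinj : Function.Injective X := by
    rw [injective_iff_map_eq_one]
    intro g hg
    apply hfaith
    rw [hX, hX, hg, map_one]
  have hprim' : Cfsg.IsPrimitiveChar χ.1 := hprim
  rcases Cfsg.dickson_mat2 X hinj two_ne_zero (by exact_mod_cast Nat.card_pos.ne') with
    ⟨A, hA, hi⟩ | h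
  · exfalso
    have hi0 : A.index ≠ 0 := Subgroup.index_ne_zero_of_finite
    have hN : A.Normal := by
      rcases (by omega : A.index = 1 ∨ A.index = 2) with h | h
      · rw [Subgroup.index_eq_one.1 h]
        infer_instance
      · exact Subgroup.normal_of_index_eq_two h
    have hle := (hprim'.le_center_of_faithful hfaith A
      ⟨⟨fun a b => Subtype.ext (hA a a.2 b b.2).eq⟩⟩).1
    have hc : (Subgroup.center G).index ≤ 2 :=
      le_trans (Nat.le_of_dvd (Nat.pos_of_ne_zero hi0) (Subgroup.index_dvd_of_le hle)) hi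
    have := χ.sq_charDegree_le_index_of_le χ.center_le_charCenter
    rw [h2] at this
    omega
  · exact h

end Cfsg.Agent.S4473
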