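import Cfsg.Statements.S4476
import Cfsg.Agent.CT.Indicator
import Cfsg.Agent.CT.Kernel


set_option autoImplicit false
open Cfsg

namespace Cfsg.Agent.S4476

theorem sum_card_centralizer {G : Type*} [Group G] [Fintype G] :
    ∑ g : G, (Nat.card (Subgroup.centralizer ({g} : Set G)) : ℝ) =
      Nat.card G * Nat.card (IrrCharacter G) := by
  classical
  have h : ∀ g : G, (Nat.card (Subgroup.centralizer ({g} : Set G)) : ℝ) =
      ∑ χ : IrrCharacter G, ‖χ.1 g‖ ^ 2 := by
    intro g
    have := sum_irr_mul_conj g g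
    rw [if_pos (IsConj.refl g)] at this
    apply Complex.ofReal_injective
    push_cast
    rw [← this]
    refine Finset.sum_congr rfl fun χ _ => ?_
    rw [Complex.mul_conj, Complex.normSq_eq_norm_sq]; push_cast; rfl
  simp_rw [h]
  rw [Finset.sum_comm]
  simp_rw [IrrCharacter.sum_norm_sq]
  simp [Nat.card_eq_fintype_card, mul_comm]


/-- Let G be a finite group of even order g with exactly t involutions, and put α = (g − 1)/t (a rational number). Then (a) some non-identity element x of G has at most α² conjugates; and (b) some non-principal real-valued irreducible character of G has degree at most α. -/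
theorem result {G : Type*} [Group G] [Fintype G] (heven : Even (Nat.card G)) (t : ℕ) (ht : Nat.card {x : G // orderOf x = 2} = t) : (∃ x : G, x ≠ 1 ∧ ((Subgroup.centralizer ({x} : Set G)).index : ℚ) ≤ (((Nat.card G : ℚ) - 1) / t) ^ 2) ∧ ∃ χ : Cfsg.IrrCharacter G, (χ : G → ℂ) ≠ (fun _ => 1) ∧ (∀ g : G, ((χ : G → ℂ) g).im = 0) ∧ (Cfsg.charDegree (χ : G → ℂ) : ℚ) ≤ ((Nat.card G : ℚ) - 1) / t := by
  classical
  set S : Finset (IrrCharacter G) := Finset.univ.filter
    (fun χ => χ ≠ IrrCharacter.triv G ∧ ∀ g, (χ.1 g).im = 0) with hS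
  set d : IrrCharacter G → ℝ := fun χ => (charDegree χ.1 : ℝ) with hd
  have hdpos : ∀ χ, 0 < d χ := fun χ => by
    simp only [hd]; exact_mod_cast χ.charDegree_pos
  have htpos : 0 < t := by
    obtain ⟨x, hx⟩ := exists_prime_orderOf_dvd_card' (G := G) 2 heven.two_dvd
    rw [← ht]
    haveI : Nonempty {x : G // orderOf x = 2} := ⟨⟨x, hx⟩⟩
    exact Nat.card_pos
  have htpos' : (0 : ℝ) < t := by exact_mod_cast htpos
  -- t ≤ ∑_S d
  have h1 : (t : ℝ) ≤ ∑ χ ∈ S, d χ := by
    have h := congrArg Complex.re (sum_fsInd_mul_one (G := G))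
    rw [ht, Complex.re_sum] at h
    simp only [Complex.add_re, Complex.natCast_re, Complex.one_re] at h
    rw [← Finset.add_sum_erase _ _ (Finset.mem_univ (IrrCharacter.triv G)), fsInd_triv] at h
    simp only [IrrCharacter.triv_apply, mul_one, Complex.one_re] at h
    have h2 : ∑ χ ∈ Finset.univ.erase (IrrCharacter.triv G), (fsInd χ.1 * χ.1 1).re ≤
        ∑ χ ∈ Finset.univ.erase (IrrCharacter.triv G),
          (if ∀ g, (χ.1 g).im = 0 then d χ else 0) := by
      refine Finset.sum_le_sum fun χ _ => ?_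
      rw [χ.one_eq_charDegree, Complex.mul_re]
      simp only [Complex.natCast_re, Complex.natCast_im, mul_zero, sub_zero]
      split_ifs with hr
      · exact mul_le_of_le_one_left (hdpos χ).le χ.fsInd_re_le_one
      · have : fsInd χ.1 = 0 := by
          by_contra h0
          exact hr (χ.fsInd_ne_zero_iff.1 h0)
        simp [this]
    rw [← Finset.sum_filter] at h2
    have h3 : (Finset.univ.erase (IrrCharacter.triv G)).filter
        (fun χ : IrrCharacter G => ∀ g, (χ.1 g).im = 0) = S := by
      ext χ; simp [hS]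
    rw [h3] at h2
    linarith
  -- ∑_S d² ≤ g - 1
  have h2 : ∑ χ ∈ S, d χ ^ 2 ≤ (Nat.card G : ℝ) - 1 := by
    have h := congrArg (Nat.cast : ℕ → ℝ) (sum_charDegree_sq (G := G))
    push_cast at h
    rw [← Finset.add_sum_erase _ _ (Finset.mem_univ (IrrCharacter.triv G)),
      IrrCharacter.charDegree_triv] at h
    have h3 : ∑ χ ∈ S, d χ ^ 2 ≤ ∑ χ ∈ Finset.univ.erase (IrrCharacter.triv G), d χ ^ 2 := by
      refine Finset.sum_le_sum_of_subset_of_nonneg ?_ fun _ _ _ => sq_nonneg _
      intro χ hχ
      simp only [hS, Finset.mem_filter] at hχ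
      simp [hχ.2.1]
    simp only [hd] at h3 ⊢
    push_cast at h
    linarith
  have hg1 : (1 : ℝ) < Nat.card G := by
    have h0 : 0 < Nat.card G := Nat.card_pos
    have : 1 < Nat.card G := by
      obtain ⟨k, hk⟩ := heven
      omega
    exact_mod_cast this
  set α : ℝ := ((Nat.card G : ℝ) - 1) / t with hα
  have hαpos : 0 < α := div_pos (by linarith) htpos'
  have hαt : α * t = Nat.card G - 1 := by rw [hα]; field_simp
  constructor
  · by_contra hcon
    push Not at hcon
    have hcon' : ∀ x : G, x ≠ 1 →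
        (Nat.card (Subgroup.centralizer ({x} : Set G)) : ℝ) * α ^ 2 < Nat.card G := by
      intro x hx
      have h := hcon x hx
      have h' : α ^ 2 < ((Subgroup.centralizer ({x} : Set G)).index : ℝ) := by
        have := (Rat.cast_lt (K := ℝ)).2 h
        push_cast at this
        exact this
      rw [← Subgroup.card_mul_index (Subgroup.centralizer ({x} : Set G))]
      push_cast
      have : (0 : ℝ) < Nat.card (Subgroup.centralizer ({x} : Set G)) := by
        exact_mod_cast Nat.card_pos
      exact mul_lt_mul_of_pos_left h' this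
    have hsum := sum_card_centralizer (G := G)
    rw [← Finset.add_sum_erase _ _ (Finset.mem_univ (1 : G))] at hsum
    have hc1 : Nat.card (Subgroup.centralizer ({1} : Set G)) = Nat.card G := by
      rw [show Subgroup.centralizer ({1} : Set G) = ⊤ from by
        ext x; simp [Subgroup.mem_centralizer_iff]]
      exact Subgroup.card_top
    rw [hc1] at hsum
    have hne : (Finset.univ.erase (1 : G)).Nonempty := by
      obtain ⟨x, hx⟩ := exists_prime_orderOf_dvd_card' (G := G) 2 heven.two_dvd
      refine ⟨x, ?_⟩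
      simp only [Finset.mem_erase, Finset.mem_univ, and_true]
      rintro rfl
      simp at hx
    have hlt : ∑ x ∈ Finset.univ.erase (1 : G),
        (Nat.card (Subgroup.centralizer ({x} : Set G)) : ℝ) * α ^ 2 <
        ∑ x ∈ Finset.univ.erase (1 : G), (Nat.card G : ℝ) :=
      Finset.sum_lt_sum_of_nonempty hne fun x hx => hcon' x (Finset.ne_of_mem_erase hx)
    rw [← Finset.sum_mul, Finset.sum_const, Finset.card_erase_of_mem (Finset.mem_univ _),
      Finset.card_univ, ← Nat.card_eq_fintype_card, nsmul_eq_mul,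
      Nat.cast_sub Nat.card_pos, Nat.cast_one] at hlt
    have hScard : (S.card : ℝ) ≤ Nat.card (IrrCharacter G) - 1 := by
      have : S.card ≤ (Finset.univ.erase (IrrCharacter.triv G)).card := by
        refine Finset.card_le_card ?_
        intro χ hχ
        simp only [hS, Finset.mem_filter] at hχ
        simp [hχ.2.1]
      rw [Finset.card_erase_of_mem (Finset.mem_univ _), Finset.card_univ,
        ← Nat.card_eq_fintype_card] at this
      have h' := (Nat.cast_le (α := ℝ)).2 this
      rwa [Nat.cast_sub Nat.card_pos, Nat.cast_one] at h'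
    have hcs : (∑ χ ∈ S, d χ) ^ 2 ≤ S.card * ∑ χ ∈ S, d χ ^ 2 := sq_sum_le_card_mul_sum_sq
    have ht2 : (t : ℝ) ^ 2 ≤ S.card * ((Nat.card G : ℝ) - 1) := by
      calc (t : ℝ) ^ 2 ≤ (∑ χ ∈ S, d χ) ^ 2 := by gcongr
        _ ≤ S.card * ∑ χ ∈ S, d χ ^ 2 := hcs
        _ ≤ _ := by gcongr
    have h5 : ((Nat.card G : ℝ) - 1) ≤ S.card * α ^ 2 := by
      have h6 : ((Nat.card G : ℝ) - 1) * (Nat.card G - 1) ≤ S.card * α ^ 2 * (Nat.card G - 1) := by
        calc ((Nat.card G : ℝ) - 1) * (Nat.card G - 1) = α ^ 2 * (t : ℝ) ^ 2 := by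
              rw [← hαt]; ring
          _ ≤ α ^ 2 * (S.card * ((Nat.card G : ℝ) - 1)) := by gcongr
          _ = _ := by ring
      exact le_of_mul_le_mul_right h6 (by linarith)
    have h7 : ∑ x ∈ Finset.univ.erase (1 : G),
        (Nat.card (Subgroup.centralizer ({x} : Set G)) : ℝ) =
        Nat.card G * (Nat.card (IrrCharacter G) - 1) := by linarith
    rw [h7] at hlt
    have h8 : (Nat.card G : ℝ) * (S.card * α ^ 2) ≤
        Nat.card G * (Nat.card (IrrCharacter G) - 1) * α ^ 2 := by
      rw [mul_assoc]; gcongr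
    nlinarith
  · by_contra hcon
    push Not at hcon
    have hcon' : ∀ χ ∈ S, α < d χ := by
      intro χ hχ
      simp only [hS, Finset.mem_filter] at hχ
      have h := hcon χ (fun h => hχ.2.1 (Subtype.ext h)) hχ.2.2
      have := (Rat.cast_lt (K := ℝ)).2 h
      push_cast at this
      exact this
    have hne : S.Nonempty := by
      rw [Finset.nonempty_iff_ne_empty]
      intro h
      rw [h, Finset.sum_empty] at h1
      linarith
    have hlt : ∑ χ ∈ S, α * d χ < ∑ χ ∈ S, d χ ^ 2 :=
      Finset.sum_lt_sum_of_nonempty hne fun χ hχ => by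
        rw [sq]; exact mul_lt_mul_of_pos_right (hcon' χ hχ) (hdpos χ)
    rw [← Finset.mul_sum] at hlt
    have : α * t ≤ α * ∑ χ ∈ S, d χ := by gcongr
    linarith

end Cfsg.Agent.S4476
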