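import Cfsg.Statements.S4477
import Cfsg.Agent.CT.Indicator
import Cfsg.Agent.CT.Gallagher
import Cfsg.Agent.CT.Burnside
import Cfsg.Agent.Grp.Fitting


set_option autoImplicit false
open Cfsg

namespace Cfsg.Agent.S4477

section
universe u

variable {G : Type u} [Group G] [Finite G]

theorem card_dvd_card_sqrt {K : Subgroup G} (hK : K ≤ Subgroup.center G)
    (h2 : ∀ k ∈ K, k * k = 1) : Nat.card K ∣ Nat.card {x : G // x * x = 1} := by
  classical
  haveI := Fintype.ofFinite G
  rw [Nat.card_eq_fintype_card (α := {x : G // x * x = 1}), Fintype.card_subtype,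
    Finset.card_filter, sum_eq_sum_quotient_sum_subgroup K]
  refine Finset.dvd_sum fun q _ => ?_
  have : ∀ k : K, q.out * k * (q.out * k) = q.out * q.out := by
    intro k
    have h1 := Subgroup.mem_center_iff.1 (hK k.2) q.out
    calc q.out * k * (q.out * k) = q.out * (k * q.out) * k := by group
      _ = q.out * q.out * (k * k) := by rw [← h1]; group
      _ = _ := by rw [h2 k k.2, mul_one]
  simp_rw [this]
  rw [Finset.sum_const, Finset.card_univ, ← Nat.card_eq_fintype_card, smul_eq_mul]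
  exact Dvd.intro _ rfl

/-- the central elements of square one -/
def omega (G : Type u) [Group G] : Subgroup G where
  carrier := {z | z ∈ Subgroup.center G ∧ z * z = 1}
  one_mem' := ⟨Subgroup.one_mem _, mul_one 1⟩
  mul_mem' := by
    rintro a b ⟨ha, ha'⟩ ⟨hb, hb'⟩
    refine ⟨Subgroup.mul_mem _ ha hb, ?_⟩
    have h1 := Subgroup.mem_center_iff.1 hb a
    calc a * b * (a * b) = a * (b * a) * b := by group
      _ = a * a * (b * b) := by rw [← h1]; group
      _ = 1 := by rw [ha', hb', mul_one]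
  inv_mem' := by
    rintro a ⟨ha, ha'⟩
    exact ⟨Subgroup.inv_mem _ ha, by rw [← mul_inv_rev, ha', inv_one]⟩

instance omega_normal (G : Type u) [Group G] : (omega G).Normal :=
  ⟨fun z hz g => by
    rwa [Subgroup.mem_center_iff.1 hz.1 g, mul_inv_cancel_right]⟩

theorem exists_involution (hG : IsPGroup 2 G) {N : Subgroup G} [N.Normal] (hN : N ≠ ⊥) :
    ∃ z ∈ N, z ∈ omega G ∧ z ≠ 1 := by
  obtain ⟨z, ⟨h1, h2⟩, h3⟩ := exists_orderOf_eq_prime_of_dvd_card
    (dvd_card_of_isPGroup_of_ne_bot (hG.to_subgroup _)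
      (inf_center_ne_bot_of_isNilpotent hG.isNilpotent hN))
  refine ⟨z, h1, ⟨h2, by rw [← sq, ← h3, pow_orderOf_eq_one]⟩, ?_⟩
  rintro rfl
  simp at h3

theorem main (G : Type u) [Group G] [Finite G] : IsPGroup 2 G →
    Nat.card {x : G // x * x = 1} % 4 = 2 → IsCyclic G ∨ (commutator G).index = 4 := by
  refine induction_on_card (P := fun G _ _ => IsPGroup 2 G →
    Nat.card {x : G // x * x = 1} % 4 = 2 → IsCyclic G ∨ (commutator G).index = 4) ?_ G
  intro G _ _ ih hG hs
  classical
  haveI := Fintype.ofFinite G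
  rcases subsingleton_or_nontrivial G with hsub | hnt
  · left; infer_instance
  set Z := omega G with hZ
  have hZc : Z ≤ Subgroup.center G := fun z hz => hz.1
  have hZ1 : Z ≠ ⊥ := by
    obtain ⟨z, -, h2, h3⟩ := exists_involution hG (top_ne_bot : (⊤ : Subgroup G) ≠ ⊥)
    exact fun h => h3 (by rwa [← hZ, h, Subgroup.mem_bot] at h2)
  have hZcard : Nat.card Z = 2 := by
    have h1 := card_dvd_card_sqrt hZc (fun k hk => hk.2)
    obtain ⟨j, hj⟩ := (hG.to_subgroup Z).exists_card_eq
    rw [hj] at h1 ⊢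
    rcases j with _ | _ | j
    · exact absurd (Subgroup.card_eq_one.1 hj) hZ1
    · rfl
    · have : 4 ∣ Nat.card {x : G // x * x = 1} :=
        dvd_trans ⟨2 ^ j, by ring⟩ h1
      omega
  have hmin : ∀ K : Subgroup G, K.Normal → K ≠ ⊥ → Z ≤ K := by
    intro K hK hK1
    obtain ⟨z, h1, h2, h3⟩ := exists_involution hG hK1
    have h4 : Subgroup.zpowers z ≤ Z := Subgroup.zpowers_le.2 h2
    rw [← Subgroup.eq_of_le_of_card_ge h4]
    · exact Subgroup.zpowers_le.2 h1
    · rw [hZcard, Nat.card_zpowers]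
      have h5 := orderOf_pos z
      have h6 : orderOf z ≠ 1 := fun h => h3 (orderOf_eq_one_iff.1 h)
      omega
  by_cases hcomm : IsMulCommutative G
  · left
    obtain ⟨χ, hχ⟩ := exists_faithful_irr_of_forall_le hZ1 hmin
    haveI := χ.isCyclic_center_of_faithful hχ
    refine isCyclic_of_surjective (Subgroup.center G).subtype fun g => ⟨⟨g, ?_⟩, rfl⟩
    exact Subgroup.mem_center_iff.2 fun x => hcomm.is_comm.comm x g
  right
  have hD1 : commutator G ≠ ⊥ := fun h => hcomm ((commutator_eq_bot_iff G).1 h)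
  have hZD : Z ≤ commutator G := hmin _ inferInstance hD1
  have hncyc : ¬ IsCyclic (G ⧸ Z) := fun h => hcomm
    ((QuotientGroup.mk' Z).isMulCommutative_of_isCyclic_of_ker_le_center
      (by rwa [QuotientGroup.ker_mk']))
  have hQ := hG.to_quotient Z
  by_cases hsQ : Nat.card {x : G ⧸ Z // x * x = 1} % 4 = 2
  · have := (ih (G ⧸ Z) (card_quotient_lt hZ1) hQ hsQ).resolve_left hncyc
    rwa [← map_commutator_eq_of_surjective _ (QuotientGroup.mk'_surjective Z), index_map_mk,
      sup_eq_left.2 hZD] at this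
  have hsQ' : 4 ∣ Nat.card {x : G ⧸ Z // x * x = 1} := by
    haveI := Nontrivial.of_not_isCyclic hncyc
    obtain ⟨z, -, h2, h3⟩ := exists_involution hQ (top_ne_bot : (⊤ : Subgroup (G ⧸ Z)) ≠ ⊥)
    have h4 := card_dvd_card_sqrt (K := omega (G ⧸ Z)) (fun z hz => hz.1) (fun k hk => hk.2)
    have h5 := dvd_card_of_isPGroup_of_ne_bot (hQ.to_subgroup (omega (G ⧸ Z)))
      (fun h => h3 (by rwa [h, Subgroup.mem_bot] at h2))
    have := h5.trans h4
    omega
  choose n hn using fun χ : IrrCharacter G =>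
    χ.isCharacter.isGeneralizedCharacter.exists_fsInd_eq_int
  have e1 : ∑ χ : IrrCharacter G, n χ * charDegree χ.1 = Nat.card {x : G // x * x = 1} := by
    have := sum_fsInd_mul (1 : G)
    simp_rw [hn, IrrCharacter.one_eq_charDegree] at this
    exact_mod_cast this
  have e2 : ∑ χ : IrrCharacter G with Z ≤ charKer χ.1, n χ * charDegree χ.1 =
      Nat.card {x : G ⧸ Z // x * x = 1} := by
    have h1 := sum_fsInd_mul (1 : G ⧸ Z)
    have h2 := sum_irr_quotient Z (fun χ : IrrCharacter G => fsInd χ.1 * χ.1 1)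
    have h3 : ∀ ψ : IrrCharacter (G ⧸ Z), fsInd (ψ.inflate Z).1 * (ψ.inflate Z).1 1 =
        fsInd ψ.1 * ψ.1 1 := fun ψ => by
      rw [← fsInd_comp_surjective (QuotientGroup.mk' Z) (QuotientGroup.mk'_surjective Z) ψ.1]
      rfl
    simp_rw [h3] at h2
    rw [h2] at h1
    simp_rw [hn, IrrCharacter.one_eq_charDegree] at h1
    exact_mod_cast h1
  set S : Set (IrrCharacter G) :=
    {χ | ¬ Z ≤ charKer χ.1 ∧ charDegree χ.1 = 2 ∧ ∀ g, (χ.1 g).im = 0} with hS
  have hSodd : ¬ 2 ∣ Nat.card S := by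
    rw [← Finset.sum_filter_add_sum_filter_not Finset.univ (fun χ => Z ≤ charKer χ.1), e2] at e1
    have e3 : ∑ χ : IrrCharacter G with ¬ Z ≤ charKer χ.1, ((n χ * charDegree χ.1 : ℤ) : ZMod 4) =
        ∑ χ : IrrCharacter G with ¬ Z ≤ charKer χ.1, if χ ∈ S then 2 else 0 := by
      refine Finset.sum_congr rfl fun χ hχ => ?_
      have hχ' := (Finset.mem_filter.1 hχ).2
      obtain ⟨k, hk⟩ := χ.exists_charDegree_eq_pow hG
      rcases k with _ | _ | k
      · exact absurd (hZD.trans (χ.charDegree_eq_one_iff_commutator_le.1 hk)) hχ'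
      · by_cases hr : ∀ g, (χ.1 g).im = 0
        · rw [if_pos ⟨hχ', hk, hr⟩, hk]
          rcases χ.fsInd_of_real hr with h | h
          · obtain h' : n χ = 1 := by rw [hn] at h; exact_mod_cast h
            rw [h']; decide
          · obtain h' : n χ = -1 := by rw [hn] at h; exact_mod_cast h
            rw [h']; decide
        · rw [if_neg (fun h => hr h.2.2)]
          have h : fsInd χ.1 = 0 := by
            by_contra h; exact hr (χ.fsInd_ne_zero_iff.1 h)
          obtain h' : n χ = 0 := by rw [hn] at h; exact_mod_cast h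
          simp [h']
      · rw [if_neg]
        · rw [hk, pow_add, pow_add]
          push_cast
          rw [mul_assoc (2 ^ k), show (2 : ZMod 4) * 2 = 0 by decide]
          simp
        · intro h
          have := h.2.1
          rw [hk, pow_succ, pow_succ] at this
          omega
    rw [← Finset.sum_filter, Finset.sum_const, Finset.filter_filter, ← Int.cast_sum] at e3
    have e4 : (Finset.univ.filter (fun χ : IrrCharacter G => ¬ Z ≤ charKer χ.1 ∧ χ ∈ S)).card =
        Nat.card S := by
      rw [Nat.card_eq_fintype_card, Fintype.card_subtype]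
      congr 1
      ext χ
      simp only [Finset.mem_filter, Finset.mem_univ, true_and]
      exact ⟨fun h => h.2, fun h => ⟨h.1, h⟩⟩
    rw [e4, eq_sub_of_add_eq' e1] at e3
    rintro ⟨m, hm⟩
    obtain ⟨j, hj⟩ := hsQ'
    rw [hm, hj, ← Nat.mod_add_div (Nat.card {x : G // x * x = 1}) 4, hs, nsmul_eq_mul] at e3
    push_cast at e3
    rw [show (4 : ZMod 4) = 0 by decide, mul_right_comm,
      show (2 * 2 : ZMod 4) = 0 by decide] at e3
    simp only [zero_mul, add_zero, sub_zero] at e3
    exact absurd e3 (by decide)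
  set C : Subgroup (G →* ℂˣ) := (powMonoidHom 2 : (G →* ℂˣ) →* (G →* ℂˣ)).ker with hC
  have hCp : IsPGroup 2 C := fun c => ⟨1, Subtype.ext c.2⟩
  let S' : SubMulAction C (IrrCharacter G) := ⟨S, by
    rintro ⟨c, hc⟩ χ ⟨h1, h2, h3⟩
    have hc' : ∀ g, (c g : ℂ) = 1 ∨ (c g : ℂ) = -1 := fun g => by
      have : c g ^ 2 = 1 := DFunLike.congr_fun (MonoidHom.mem_ker.1 hc) g
      exact sq_eq_one_iff.1 (by rw [← Units.val_pow_eq_pow_val, this, Units.val_one])
    refine ⟨fun h => h1 fun z hz => ?_, (χ.charDegree_twist c).trans h2, fun g => ?_⟩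
    · have h4 := (χ.twist c).mem_charKer.1 (h hz)
      rw [IrrCharacter.twist_apply, IrrCharacter.twist_apply,
        mem_commutator_iff_forall_unitsHom.1 (hZD hz) c, map_one] at h4
      exact χ.mem_charKer.2 (by simpa using h4)
    · show ((c g : ℂ) * χ.1 g).im = 0
      rcases hc' g with h | h <;> simp [h, h3]⟩
  obtain ⟨⟨χ, h1, h2, h3⟩, hχ⟩ := hCp.nonempty_fixed_point_of_prime_not_dvd_card S' hSodd
  have hvan : ∀ g, g ∉ frattini G → χ.1 g = 0 := by
    intro g hg
    obtain ⟨f, hf1, hf2⟩ := exists_unitsHom_le_ker_ne_one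
      (commutator_le_frattini_of_isPGroup hG) hg
    have hfC : f ∈ C := by
      rw [hC, MonoidHom.mem_ker]
      ext x
      have := hf1 (pow_mem_frattini_of_isPGroup hG x)
      rw [MonoidHom.mem_ker, map_pow] at this
      simp [this]
    have h4 : (f g : ℂ) * χ.1 g = χ.1 g :=
      congrFun (congrArg (fun x : S' => x.1.1) (hχ ⟨f, hfC⟩)) g
    by_contra h0
    exact hf2 (Units.ext (mul_right_cancel₀ h0 (by rw [h4]; simp)))
  have hfaith : charKer χ.1 = ⊥ := by
    by_contra h
    exact h1 (hmin _ inferInstance h)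
  have hidx : 4 ≤ (frattini G).index :=
    Nat.le_of_dvd (Nat.pos_of_ne_zero Subgroup.index_ne_zero_of_finite)
      (sq_dvd_index_frattini_of_not_isCyclic hG (fun h => hcomm inferInstance))
  have hnorm := (classInner_res_eq_index_mul_iff χ.1 (frattini G)).2 hvan
  rw [χ.classInner_self, mul_one, classInner_self_eq_ofReal] at hnorm
  have hnorm' : ∑ x : frattini G, ‖χ.1 x‖ ^ 2 = Nat.card (frattini G) * (frattini G).index := by
    have h0 : (Nat.card (frattini G) : ℝ) ≠ 0 := Nat.cast_ne_zero.2 Nat.card_pos.ne'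
    have : (Nat.card (frattini G) : ℝ)⁻¹ * ∑ x : frattini G, ‖χ.1 x‖ ^ 2 =
      (frattini G).index := by exact_mod_cast hnorm
    rw [← this, mul_inv_cancel_left₀ h0]
  have hle : ∀ x : frattini G, ‖χ.1 x‖ ^ 2 ≤ 4 := fun x => by
    have := χ.isCharacter.norm_le x
    rw [h2] at this
    have h0 := norm_nonneg (χ.1 x)
    push_cast at this
    nlinarith
  have hpos : (0 : ℝ) < Nat.card (frattini G) := by exact_mod_cast Nat.card_pos
  have hsum4 : ∑ x : frattini G, (4 : ℝ) = Nat.card (frattini G) * 4 := by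
    rw [Finset.sum_const, Finset.card_univ, ← Nat.card_eq_fintype_card, nsmul_eq_mul]
  have hle' : ∑ x : frattini G, ‖χ.1 x‖ ^ 2 ≤ ∑ x : frattini G, (4 : ℝ) :=
    Finset.sum_le_sum fun x _ => hle x
  have hidx' : (frattini G).index = 4 := by
    rw [hnorm', hsum4] at hle'
    have : ((frattini G).index : ℝ) ≤ 4 := le_of_mul_le_mul_left hle' hpos
    exact le_antisymm (by exact_mod_cast this) hidx
  have heq := (Finset.sum_eq_sum_iff_of_le (fun x _ => hle x)).1
    (show ∑ x : frattini G, ‖χ.1 x‖ ^ 2 = ∑ x : frattini G, (4 : ℝ) by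
      rw [hnorm', hsum4, hidx']; rfl)
  have hΦ : frattini G ≤ Z := by
    intro z hz
    have h4 := heq ⟨z, hz⟩ (Finset.mem_univ _)
    have h5 : z ∈ charCenter χ.1 := by
      rw [χ.mem_charCenter, h2]
      have h0 := norm_nonneg (χ.1 z)
      push_cast
      nlinarith
    refine ⟨χ.charCenter_eq_center_of_faithful hfaith ▸ h5, ?_⟩
    rw [← Subgroup.mem_bot, ← hfaith, IrrCharacter.mem_charKer,
      χ.isCharacter.apply_mul_of_mem_charCenter h5, χ.one_eq_charDegree, h2]
    have h6 : χ.1 z * χ.1 z = 4 := by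
      have h7 := Complex.conj_eq_iff_im.2 (h3 z)
      have h8 := Complex.mul_conj (χ.1 z)
      rw [h7, Complex.normSq_eq_norm_sq, h4] at h8
      exact_mod_cast h8
    push_cast
    linear_combination h6 / 2
  rw [le_antisymm (commutator_le_frattini_of_isPGroup hG) (hΦ.trans hZD), hidx']

end


/-- Let G be a finite 2-group whose number of involutions is congruent to 1 modulo 4. Then G is cyclic or its commutator subgroup has index 4. -/
theorem result {G : Type*} [Group G] [Finite G] (hG : IsPGroup 2 G) (ht : Nat.card {x : G // orderOf x = 2} % 4 = 1) : IsCyclic G ∨ (commutator G).index = 4 := by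
  exact main G hG (by rw [card_sqrt_one_eq]; omega)

end Cfsg.Agent.S4477
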