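import Cfsg.Statements.S4478
import Cfsg.Agent.CT.Indicator
import Cfsg.Agent.CT.PRegular
import Cfsg.Agent.CT.Center


set_option autoImplicit false
open Cfsg

namespace Cfsg.Agent.S4478

theorem eq_sq_pow {G : Type*} [Group G] {g : G} {m : ℕ} (h : g ^ (2 * m + 1) = 1) :
    g = (g * g) ^ (m + 1) := by
  rw [← sq, ← pow_mul, show 2 * (m + 1) = (2 * m + 1) + 1 by ring, pow_succ, h, one_mul]

theorem sum_odd_sq {G : Type*} [Group G] [Fintype G] (f : G → ℂ) :
    ∑ g ∈ Finset.univ.filter (fun g : G => Odd (orderOf g)), f (g * g) =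
      ∑ g ∈ Finset.univ.filter (fun g : G => Odd (orderOf g)), f g := by
  refine Finset.sum_bij (fun g _ => g * g) ?_ ?_ ?_ (fun _ _ => rfl)
  · intro g hg
    simp only [Finset.mem_filter, Finset.mem_univ, true_and] at hg ⊢
    rw [← sq]
    exact hg.of_dvd_nat (orderOf_pow_dvd 2)
  · intro g hg h hh hgh
    simp only [Finset.mem_filter, Finset.mem_univ, true_and] at hg hh
    obtain ⟨m, hm⟩ := hg.mul hh
    rw [eq_sq_pow (g := g) (m := m) (by rw [← hm, pow_mul, pow_orderOf_eq_one, one_pow]),
      eq_sq_pow (g := h) (m := m) (by rw [← hm, mul_comm, pow_mul, pow_orderOf_eq_one, one_pow])]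
    exact congrArg (· ^ (m + 1)) hgh
  · intro g hg
    simp only [Finset.mem_filter, Finset.mem_univ, true_and] at hg ⊢
    obtain ⟨m, hm⟩ := id hg
    refine ⟨g ^ (m + 1), hg.of_dvd_nat (orderOf_pow_dvd _), ?_⟩
    rw [← (Commute.refl g).mul_pow]
    exact (eq_sq_pow (by rw [← hm, pow_orderOf_eq_one])).symm

theorem exists_orderOf_two_mul {G : Type*} [Group G] [Finite G] {g : G} {p : ℕ}
    (h : 2 * p ∣ orderOf g) : ∃ x : G, orderOf x = 2 * p :=
  ⟨g ^ (orderOf g / (2 * p)), orderOf_pow_orderOf_div (orderOf_pos g).ne' h⟩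

/-- Let G be a finite group of even order and χ an irreducible character of G whose degree x is divisible by the full power of 2 dividing the order of G and, for every odd prime p such that G has an element of order 2p, by the full power of p dividing the order of G. Then all involutions of G are conjugate, the centralizer of every involution has order exactly x with x coprime to its index, and the Frobenius–Schur indicator of χ equals 1. -/
theorem result {G : Type*} [Group G] [Fintype G] (heven : Even (Nat.card G)) (χ : Cfsg.IrrCharacter G) (h2 : 2 ^ (Nat.card G).factorization 2 ∣ Cfsg.charDegree (χ : G → ℂ)) (hp : ∀ p : ℕ, p.Prime → p ≠ 2 → (∃ g : G, orderOf g = 2 * p) → p ^ (Nat.card G).factorization p ∣ Cfsg.charDegree (χ : G → ℂ)) : (∀ s t : G, orderOf s = 2 → orderOf t = 2 → IsConj s t) ∧ (∀ s : G, orderOf s = 2 → Nat.card (Subgroup.centralizer ({s} : Set G)) = Cfsg.charDegree (χ : G → ℂ) ∧ (Nat.card (Subgroup.centralizer ({s} : Set G))).Coprime (Subgroup.centralizer ({s} : Set G)).index)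 ∧ (Nat.card G : ℂ)⁻¹ * ∑ g : G, (χ : G → ℂ) (g * g) = 1 := by
  classical
  haveI : Fact (Nat.Prime 2) := ⟨Nat.prime_two⟩
  have hG0 : Nat.card G ≠ 0 := Nat.card_pos.ne'
  have hvan : ∀ g : G, 2 ∣ orderOf g → χ.1 g = 0 := fun g hg => χ.eq_zero_of_ordProj_dvd h2 hg
  obtain ⟨s₀, hs₀⟩ := exists_prime_orderOf_dvd_card' (G := G) 2 heven.two_dvd
  have hne : χ ≠ IrrCharacter.triv G := by
    rintro rfl
    have := hvan s₀ (by rw [hs₀])
    simp at this
  have hsum0 : ∑ g ∈ Finset.univ.filter (fun g : G => Odd (orderOf g)), χ.1 g = 0 := by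
    have h := IrrCharacter.classInner_of_ne hne
    rw [classInner_def, mul_eq_zero] at h
    have h' := h.resolve_left (inv_ne_zero (Nat.cast_ne_zero.2 hG0))
    simp only [IrrCharacter.triv_apply, map_one, mul_one] at h'
    rw [← h']
    refine Finset.sum_filter_of_ne fun g _ hg => ?_
    rw [← Nat.not_even_iff_odd, even_iff_two_dvd]
    exact fun h => hg (hvan g h)
  set T := Finset.univ.filter (fun g : G => orderOf g = 2) with hT
  have hsum : ∑ g : G, χ.1 (g * g) = T.card * charDegree χ.1 := by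
    rw [← Finset.sum_filter_add_sum_filter_not Finset.univ (fun g : G => Odd (orderOf g)),
      sum_odd_sq, hsum0, zero_add, ← nsmul_eq_mul, ← Finset.sum_const]
    symm
    refine Finset.sum_subset_zero_on_sdiff ?_ ?_ ?_
    · intro g hg
      simp only [hT, Finset.mem_filter, Finset.mem_univ, true_and] at hg ⊢
      rw [hg]; decide
    · intro g hg
      simp only [hT, Finset.mem_sdiff, Finset.mem_filter, Finset.mem_univ, true_and,
        Nat.not_odd_iff_even] at hg
      obtain ⟨⟨m, hm⟩, hg2⟩ := hg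
      have ho : orderOf (g * g) = m := by
        rw [← sq, orderOf_pow' g two_ne_zero, hm, ← two_mul, Nat.gcd_mul_right_left,
          Nat.mul_div_cancel_left _ two_pos]
      have hm1 : m ≠ 1 := by rintro rfl; exact hg2 hm
      obtain ⟨p, hp1, hp2⟩ := Nat.exists_prime_and_dvd hm1
      haveI := Fact.mk hp1
      by_cases hp3 : p = 2
      · subst hp3; exact hvan _ (ho ▸ hp2)
      · refine χ.eq_zero_of_ordProj_dvd (hp p hp1 hp3 (exists_orderOf_two_mul (g := g) ?_))
          (ho ▸ hp2)
        rw [hm, ← two_mul]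
        exact Nat.mul_dvd_mul_left 2 hp2
    · intro g hg
      simp only [hT, Finset.mem_filter, Finset.mem_univ, true_and] at hg
      rw [← sq, ← hg, pow_orderOf_eq_one, χ.one_eq_charDegree]
  have hTpos : 0 < T.card := Finset.card_pos.2 ⟨s₀, by simp [hT, hs₀]⟩
  have hfs : fsInd χ.1 = 1 := by
    have h1 : fsInd χ.1 = (((Nat.card G : ℝ)⁻¹ * (T.card * charDegree χ.1) : ℝ) : ℂ) := by
      rw [fsInd_eq_sum, hsum]; push_cast; rfl
    have h3 : (0 : ℝ) < (Nat.card G : ℝ)⁻¹ * (T.card * charDegree χ.1) := by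
      have := χ.charDegree_pos
      have := Nat.pos_of_ne_zero hG0
      positivity
    rcases χ.fsInd_cases with h | h | h
    · rw [h1, Complex.ofReal_eq_zero] at h; exact absurd h h3.ne'
    · exact h
    · rw [h1] at h
      have : (Nat.card G : ℝ)⁻¹ * (T.card * charDegree χ.1) = -1 := by exact_mod_cast h
      linarith
  have hcard : T.card * charDegree χ.1 = Nat.card G := by
    rw [fsInd_eq_sum, hsum, inv_mul_eq_one₀ (Nat.cast_ne_zero.2 hG0)] at hfs
    exact_mod_cast hfs.symm
  have hprime : ∀ s : G, orderOf s = 2 → ∀ p : ℕ, p.Prime →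
      p ∣ Nat.card (Subgroup.centralizer ({s} : Set G)) →
      p ^ (Nat.card G).factorization p ∣ charDegree χ.1 := by
    intro s hs p hp1 hp2
    by_cases hp3 : p = 2
    · subst hp3; exact h2
    haveI := Fact.mk hp1
    obtain ⟨y, hy⟩ := exists_prime_orderOf_dvd_card' p hp2
    refine hp p hp1 hp3 ⟨s * y, ?_⟩
    have hc : Commute s y := (Subgroup.mem_centralizer_iff.1 y.2) s rfl
    rw [hc.orderOf_mul_eq_mul_orderOf_of_coprime, hs, Subgroup.orderOf_coe, hy]
    rw [hs, Subgroup.orderOf_coe, hy]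
    exact (Nat.coprime_primes Nat.prime_two hp1).2 (Ne.symm hp3)
  have hdvd : ∀ s : G, orderOf s = 2 →
      Nat.card (Subgroup.centralizer ({s} : Set G)) ∣ charDegree χ.1 := by
    intro s hs
    rw [Nat.dvd_iff_prime_pow_dvd_dvd]
    intro p k hp1 hk
    rcases Nat.eq_zero_or_pos k with rfl | hk0
    · simp
    refine dvd_trans (pow_dvd_pow p ?_) (hprime s hs p hp1 ((dvd_pow_self p hk0.ne').trans hk))
    exact (hp1.pow_dvd_iff_le_factorization hG0).1 (hk.trans (Subgroup.card_subgroup_dvd_card _))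
  have hsub : ∀ s : G, orderOf s = 2 → Finset.univ.filter (fun x : G => IsConj s x) ⊆ T := by
    intro s hs x hx
    simp only [hT, Finset.mem_filter, Finset.mem_univ, true_and] at hx ⊢
    obtain ⟨c, rfl⟩ := isConj_iff.1 hx
    rw [← hs]
    exact (MulAut.conj c).orderOf_eq s
  have hkey : ∀ s : G, orderOf s = 2 →
      Nat.card (Subgroup.centralizer ({s} : Set G)) = charDegree χ.1 ∧
      (Subgroup.centralizer ({s} : Set G)).index = T.card := by
    intro s hs
    have h1 := Finset.card_le_card (hsub s hs)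
    rw [card_filter_isConj] at h1
    have h3 := Nat.le_of_dvd χ.charDegree_pos (hdvd s hs)
    have h4 := (Subgroup.centralizer ({s} : Set G)).card_mul_index
    have h5 := χ.charDegree_pos
    rw [← hcard] at h4
    constructor <;> nlinarith
  refine ⟨fun s t hs ht => ?_, fun s hs => ⟨(hkey s hs).1, ?_⟩, by rw [← fsInd_eq_sum, hfs]⟩
  · have h1 := Finset.eq_of_subset_of_card_le (hsub s hs)
      (by rw [card_filter_isConj, (hkey s hs).2])
    have : t ∈ T := by simp [hT, ht]
    rw [← h1] at this
    exact (Finset.mem_filter.1 this).2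
  · refine Nat.coprime_of_dvd fun p hp1 hp2 hp3 => ?_
    have h1 := hprime s hs p hp1 hp2
    rw [← (hkey s hs).1] at h1
    have h3 := Nat.mul_dvd_mul h1 hp3
    rw [Subgroup.card_mul_index, ← pow_succ] at h3
    exact Nat.pow_succ_factorization_not_dvd hG0 hp1 h3

end Cfsg.Agent.S4478
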