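import Cfsg.Statements.S4480
import Cfsg.Agent.S4479
import Cfsg.Agent.Blk.RealBlock
import Cfsg.Agent.CT.Forms

set_option autoImplicit false
open Cfsg

namespace Cfsg.Agent.S4480

/-- Same setting as the Klein-four order formula: G of order 4·g₀ (g₀ odd) with no normal 2-complement, P a Sylow 2-subgroup, J an involution of P, M over 2, principal 2-block {1, χ₁, χ₂, χ₃} with χ_i(J) = ε_i = ±1. Suppose ε₁ε₂ε₃ = −1 and ε₃ = −1, and put q = x₃ = χ₃(1). Then there is a natural number m with 4·c(J) = m·c(P)·(q + 1), and the order of G equals (m³·c(P)/4)·(q³ − q)/2, that is 8·#G = m³·c(P)·(q³ − q). -/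
theorem result {G : Type*} [Group G] [Finite G] (M : Ideal Cfsg.AlgInt) (hM : Cfsg.IsPModular 2 M) (g₀ : ℕ) (hg₀ : Odd g₀) (hG : Nat.card G = 4 * g₀) (hnc : ¬ ∃ N : Subgroup G, N.Normal ∧ Nat.card N = g₀) (P : Sylow 2 G) (J : G) (hJ : J ∈ (P : Subgroup G)) (hJ2 : orderOf J = 2) (χ₁ χ₂ χ₃ : Cfsg.IrrCharacter G) (ε₁ ε₂ ε₃ : ℤ) (hB : Cfsg.principalBlock M G = {χ : Cfsg.IrrCharacter G | (χ : G → ℂ) = (fun _ => 1) ∨ χ = χ₁ ∨ χ = χ₂ ∨ χ = χ₃}) (hdist : (χ₁ : G → ℂ) ≠ (fun _ => 1) ∧ (χ₂ : G → ℂ) ≠ (fun _ => 1) ∧ (χ₃ : G → ℂ) ≠ (fun _ => 1) ∧ χ₁ ≠ χ₂ ∧ χ₁ ≠ χ₃ ∧ χ₂ ≠ χ₃) (hε : (ε₁ = 1 ∨ ε₁ = -1) ∧ (ε₂ = 1 ∨ ε₂ = -1) ∧ (ε₃ = 1 ∨ ε₃ = -1)) (hval : (χ₁ : G → ℂ) J = ε₁ ∧ (χ₂ : G → ℂ) J = ε₂ ∧ (χ₃ : G → ℂ) J = ε₃) (hprod : ε₁ * ε₂ * ε₃ = -1) (hε₃ : ε₃ = -1) : ∃ m : ℕ, 4 * Nat.card (Subgroup.centralizer ({J} : Set G)) = m * Nat.card (Subgroup.centralizer ((P : Subgroup G) : Set G)) * (Cfsg.charDegree (χ₃ : G → ℂ) + 1)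 ∧ 8 * Nat.card G = m ^ 3 * Nat.card (Subgroup.centralizer ((P : Subgroup G) : Set G)) * (Cfsg.charDegree (χ₃ : G → ℂ) ^ 3 - Cfsg.charDegree (χ₃ : G → ℂ)) := by
  classical
  have main := S4479.result M hM g₀ hg₀ hG hnc P J hJ hJ2 χ₁ χ₂ χ₃ ε₁ ε₂ ε₃ hB hdist hε hval
  obtain ⟨τ, h, hinv⟩ := S4479.setup hg₀ hG hnc P hJ hJ2
  obtain ⟨v1, v2, v3⟩ := hval
  subst hε₃
  have t1 := isPBlock_principalBlock.sum_mul_conj_eq_zero hM
    (not_isConj_pPart_of_regular_singular (g := (1 : G)) (by simp) hJ2.symm.dvd)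
  rw [S4479.sum_eq hB hdist, v1, v2, v3] at t1
  simp only [IrrCharacter.triv_apply, map_one, map_intCast, IrrCharacter.one_eq_charDegree] at t1
  have t2 : 1 + (charDegree χ₁.1 : ℤ) * ε₁ + charDegree χ₂.1 * ε₂ - charDegree χ₃.1 = 0 := by
    apply Int.cast_injective (α := ℂ)
    push_cast at t1 ⊢
    linear_combination t1
  have p1 := χ₁.charDegree_pos
  have p2 := χ₂.charDegree_pos
  have p3 := χ₃.charDegree_pos
  obtain ⟨rfl, rfl⟩ : ε₁ = 1 ∧ ε₂ = 1 := by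
    rcases hε.1 with rfl | rfl <;> rcases hε.2.1 with rfl | rfl <;> omega
  have hJJ := mul_self_eq_one_of_orderOf_two hJ2
  have f1 := (isPBlock_principalBlock.isBlockUnion hM).sum_eq_zero_of_section hM
    (fun χ => fsInd χ.1) (g := J) fun x hx => by
      rw [sum_fsInd_mul, Nat.cast_eq_zero, Nat.card_eq_zero]
      refine Or.inl ⟨fun ⟨y, hy⟩ => ?_⟩
      rw [pPart_eq_self_iff.2 ⟨1, hJ2⟩, ← hy, pPart_mul (Commute.refl y)] at hx
      obtain ⟨g, hg⟩ := exists_conj_mem_sylow P (exists_orderOf_pPart (p := 2) y)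
      have h2 : g * pPart 2 y * g⁻¹ * (g * pPart 2 y * g⁻¹) = 1 := by
        by_cases hx' : g * pPart 2 y * g⁻¹ ∈ Subgroup.zpowers J
        · rw [← sq, ← orderOf_dvd_iff_pow_eq_one]
          exact (orderOf_dvd_of_mem_zpowers hx').trans hJ2.dvd
        · exact h.mul_self_of_notMem hg hx'
      rw [conj_mul, conj_eq_one_iff] at h2
      rw [h2, isConj_one_left] at hx
      rw [hx, orderOf_one] at hJ2
      omega
  rw [S4479.sum_eq hB hdist, v1, v2, v3, fsInd_triv, IrrCharacter.triv_apply] at f1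
  have hodd : ∀ χ : IrrCharacter G, χ.1 J = (1 : ℤ) → fsInd χ.1 ≠ -1 := fun χ e e' => by
    obtain ⟨n, hn, hn'⟩ := χ.exists_int_apply_of_mul_self hJJ
    obtain rfl : n = 1 := by exact_mod_cast hn.symm.trans e
    obtain ⟨k, hk⟩ := χ.even_charDegree_of_fsInd_eq_neg_one e'
    rw [hk, Int.ModEq] at hn'
    omega
  have f2 : fsInd χ₁.1 = 0 := by
    rcases χ₁.fsInd_cases with a | a | a
    · exact a
    · rcases χ₂.fsInd_cases with b | b | b
      · rcases χ₃.fsInd_cases with c | c | c <;> rw [a, b, c] at f1 <;> norm_num at f1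
      · rcases χ₃.fsInd_cases with c | c | c <;> rw [a, b, c] at f1 <;> norm_num at f1
      · exact absurd b (hodd _ v2)
    · exact absurd a (hodd _ v1)
  have f3 : χ₁.cconj = χ₂ := by
    have := hM.cconj_mem_principalBlock (χ := χ₁) (by simp [hB])
    rw [hB] at this
    rcases this with e | e | e | e
    · exact absurd (funext fun g => by simpa using congrArg (starRingEnd ℂ) (congrFun e g)) hdist.1
    · exact absurd f2 (χ₁.fsInd_ne_zero_iff_cconj.2 e)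
    · exact e
    · have := congrArg (fun χ : IrrCharacter G => χ.1 J) e
      simp only [IrrCharacter.cconj_apply, v1, v3] at this
      norm_num at this
  have f4 : charDegree χ₂.1 = charDegree χ₁.1 := by rw [← f3, IrrCharacter.charDegree_cconj]
  have f5 : charDegree χ₃.1 = 2 * charDegree χ₁.1 + 1 := by omega
  obtain ⟨r, hr⟩ := Subgroup.card_dvd_of_le (Subgroup.centralizer_le
    (Set.singleton_subset_iff.2 hJ : ({J} : Set G) ⊆ (P : Subgroup G)))
  rw [← (Subgroup.centralizer ({J} : Set G)).card_mul_index, f4, f5, hr] at main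
  rw [← (Subgroup.centralizer ({J} : Set G)).card_mul_index, f5, hr]
  have c1 : 0 < Nat.card (Subgroup.centralizer ((P : Subgroup G) : Set G)) := Nat.card_pos
  have c2 : 0 < r := Nat.pos_of_mul_pos_left (hr ▸ Nat.card_pos)
  generalize charDegree χ₁.1 = x, (Subgroup.centralizer ({J} : Set G)).index = I,
    Nat.card (Subgroup.centralizer ((P : Subgroup G) : Set G)) = d at *
  have k1 : I * (x + 1) ^ 2 = x * (2 * x + 1) * (2 * r) ^ 2 := by
    have : (0 : ℚ) < x := by exact_mod_cast p1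
    have : (0 : ℚ) < d := by exact_mod_cast c1
    have : (0 : ℚ) < r := by exact_mod_cast c2
    apply Nat.cast_injective (R := ℚ)
    push_cast at main ⊢
    rw [add_neg_cancel_right] at main
    field_simp at main
    linear_combination (1 / 2 : ℚ) * main
  have k2 : (x + 1) ^ 2 ∣ (2 * r) ^ 2 := by
    refine Nat.Coprime.dvd_of_dvd_mul_left (Nat.Coprime.pow_left 2 (Nat.Coprime.mul_right
      (by simp) ?_)) (k1 ▸ dvd_mul_left _ _)
    rw [show 2 * x + 1 = x + (x + 1) by ring]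
    simp
  obtain ⟨m, hm⟩ := (Nat.pow_dvd_pow_iff two_ne_zero).1 k2
  have k3 : I = x * (2 * x + 1) * m ^ 2 := by
    rw [hm, mul_pow, ← mul_assoc, mul_right_comm] at k1
    exact Nat.eq_of_mul_eq_mul_right (by positivity) k1
  refine ⟨m, by nlinarith, ?_⟩
  rw [show (2 * x + 1) ^ 3 - (2 * x + 1) = 4 * x * (x + 1) * (2 * x + 1) from
    Nat.sub_eq_of_eq_add (by ring), k3]
  linear_combination (4 * d * x * (2 * x + 1) * m ^ 2) * hm

end Cfsg.Agent.S4480
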