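import Cfsg.Statements.S4482
import Cfsg.Agent.Blk.DihCount

set_option autoImplicit false
open Cfsg

namespace Cfsg.Agent.S4482

theorem sum_sum_eq {S : Type*} [Group S] [Fintype S] {σ : S} (hgen : ∀ x, x ∈ Subgroup.zpowers σ)
    (W : S → ℂ) (hW : ∀ s, W (σ * σ * s) = W s) (μ : S →* ℂˣ)
    (hμ : μ (σ * σ) ≠ 1) : 4 * ∑ s, ∑ t, W s * W t * (2 - μ (s * t⁻¹) - (μ (s * t⁻¹) : ℂ)⁻¹) =
      2 * (Nat.card S * (W 1 + W σ)) ^ 2 := by
  have h1 : ∀ ν : S →* ℂˣ, ν (σ * σ) ≠ 1 → ∑ s, W s * ν s = 0 := fun ν hν => by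
    have := Equiv.sum_comp (Equiv.mulLeft (σ * σ)) fun s => W s * ν s
    simp only [Equiv.coe_mulLeft, hW, map_mul ν (σ * σ), Units.val_mul, mul_left_comm (W _),
      ← Finset.mul_sum] at this
    exact (mul_left_eq_self₀.1 this).resolve_left fun e => hν (Units.ext e)
  have h2 : ∀ s, W s + W (σ * s) = W 1 + W σ := fun s => by
    obtain ⟨k, rfl⟩ := mem_powers_iff_mem_zpowers.2 (hgen s)
    induction k with
    | zero => simp
    | succ k ih =>
      beta_reduce at ih ⊢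
      rw [pow_succ', ← mul_assoc, hW, add_comm, ih]
  have h3 : 2 * ∑ s, W s = Nat.card S * (W 1 + W σ) := by
    rw [two_mul]
    conv_lhs => enter [2]; rw [← Equiv.sum_comp (Equiv.mulLeft σ)]
    simp only [Equiv.coe_mulLeft, ← Finset.sum_add_distrib, h2]
    simp [mul_add]
  have h4 := h1 μ hμ
  have h5 := h1 μ⁻¹ fun e => hμ (inv_eq_one.1 e)
  simp only [MonoidHom.inv_apply, Units.val_inv_eq_inv_val] at h5
  have h6 : ∀ s t, W s * W t * (2 - μ (s * t⁻¹) - (μ (s * t⁻¹) : ℂ)⁻¹) =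
      2 * (W s * W t) - W s * μ s * (W t * (μ t : ℂ)⁻¹) - W s * (μ s : ℂ)⁻¹ * (W t * μ t) := by
    intro s t
    simp only [map_mul, map_inv, Units.val_mul, Units.val_inv_eq_inv_val, mul_inv, inv_inv]
    ring
  simp only [h6, Finset.sum_sub_distrib, ← Finset.mul_sum, ← Finset.sum_mul, h4, h5, ← h3]
  ring

/-- An order formula for groups with dihedral Sylow 2-subgroups and one class of involutions. Let G be a finite group whose Sylow 2-subgroup P = ⟨σ, τ⟩ is dihedral of order 2^n ≥ 8 (σ of order 2^(n−1), τ an involution inverting σ), let J be the central involution σ^(2^(n−2)), and suppose J, τ and στ are conjugate in G. Fix M over 2 and let χ₁ be an irreducible character in the principal 2-block taking one constant value δ₁ = ±1 at every non-identity power of σ, with χ₁ ≠ 1. Then, with x₁ = χ₁(1) and c(·) denoting orders of centralizers, x₁ ≠ δ₁ and #G · (x₁ − δ₁)² = 2·x₁(x₁ + δ₁)·c(J)³·(1/c(J,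 τ) + 1/c(J, στ))², where c(J, y) is the order of the joint centralizer of J and y. -/
theorem result {G : Type*} [Group G] [Finite G] (M : Ideal Cfsg.AlgInt) (hM : Cfsg.IsPModular 2 M) (n : ℕ) (hn : 3 ≤ n) (P : Sylow 2 G) (σ τ : G) (hσ : σ ∈ (P : Subgroup G)) (hτ : τ ∈ (P : Subgroup G)) (hσo : orderOf σ = 2 ^ (n - 1)) (hτo : orderOf τ = 2) (hrel : τ * σ * τ⁻¹ = σ⁻¹) (hgen : Subgroup.closure ({σ, τ} : Set G) = (P : Subgroup G)) (hconj : IsConj (σ ^ (2 ^ (n - 2))) τ ∧ IsConj (σ ^ (2 ^ (n - 2))) (σ * τ)) (χ₁ : Cfsg.IrrCharacter G) (hχ₁ : χ₁ ∈ Cfsg.principalBlock M G) (h1 : (χ₁ : G → ℂ) ≠ (fun _ => 1)) (δ₁ : ℤ) (hδ₁ : δ₁ = 1 ∨ δ₁ = -1) (hval : ∀ l : ℕ, 0 < l → l < 2 ^ (n - 1) → (χ₁ : G → ℂ) (σ ^ l) = δ₁) : (Cfsg.charDegree (χ₁ : G → ℂ) : ℤ) ≠ δ₁ ∧ (Nat.card G : ℚ) * ((Cfsg.charDegree (χ₁ : G → ℂ) : ℚ) - δ₁) ^ 2 = 2 * (Cfsg.charDegree (χ₁ : G → ℂ) : ℚ) * ((Cfsg.charDegree (χ₁ : G → ℂ) : ℚ) + δ₁)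 * (Nat.card (Subgroup.centralizer ({σ ^ (2 ^ (n - 2))} : Set G)) : ℚ) ^ 3 * (1 / (Nat.card (Subgroup.centralizer ({σ ^ (2 ^ (n - 2)), τ} : Set G)) : ℚ) + 1 / (Nat.card (Subgroup.centralizer ({σ ^ (2 ^ (n - 2)), σ * τ} : Set G)) : ℚ)) ^ 2 := by
  classical
  have := Fintype.ofFinite G
  obtain ⟨k, rfl⟩ : ∃ k, n = k + 3 := ⟨n - 3, by omega⟩
  have e1 : 2 ^ (k + 3 - 1) = 2 * 2 ^ (k + 3 - 2) := by
    rw [show k + 3 - 1 = (k + 3 - 2) + 1 by omega, pow_succ']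
  have hm : 2 ≤ 2 ^ (k + 3 - 2) := by
    rw [show k + 3 - 2 = k + 1 by omega, pow_succ']
    exact Nat.le_mul_of_pos_right _ (by positivity)
  rw [e1] at hσo hval
  generalize 2 ^ (k + 3 - 2) = m at *
  have h := IsDih.of_closure hm hσo (mul_self_eq_one_of_orderOf_two hτo) hrel hgen
  have hm0 : 2 * m ≠ 0 := by omega
  have hζ := Complex.isPrimitiveRoot_exp (2 * m) hm0
  generalize Complex.exp _ = ζ at hζ
  have hζm : ζ ^ m = -1 := (hζ.pow (by omega) (mul_comm 2 m)).eq_neg_one_of_two_right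
  obtain ⟨ψ₁, χ₂, χ₃, χ', δ, δ₂, δ₃, d1, d2, d3, -, -, -, -, -, -, -, -, hB, hv, hρ⟩ :=
    h.principalBlock_eq hM hm hζ
  have v1 := hval 1 one_pos (by omega)
  have v2 := hval 2 two_pos (by omega)
  have hne : ∀ ε : ℤ, (δ₁ : ℂ) = ε * (-1) ^ (1 + 1) → (δ₁ : ℂ) = ε * (-1) ^ (2 + 1) → False :=
    fun ε a b => by
      have : (δ₁ : ℂ) = 0 := by linear_combination (1 / 2 : ℂ) * a + (1 / 2 : ℂ) * b
      rcases hδ₁ with rfl | rfl <;> norm_num at this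
  obtain rfl : χ₁ = ψ₁ := by
    rcases (hB χ₁).1 hχ₁ with rfl | e | rfl | rfl | ⟨j, rfl⟩
    · exact absurd rfl h1
    · exact e
    · exact (hne δ₂ (v1.symm.trans (hv 1 one_pos (by omega)).2.1)
        (v2.symm.trans (hv 2 two_pos (by omega)).2.1)).elim
    · exact (hne δ₃ (v1.symm.trans (hv 1 one_pos (by omega)).2.2.1)
        (v2.symm.trans (hv 2 two_pos (by omega)).2.2.1)).elim
    · have e := (hval m h.pos (by omega)).symm.trans ((hv m h.pos (by omega)).2.2.2 j)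
      rw [mul_comm _ m, pow_mul, hζm] at e
      have e2 : (δ₁ : ℂ) ^ 2 = 4 * δ ^ 2 := by
        rw [e]
        rcases neg_one_pow_eq_or ℂ ((j : ℕ) + 1) with a | a <;> rw [a] <;> norm_num <;> ring
      rcases hδ₁ with rfl | rfl <;> rcases d1 with rfl | rfl <;> norm_num at e2
  obtain rfl : δ₁ = δ := by exact_mod_cast v1.symm.trans (hv 1 one_pos (by omega)).1
  set ψ := χ' ⟨0, by omega⟩
  have hψ : ψ ∈ principalBlock M G := (hB _).2 (Or.inr (Or.inr (Or.inr (Or.inr ⟨_, rfl⟩))))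
  have hδ : (δ₁ : ℂ) ^ 2 = 1 := by rcases hδ₁ with rfl | rfl <;> norm_num
  set σ' : Subgroup.zpowers σ := ⟨σ, Subgroup.mem_zpowers σ⟩
  have hgen : ∀ x, x ∈ Subgroup.zpowers σ' := fun ⟨_, k, rfl⟩ => ⟨k, rfl⟩
  obtain ⟨μ, hμ⟩ : ∃ μ : Subgroup.zpowers σ →* ℂˣ, ∀ l : ℕ, (μ (σ' ^ l) : ℂ) = ζ ^ l :=
    ⟨monoidHomOfForallMemZpowers hgen (g' := (hζ.isUnit hm0).unit) (by
      rw [← orderOf_units, IsUnit.unit_spec, ← hζ.eq_orderOf, Subgroup.orderOf_mk, h.ord]),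
      fun l => by rw [map_pow, monoidHomOfForallMemZpowers_apply_gen, Units.val_pow_eq_pow_val,
        IsUnit.unit_spec]⟩
  set Θ : G → ℂ := fun g => 1 + δ₁ * χ₁.1 g - δ₁ * ψ.1 g with hΘ
  have h0 : ∀ g, ¬ 2 ∣ orderOf g → Θ g = 0 := fun g hg => sub_eq_zero.2 (hρ g hg _).2
  have hS : ∀ s : Subgroup.zpowers σ, Θ s = 2 - μ s - (μ s : ℂ)⁻¹ := fun s => by
    obtain ⟨l, hl, rfl⟩ : ∃ l < 2 * m, σ' ^ l = s := by
      obtain ⟨l, rfl⟩ := mem_powers_iff_mem_zpowers.2 (hgen s)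
      refine ⟨l % (2 * m), Nat.mod_lt _ (by omega), ?_⟩
      rw [← h.ord, ← Subgroup.orderOf_mk σ (Subgroup.mem_zpowers σ), pow_mod_orderOf]
    rcases Nat.eq_zero_or_pos l with rfl | hl0
    · rw [pow_zero, Subgroup.coe_one, h0 1 (by simp)]; norm_num
    · have e := (hv l hl0 hl).2.2.2 ⟨0, by omega⟩
      rw [hμ]
      change 1 + δ₁ * χ₁.1 (σ ^ l) - δ₁ * ψ.1 (σ ^ l) = _
      rw [e, hval l hl0 hl]
      simp only [zero_add, one_mul]
      linear_combination (1 - (ζ ^ l + (ζ ^ l)⁻¹)) * hδ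
  set C := Subgroup.centralizer ({σ ^ m} : Set G) with hC
  have key := h.sum_sum_isConj (h.isConj_J hconj.1 hconj.2) hC (Θ := Θ)
    (fun a b => by simp only [hΘ, χ₁.isClassFunction a b, ψ.isClassFunction a b])
    (fun g hg => by simp only [hΘ, ← h.apply_pPart hM hχ₁ hg, ← h.apply_pPart hM hψ hg]) h0
  have k2 := sum_sum_eq hgen
    (fun s => invW C P (s * τ)) (fun s => by
      have e := h.σ_conj s.2 1
      simp only [pow_one, mul_one, zpow_ofNat, sq] at e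
      simp only [Subgroup.coe_mul, ← e, invW, card_inf_centralizer_conj h.mem_σ,
        card_inf_centralizer_conj (h.le_centralizer_J h.mem_σ), hC, σ']) μ fun e => by
      have := hμ 2
      rw [sq, e, Units.val_one, eq_comm, hζ.pow_eq_one_iff_dvd] at this
      have := Nat.le_of_dvd two_pos this
      omega
  simp only [← hS, Subgroup.coe_mul, Subgroup.coe_inv, Subgroup.coe_one, one_mul, σ'] at k2
  have t0 := (IrrCharacter.triv G).sum_sum_isConj (σ ^ m)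
  have t1 := χ₁.sum_sum_isConj (σ ^ m)
  have t2 := ψ.sum_sum_isConj (σ ^ m)
  have t3 := (hρ 1 (by simp) ⟨0, by omega⟩).2
  have t4 := (hv m h.pos (by omega)).2.2.2 ⟨0, by omega⟩
  simp only [IrrCharacter.triv_apply, IrrCharacter.charDegree_triv] at t0
  simp only [zero_add, one_mul, hζm] at t4
  rw [hval m h.pos (by omega)] at t1
  rw [t4] at t2
  rw [IrrCharacter.one_eq_charDegree, IrrCharacter.one_eq_charDegree] at t3
  replace key := congrArg (4 * ·) key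
  rw [mul_left_comm, k2, h.invW_eq C h.mem_τ h.notMem, h.invW_eq C
    (Subgroup.mul_mem _ h.mem_σ h.mem_τ) (h.mul_τ_notMem (Subgroup.mem_zpowers σ)),
    Nat.card_zpowers, h.ord] at key
  simp only [hΘ, Finset.sum_add_distrib, Finset.sum_sub_distrib, ← Finset.mul_sum] at key
  rw [t0, t1, t2, ← hC] at key
  rw [centralizer_pair, centralizer_pair, ← hC, ← C.card_mul_index]
  have x0 : (charDegree χ₁.1 : ℂ) ≠ 0 := Nat.cast_ne_zero.2 χ₁.charDegree_pos.ne'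
  have y0 : (charDegree ψ.1 : ℂ) ≠ 0 := Nat.cast_ne_zero.2 ψ.charDegree_pos.ne'
  have i0 : (C.index : ℂ) ≠ 0 := Nat.cast_ne_zero.2 Subgroup.index_ne_zero_of_finite
  have m0 : (m : ℂ) ≠ 0 := Nat.cast_ne_zero.2 h.pos.ne'
  have t5 : (charDegree ψ.1 : ℂ) = charDegree χ₁.1 + δ₁ := by
    linear_combination (-δ₁ : ℂ) * t3 + (charDegree χ₁.1 - charDegree ψ.1 : ℂ) * hδ
  have main : ((Nat.card C * C.index : ℕ) : ℚ) * ((charDegree χ₁.1 : ℚ) - δ₁) ^ 2 =
      2 * (charDegree χ₁.1 : ℚ) * ((charDegree χ₁.1 : ℚ) + δ₁) * (Nat.card C : ℚ) ^ 3 *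
        (1 / (Nat.card (C ⊓ Subgroup.centralizer {τ} : Subgroup G) : ℚ) +
          1 / (Nat.card (C ⊓ Subgroup.centralizer {σ * τ} : Subgroup G) : ℚ)) ^ 2 := by
    have c1 : (Nat.card (C ⊓ Subgroup.centralizer {τ} : Subgroup G) : ℂ) ≠ 0 :=
      Nat.cast_ne_zero.2 Nat.card_pos.ne'
    have c2 : (Nat.card (C ⊓ Subgroup.centralizer {σ * τ} : Subgroup G) : ℂ) ≠ 0 :=
      Nat.cast_ne_zero.2 Nat.card_pos.ne'
    apply Rat.cast_injective (α := ℂ)
    rw [t5] at key y0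
    push_cast at key ⊢
    field_simp at key ⊢
    rcases hδ₁ with rfl | rfl <;> push_cast at key ⊢ <;>
      linear_combination (1 / 4 : ℂ) * key
  refine ⟨fun e => ?_, main⟩
  have e' : (charDegree χ₁.1 : ℚ) = δ₁ := by exact_mod_cast e
  have hx : (0 : ℚ) < charDegree χ₁.1 := by exact_mod_cast χ₁.charDegree_pos
  have : (0 : ℚ) < Nat.card C := by exact_mod_cast Nat.card_pos
  have : (0 : ℚ) < Nat.card (C ⊓ Subgroup.centralizer {τ} : Subgroup G) := by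
    exact_mod_cast Nat.card_pos
  rw [← e', sub_self, zero_pow two_ne_zero, mul_zero] at main
  exact absurd main (ne_of_lt (by positivity))

end Cfsg.Agent.S4482
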