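import Cfsg.Statements.S4483
import Cfsg.Agent.Blk.RealBlock
import Cfsg.Agent.Blk.Contrib

set_option autoImplicit false
open Cfsg

namespace Cfsg.Agent.S4483

/-- Let G be a finite group of order 2^n·g₀ with g₀ odd, and M a maximal ideal of the algebraic integers containing 2. Every real-valued irreducible character of G of odd degree lies in the principal 2-block; consequently G has at most 2^(2n) real-valued irreducible characters of odd degree. -/
theorem result {G : Type*} [Group G] [Finite G] (M : Ideal Cfsg.AlgInt) (hM : Cfsg.IsPModular 2 M) : (∀ χ : Cfsg.IrrCharacter G, (∀ g : G, ((χ : G → ℂ) g).im = 0) → Odd (Cfsg.charDegree (χ : G → ℂ)) → χ ∈ Cfsg.principalBlock M G) ∧ Nat.card {χ : Cfsg.IrrCharacter G // (∀ g : G, ((χ : G → ℂ) g).im = 0) ∧ Odd (Cfsg.charDegree (χ : G → ℂ))} ≤ 2 ^ (2 * (Nat.card G).factorization 2) := by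
  have key : ∀ χ : IrrCharacter G, (∀ g : G, ((χ : G → ℂ) g).im = 0) →
      Odd (charDegree (χ : G → ℂ)) → χ ∈ principalBlock M G := fun χ h1 h2 =>
    hM.mem_principalBlock_of_real (Nat.two_dvd_ne_zero.2 (Nat.odd_iff.1 h2))
      (by rw [IrrCharacter.cconj_eq_self_iff.2 h1]; exact hM.sameBlock_refl _)
  refine ⟨key, ?_⟩
  have h1 : Nat.card {χ : IrrCharacter G // (∀ g : G, ((χ : G → ℂ) g).im = 0) ∧
      Odd (charDegree (χ : G → ℂ))} ≤ Nat.card (principalBlock M G) :=
    Nat.card_le_card_of_injective (fun χ => ⟨χ.1, key χ.1 χ.2.1 χ.2.2⟩)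
      fun χ ψ h => Subtype.ext (congrArg (fun x : principalBlock M G => x.1) h)
  have h2 := (isPBlock_principalBlock (M := M) (G := G)).four_mul_card_le hM
  rw [hM.blockDefect_principalBlock] at h2
  have h3 : 0 < 2 ^ (2 * (Nat.card G).factorization 2) := by positivity
  omega

end Cfsg.Agent.S4483
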