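import Cfsg.Statements.S4484
import Cfsg.Agent.CT.Sixty
import Cfsg.Agent.CT.Jordan
import Cfsg.Agent.Blk.SecContrib

set_option autoImplicit false
open Cfsg

namespace Cfsg.Agent.S4484

open scoped ComplexConjugate

theorem exists_char {G : Type*} [Group G] [Finite G] {p q : ℕ} {M : Ideal AlgInt}
    (hM : IsPModular p M) (hq : q.Prime) {g : G} (hg : p ∣ orderOf g) :
    ∃ χ ∈ principalBlock M G, χ ≠ IrrCharacter.triv G ∧ ¬ q ∣ charDegree χ.1 := by
  classical
  by_contra! hcon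
  have h1 := (isPBlock_principalBlock.isBlockUnion hM).sum_one_mul_eq_zero hM hg
  rw [← Finset.add_sum_erase _ _ (mem_irrFinset.2 hM.triv_mem_principalBlock)] at h1
  simp only [IrrCharacter.triv_apply, mul_one] at h1
  have hp0 : (q : ℂ) ≠ 0 := Nat.cast_ne_zero.2 hq.ne_zero
  have h2 : IsIntegral ℤ (((1 : ℕ) : ℂ) / (q : ℂ)) := by
    have : ((1 : ℕ) : ℂ) / (q : ℂ) = -∑ χ ∈ (irrFinset (principalBlock M G)).erase
        (IrrCharacter.triv G), χ.1 1 / q * χ.1 g := by
      simp only [div_mul_eq_mul_div, ← Finset.sum_div]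
      rw [← neg_div, Nat.cast_one, eq_neg_of_add_eq_zero_left h1]
    rw [this]
    refine (IsIntegral.sum _ (fun χ hχ => ?_)).neg
    obtain ⟨m, hm⟩ := hcon χ (mem_irrFinset.1 (Finset.mem_of_mem_erase hχ))
      (Finset.ne_of_mem_erase hχ)
    rw [χ.one_eq_charDegree, hm, Nat.cast_mul, mul_div_cancel_left₀ _ hp0]
    exact (isIntegral_natCast m).mul (χ.isIntegral g)
  exact hq.one_lt.ne' (Nat.dvd_one.1 (nat_dvd_of_isIntegral_div hq.ne_zero h2))

theorem card_image_le {G : Type*} [Group G] [Finite G] {p : ℕ} {M : Ideal AlgInt}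
    (hM : IsPModular p M) {x : G} (hx : orderOf x = p)
    (hK : ¬ p ∣ (Subgroup.centralizer ({x} : Set G)).index) {χ : IrrCharacter G}
    (hχ : χ ∈ principalBlock M G) {ε : Fin (charDegree χ.1) → ℂ} (h1 : ∀ i, ε i ^ orderOf x = 1)
    (h2 : ∀ k : ℕ, χ.1 (x ^ k) = ∑ i, ε i ^ k) [DecidableEq ℂ] : (Finset.univ.image ε).card ≤
      Nat.gcd (Subgroup.centralizer ({x} : Set G)).index (charDegree χ.1) := by
  have hp := hM.prime
  have := hM.charP
  have hn := χ.charDegree_pos
  obtain ⟨d, K, f, hd, hc, hK', hf⟩ := Nat.exists_coprime' (Nat.gcd_pos_of_pos_right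
    (Subgroup.centralizer ({x} : Set G)).index hn)
  have hgcd : Nat.gcd (Subgroup.centralizer ({x} : Set G)).index (charDegree χ.1) = d := by
    rw [hK', hf, Nat.gcd_mul_right, hc.gcd_eq_one, one_mul]
  have hf0 : f ≠ 0 := by rintro rfl; omega
  have hf' : (f : ℂ) ≠ 0 := Nat.cast_ne_zero.2 hf0
  have hd' : (d : ℂ) ≠ 0 := Nat.cast_ne_zero.2 hd.ne'
  have h3 : ∀ k < p, IsIntegral ℤ (χ.1 (x ^ k) / f) ∧ red M (χ.1 (x ^ k) / f) = d := fun k hk => by
    rcases Nat.eq_zero_or_pos k with rfl | hk0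
    · rw [pow_zero, χ.one_eq_charDegree, hf, Nat.cast_mul, mul_div_cancel_left₀ _ hf']
      exact ⟨isIntegral_natCast d, red_natCast d⟩
    have a1 : Subgroup.centralizer ({x ^ k} : Set G) = Subgroup.centralizer {x} :=
      centralizer_singleton_pow_eq (hx ▸ Nat.coprime_of_lt_prime hk0.ne' hk hp)
    have a2 : centralChar χ.1 (x ^ k) = K * (χ.1 (x ^ k) / f) := by
      rw [centralChar, a1, χ.one_eq_charDegree, hK', hf]
      push_cast
      field_simp
    obtain ⟨a, b, hab⟩ := Nat.isCoprime_iff_coprime.2 hc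
    have a3 : IsIntegral ℤ (χ.1 (x ^ k) / f) := by
      have : χ.1 (x ^ k) / f = (a : ℂ) * centralChar χ.1 (x ^ k) + (b : ℂ) * χ.1 (x ^ k) := by
        have hab' : (a : ℂ) * K + b * f = 1 := by exact_mod_cast hab
        rw [a2]
        field_simp
        linear_combination (-χ.1 (x ^ k)) * hab'
      rw [this]
      exact (isIntegral_algebraMap.mul (centralChar_isIntegral χ _)).add
        (isIntegral_algebraMap.mul (χ.isIntegral _))
    have a4 := (hM.sameBlock_iff_red (IrrCharacter.triv G) χ).1 hχ (x ^ k)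
    rw [centralChar_triv, a1, a2, red_mul (natCast_mem _ _) (mem_valO_of_isIntegral a3), hK',
      red_natCast, red_natCast, Nat.cast_mul] at a4
    refine ⟨a3, (mul_left_cancel₀ ?_ a4).symm⟩
    rw [Ne, CharP.cast_eq_zero_iff _ p]
    exact fun h => hK (hK' ▸ h.mul_right d)
  have h4 : ∀ μ ∈ Finset.univ.image ε, f ≤ (Finset.univ.filter fun i => ε i = μ).card := by
    intro μ hμ
    obtain ⟨i₀, -, rfl⟩ := Finset.mem_image.1 hμ
    refine Nat.le_of_dvd (Finset.card_pos.2 ⟨i₀, by simp⟩) ?_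
    have h0 : ε i₀ ≠ 0 := ne_zero_pow (orderOf_pos x).ne' (h1 i₀ ▸ _root_.one_ne_zero)
    have a0 : (ε i₀)⁻¹ ^ p = 1 := by rw [inv_pow, ← hx, h1, inv_one]
    have a1 : ∑ k ∈ Finset.range p, χ.1 (x ^ k) / f * (ε i₀)⁻¹ ^ k =
        (p * (Finset.univ.filter fun i => ε i = ε i₀).card : ℕ) / f := by
      simp only [div_mul_eq_mul_div, ← Finset.sum_div, h2, Finset.sum_mul, ← mul_pow]
      rw [Finset.sum_comm, Finset.sum_congr rfl (g := fun i => if ε i = ε i₀ then (p : ℂ) else 0)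
        fun i _ => ?_, ← Finset.sum_filter, Finset.sum_const, nsmul_eq_mul, mul_comm, Nat.cast_mul]
      split_ifs with h
      · simp [h, h0]
      · rw [geom_sum_eq ((mul_inv_eq_one₀ h0).not.2 h), mul_pow, a0, ← hx, h1]; simp
    have a2 : ∀ k, IsIntegral ℤ ((ε i₀)⁻¹ ^ k) := fun k =>
      (isIntegral_of_pow_eq_one hp.ne_zero a0).pow k
    have a3 : f ∣ p * (Finset.univ.filter fun i => ε i = ε i₀).card :=
      nat_dvd_of_isIntegral_div hf0 (a1 ▸ IsIntegral.sum _ fun k hk =>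
        (h3 k (Finset.mem_range.1 hk)).1.mul (a2 k))
    obtain ⟨s, hs⟩ := a3
    have a4 := congrArg (red M) a1
    rw [hs, Nat.cast_mul, mul_div_cancel_left₀ _ hf', red_natCast, red_sum _ fun k hk =>
      mem_valO_of_isIntegral ((h3 k (Finset.mem_range.1 hk)).1.mul (a2 k)),
      Finset.sum_congr rfl fun k hk => by
        rw [red_mul (mem_valO_of_isIntegral (h3 k (Finset.mem_range.1 hk)).1)
          (mem_valO_of_isIntegral (a2 k)), (h3 k (Finset.mem_range.1 hk)).2,
          hM.red_eq_one_of_pow_p_pow (n := 1) (by rw [pow_one, ← pow_mul, mul_comm, pow_mul, a0,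
            one_pow])], Finset.sum_const, Finset.card_range, nsmul_eq_mul, CharP.cast_eq_zero,
      zero_mul, eq_comm, CharP.cast_eq_zero_iff _ p] at a4
    obtain ⟨t, rfl⟩ := a4
    exact ⟨t, Nat.eq_of_mul_eq_mul_left hp.pos (by rw [hs]; ring)⟩
  have h5 := Finset.card_nsmul_le_sum _ _ _ h4
  rw [← Finset.card_eq_sum_card_image, Finset.card_univ, Fintype.card_fin, smul_eq_mul,
    mul_comm] at h5
  rw [hgcd]
  exact Nat.le_of_mul_le_mul_left (h5.trans hf.le) (Nat.pos_of_ne_zero hf0)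

/-- A refinement of Burnside's result on simple groups of order divisible by only two primes. Let G be a finite simple group of order p^a · q^b · g₀ with p, q distinct primes, a > 0, g₀ coprime to p and q, and the order of G different from p. Then g₀ − 1 > log p / log 6, that is 6^(g₀ − 1) > p. -/
theorem result {G : Type*} [Group G] [Finite G] [IsSimpleGroup G] (p q a b g₀ : ℕ) (hp : p.Prime) (hq : q.Prime) (hpq : p ≠ q) (ha : 0 < a) (hg : Nat.card G = p ^ a * q ^ b * g₀) (hcop : ¬ p ∣ g₀) (hcoq : ¬ q ∣ g₀) (hne : Nat.card G ≠ p) : p < 6 ^ (g₀ - 1) := by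
  classical
  have := Fact.mk hp
  obtain ⟨M, hM⟩ := exists_isPModular hp
  obtain ⟨P⟩ : Nonempty (Sylow p G) := inferInstance
  have hP : p ∣ Nat.card P := by
    rw [P.card_eq_multiplicity]
    refine dvd_pow_self p ((hp.factorization_pos_of_dvd Nat.card_pos.ne' ?_).ne')
    rw [hg, mul_assoc]
    exact (dvd_pow_self p ha.ne').mul_right _
  have : Nontrivial P := Finite.one_lt_card_iff_nontrivial.1
    (hp.one_lt.trans_le (Nat.le_of_dvd Nat.card_pos hP))
  have := P.isPGroup'.center_nontrivial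
  obtain ⟨z, hz⟩ := exists_prime_orderOf_dvd_card' (G := Subgroup.center P) p
    ((P.isPGroup'.to_subgroup _).card_eq_or_dvd.resolve_left Finite.one_lt_card.ne')
  rw [← Subgroup.orderOf_coe, ← Subgroup.orderOf_coe] at hz
  have hK : ¬ p ∣ (Subgroup.centralizer ({(z.1.1 : G)} : Set G)).index := fun h =>
    P.not_dvd_index (h.trans (Subgroup.index_dvd_of_le fun y hy =>
      Subgroup.mem_centralizer_singleton_iff.2
        (congrArg Subtype.val (Subgroup.mem_center_iff.1 z.2 ⟨y, hy⟩))))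
  generalize (z.1.1 : G) = x at hz hK
  obtain ⟨χ, hχ, hχ1, hχq⟩ := exists_char hM hq hz.symm.dvd
  obtain ⟨ε, h1, h2, -⟩ := χ.isCharacter.exists_eigenvalues x
  have h3 := card_image_le hM hz hK hχ h1 h2
  have hg0 : 0 < g₀ := Nat.pos_of_ne_zero fun h => hcop (h ▸ dvd_zero p)
  have h4 : Nat.gcd (Subgroup.centralizer ({x} : Set G)).index (charDegree χ.1) ∣ g₀ := by
    have a1 := (Nat.gcd_dvd_left _ (charDegree χ.1)).trans
      (Subgroup.centralizer ({x} : Set G)).index_dvd_card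
    rw [hg] at a1
    refine Nat.Coprime.dvd_of_dvd_mul_left (Nat.Coprime.mul_right ?_ ?_) a1
    · exact ((hp.coprime_iff_not_dvd.2 hK).symm.coprime_dvd_left (Nat.gcd_dvd_left _ _)).pow_right a
    · exact ((hq.coprime_iff_not_dvd.2 hχq).symm.coprime_dvd_left
        (Nat.gcd_dvd_right _ _)).pow_right b
  replace h3 := h3.trans (Nat.le_of_dvd hg0 h4)
  by_contra! hle
  have hlt : 6 ^ (g₀ - 1) < p := hle.lt_of_ne fun h => by
    rcases Nat.eq_zero_or_pos (g₀ - 1) with h0 | h0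
    · rw [h0, pow_zero] at h
      exact hp.one_lt.ne h
    · have h6 : 6 ∣ p := h ▸ dvd_pow_self 6 h0.ne'
      rcases (Nat.dvd_prime hp).1 h6 with h7 | h7
      · omega
      · exact absurd (h7 ▸ hp) (by norm_num)
  let i₀ : Fin (charDegree χ.1) := ⟨0, χ.charDegree_pos⟩
  obtain ⟨f, hf⟩ := exists_arc_box (m := 6) (by norm_num)
  have hn : ∀ i, ‖ε i‖ = 1 := fun i => Complex.norm_eq_one_of_pow_eq_one (h1 i) (orderOf_pos x).ne'
  have h0 : ∀ i, ε i ≠ 0 := fun i h => by simpa [h] using hn i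
  have key : ∃ j : ℕ, 0 < j ∧ j < p ∧ ∀ i, 1 / 2 ≤ (ε i ^ j * (ε i₀ ^ j)⁻¹).re := by
    obtain ⟨k, l, hkl, h⟩ := Fintype.exists_ne_map_eq_of_card_lt (fun (k : Fin p)
      (μ : (Finset.univ.image ε).erase (ε i₀)) => f ((μ * (ε i₀)⁻¹) ^ k.1)) (by
        rw [Fintype.card_fun, Fintype.card_fin, Fintype.card_fin, Fintype.card_coe,
          Finset.card_erase_of_mem (Finset.mem_image_of_mem _ (Finset.mem_univ _))]
        exact (Nat.pow_le_pow_right (by norm_num) (by omega)).trans_lt hlt)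
    wlog hlk : l < k generalizing k l
    · exact this l k hkl.symm h.symm (lt_of_le_of_ne (not_lt.1 hlk) hkl)
    refine ⟨k - l, Nat.sub_pos_of_lt hlk, (Nat.sub_le _ _).trans_lt k.2, fun i => ?_⟩
    by_cases hi : ε i = ε i₀
    · rw [hi, mul_inv_cancel₀ (pow_ne_zero _ (h0 _))]
      norm_num
    · have h5 := hf _ _ (by simp [hn]) (by simp [hn]) (congrFun h ⟨ε i, Finset.mem_erase.2
        ⟨hi, Finset.mem_image_of_mem _ (Finset.mem_univ _)⟩⟩)
      rw [← pow_sub₀ _ (mul_ne_zero (h0 _) (inv_ne_zero (h0 _))) hlk.le,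
        show 2 * Real.pi / (6 : ℕ) = Real.pi / 3 by push_cast; ring, Real.cos_pi_div_three,
        mul_pow, inv_pow] at h5
      exact h5.le
  obtain ⟨j, hj0, hj, h5⟩ := key
  have h6 : orderOf (x ^ j) = orderOf x :=
    Nat.Coprime.orderOf_pow (hz ▸ Nat.coprime_of_lt_prime hj0.ne' hj hp)
  have hx1 : x ^ j ≠ 1 := fun h => by
    rw [h, orderOf_one, hz] at h6
    exact hp.one_lt.ne h6
  have h7 := χ.eq_of_sixty (x := x ^ j) ((Subgroup.Normal.eq_bot_or_eq_top inferInstance).resolve_left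
    fun h => hx1 (Subgroup.mem_bot.1 (h ▸ Subgroup.subset_normalClosure rfl))) (ε := fun i => ε i ^ j)
    (fun i => by rw [h6, ← pow_mul, mul_comm, pow_mul, h1, one_pow])
    (fun k => by simp only [← pow_mul, h2]) i₀ h5
  have h8 : x ^ j ∈ charCenter χ.1 := χ.isCharacter.mem_charCenter_of_eq_mul (c := ε i₀ ^ j)
    (by simp [hn]) (by simp [h2, h7, χ.one_eq_charDegree])
  rw [χ.charCenter_eq_center_of_faithful (χ.charKer_eq_bot_of_isSimpleGroup hχ1)] at h8
  have h9 := (Subgroup.Normal.eq_bot_or_eq_top (H := Subgroup.center G) inferInstance).resolve_left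
    fun h => hx1 (Subgroup.mem_bot.1 (h ▸ h8))
  let _ : CommGroup G := { (inferInstance : Group G) with
    mul_comm := fun a b => Subgroup.mem_center_iff.1 (h9 ▸ Subgroup.mem_top b) a }
  have h10 : (Nat.card G).Prime := IsSimpleGroup.prime_card
  exact hne ((Nat.prime_dvd_prime_iff_eq hp h10).1 (hz ▸ orderOf_dvd_natCard x)).symm

end Cfsg.Agent.S4484
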