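import Cfsg.Statements.S4487
import Cfsg.Agent.Blk.Defect
import Cfsg.Agent.Grp.Cores

set_option autoImplicit false
open Cfsg

namespace Cfsg.Agent.S4487

/-- Let G be a finite group and p a prime such that G has no non-trivial normal subgroup of order prime to p and C_G(O_p(G)) ≤ O_p(G). Then G has a single p-block: any two irreducible characters lie in the same block relative to every maximal ideal M of the algebraic integers containing p. -/
theorem result {G : Type*} [Group G] [Finite G] (p : ℕ) [Fact p.Prime] (M : Ideal Cfsg.AlgInt) (hM : Cfsg.IsPModular p M) (hcore : Cfsg.pPrimeCore p G = ⊥) (hconstr : Subgroup.centralizer ((Cfsg.pCore p G) : Set G) ≤ Cfsg.pCore p G) (χ ψ : Cfsg.IrrCharacter G) : Cfsg.SameBlock M (χ : G → ℂ) (ψ : G → ℂ) := by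
  have hB := (isPBlock_blockOf (M := M) χ).isBlockUnion hM
  have h1 : idemC (blockOf M χ.1) = blockCoeff (blockOf M χ.1) 1 • (1 : MonoidAlgebra ℂ G) := by
    refine ga_ext fun g => ?_
    rw [coeff_idemC]
    by_cases hg : g = 1
    · subst hg; simp [MonoidAlgebra.one_def]
    · have : blockCoeff (blockOf M χ.1) g = 0 := by
        by_cases hc : g ∈ Subgroup.centralizer ((pCore p G : Subgroup G) : Set G)
        · obtain ⟨k, hk⟩ := exists_orderOf_eq_pow_of_mem (isPGroup_pCore p G) (hconstr hc)
          apply hB.blockCoeff_eq_zero hM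
          rw [hk]
          refine dvd_pow_self p ?_
          rintro rfl
          exact hg (orderOf_eq_one_iff.1 hk)
        · exact hB.blockCoeff_eq_zero_of_normal hM (isPGroup_pCore p G) hc
      rw [this]
      simp [MonoidAlgebra.one_def, Ne.symm hg]
  have h2 := omega_idemC (blockOf M χ.1) χ
  have h3 := omega_idemC (blockOf M χ.1) ψ
  rw [h1, omega_smul, omega_one] at h2 h3
  rw [if_pos (hM.mem_blockOf_self χ)] at h2
  by_contra h
  rw [if_neg (show ψ ∉ blockOf M χ.1 from h), h2] at h3
  exact one_ne_zero h3

end Cfsg.Agent.S4487
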