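import Cfsg.Statements.S4488
import Cfsg.Agent.CT.FeitBound


set_option autoImplicit false
open Cfsg

namespace Cfsg.Agent.S4488


/-- Let the finite group G have a faithful p-rational character χ of degree n (all values of χ lie in the field generated over ℚ by a root of unity of order prime to p), and let p^a be the order of a Sylow p-subgroup of G. Then a ≤ Σ_{i ≥ 0} ⌊n / ((p − 1)·p^i)⌋ (a finite sum; the terms vanish once (p − 1)p^i > n). -/
theorem result {G : Type*} [Group G] [Finite G] (p : ℕ) (hp : p.Prime) (χ : G → ℂ) (hχ : Cfsg.IsCharacter G χ) (hfaith : ∀ g : G, χ g = χ 1 → g = 1) (hrat : (∃ r : ℕ, 0 < r ∧ ¬ p ∣ r ∧ ∀ g : G, χ g ∈ IntermediateField.adjoin ℚ ({Complex.exp (2 * Real.pi * Complex.I / r)} : Set ℂ))) (n : ℕ) (hn : Cfsg.charDegree χ = n) : (Nat.card G).factorization p ≤ ∑ i ∈ Finset.range (n + 1), n / ((p - 1) * p ^ i) := by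
-----
  haveI : Fact p.Prime := ⟨hp⟩
  obtain ⟨r, -, hr, hv⟩ := hrat
  obtain ⟨P⟩ : Nonempty (Sylow p G) := inferInstance
  have h1 := Cfsg.index_charKer_le_of_rational P.isPGroup' n n le_rfl
    (fun x : (P : Subgroup G) => χ x) (hχ.res _) (fun σ g => by
      obtain ⟨k, hk⟩ := P.isPGroup' g
      obtain ⟨q, hq⟩ := hχ.isGeneralizedCharacter.exists_rat_of_pRational hp ⟨r, hr, hv⟩
        (g := (g : G)) (a := k) (by exact_mod_cast congrArg Subtype.val hk)
      rw [hq]
      simp) hn
  have h2 : Cfsg.charKer (fun x : (P : Subgroup G) => χ x) = ⊥ := by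
    rw [hχ.charKer_res, hχ.charKer_eq_bot_iff.2 hfaith, Subgroup.bot_subgroupOf]
  rw [h2, Subgroup.index_bot, P.card_eq_multiplicity] at h1
  exact (Nat.pow_le_pow_iff_right hp.one_lt).1 h1

end Cfsg.Agent.S4488
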