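import Cfsg.Statements.S4490
import Cfsg.Agent.Blk.RealBlock

set_option autoImplicit false
open Cfsg

namespace Cfsg.Agent.S4490

/-- Let G be a finite group and M a maximal ideal of the algebraic integers containing 2. Every 2-block B of G whose defect groups are the Sylow 2-subgroups of G (a block of full defect) and which is not the principal block is different from its complex-conjugate block, the block formed by the complex conjugates of the members of B. -/
theorem result {G : Type*} [Group G] [Finite G] (M : Ideal Cfsg.AlgInt) (hM : Cfsg.IsPModular 2 M) (B : Set (Cfsg.IrrCharacter G)) (hB : Cfsg.IsPBlock M B) (P : Sylow 2 G) (hfull : Cfsg.IsDefectGroup 2 M B (P : Subgroup G)) (hnp : B ≠ Cfsg.principalBlock M G) : {ψ : Cfsg.IrrCharacter G | ∃ χ ∈ B, (ψ : G → ℂ) = fun g => (starRingEnd ℂ) ((χ : G → ℂ) g)} ≠ B := by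
  intro h
  apply hnp
  refine hB.eq_principalBlock_of_real hM ?_ fun χ hχ => ?_
  · have h1 := hfull.card_eq hM hB
    rw [P.card_eq_multiplicity] at h1
    exact (Nat.pow_right_injective le_rfl h1).symm
  · rw [← h]
    exact ⟨χ, hχ, funext fun g => χ.cconj_apply g⟩

end Cfsg.Agent.S4490
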