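import Cfsg.Statements.S4493
import Cfsg.Agent.CT.ItoPSolv

set_option autoImplicit false
open Cfsg

namespace Cfsg.Agent.S4493

/-- Let G be a finite solvable group and p a prime. Then G has a normal abelian Sylow p-subgroup if and only if no irreducible character degree of G is divisible by p. -/
theorem result {G : Type*} [Group G] [Finite G] (hsolv : Group.IsSolvable G) (p : ℕ) (hp : p.Prime) : (∃ P : Subgroup G, P.Normal ∧ (∀ x ∈ P, ∀ y ∈ P, x * y = y * x) ∧ IsPGroup p P ∧ ¬ p ∣ P.index) ↔ ∀ χ : Cfsg.IrrCharacter G, ¬ p ∣ Cfsg.charDegree (χ : G → ℂ) := by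
  have := Fact.mk hp
  constructor
  · rintro ⟨P, h1, h2, h3, h4⟩
    obtain ⟨S, rfl⟩ := exists_sylow_eq_of_not_dvd_index h3 h4
    exact not_dvd_charDegree_of_normal_comm_sylow S h1
      ⟨⟨fun a b => Subtype.ext (h2 a a.2 b b.2)⟩⟩
  · intro h
    have hs := IsPSolvable.of_isSolvable p hsolv
    let P : Sylow p G := default
    have h1 := hs.sylow_comm_of_forall_not_dvd h P
    exact ⟨P, hs.sylow_normal_of_forall_not_dvd h P,
      fun x hx y hy => congrArg Subtype.val (h1.is_comm.comm ⟨x, hx⟩ ⟨y, hy⟩), P.isPGroup',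
      P.not_dvd_index⟩

end Cfsg.Agent.S4493
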