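import Cfsg.Statements.S4496
import Cfsg.Agent.Grp.SelfCent
-- import your own Cfsg.Agent.* helpers here

set_option autoImplicit false
open Cfsg

namespace Cfsg.Agent.S4496

/-- Let the finite group G contain an element x of prime order p with C_G(x) = ⟨x⟩. Then: (a) every normal subgroup of order divisible by p contains the commutator subgroup; (b) every normal subgroup S of order prime to p has order dividing the number of subgroups of order p of G and congruent to 1 modulo p, and in G/S the image of x again has prime order p and commutes only with its own powers. -/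
theorem result {G : Type*} [Group G] [Finite G] (p : ℕ) (hp : p.Prime) (x : G) (hx : orderOf x = p) (hC : Subgroup.centralizer ({x} : Set G) = Subgroup.zpowers x) (S : Subgroup G) [S.Normal] : (p ∣ Nat.card S → commutator G ≤ S) ∧ (¬ p ∣ Nat.card S → Nat.card S ∣ Nat.card {H : Subgroup G // Nat.card H = p} ∧ Nat.card S % p = 1 ∧ orderOf (QuotientGroup.mk x : G ⧸ S) = p ∧ Subgroup.centralizer ({(QuotientGroup.mk x : G ⧸ S)} : Set (G ⧸ S)) = Subgroup.zpowers (QuotientGroup.mk x : G ⧸ S)) := by
  have : Fact p.Prime := ⟨hp⟩
  have h : IsSelfCentPrime p x := ⟨hx, hC⟩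
  refine ⟨h.commutator_le, fun hd => ⟨?_, ?_, ?_, ?_⟩⟩
  · rw [h.card_subgroups]
    have h1 := card_sup_of_disjoint (N := S) Subgroup.le_normalizer_of_normal
      (h.inf_normalizer_eq_bot hd)
    have h2 := (S ⊔ Subgroup.normalizer (Subgroup.zpowers x : Set G)).card_subgroup_dvd_card
    rw [h1, ← (Subgroup.normalizer (Subgroup.zpowers x : Set G)).index_mul_card] at h2
    exact Nat.dvd_of_mul_dvd_mul_right Nat.card_pos h2
  · have h1 := card_modEq_one_of_fixedPointFree (N := S) (A := Subgroup.zpowers x)
      Subgroup.le_normalizer_of_normal fun a ha ha1 n hn e => by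
        have h2 : n ∈ S ⊓ Subgroup.centralizer (Subgroup.zpowers x : Set G) := ⟨hn, by
          rw [h.centralizer_eq, ← h.centralizer_eq_of_mem ha ha1]
          exact Subgroup.mem_centralizer_singleton_iff.2 e.symm⟩
        rwa [h.inf_centralizer_eq_bot hd, Subgroup.mem_bot] at h2
    rw [h.card_zpowers] at h1
    exact Eq.trans h1 (Nat.mod_eq_of_lt hp.one_lt)
  · have h1 : orderOf (QuotientGroup.mk x : G ⧸ S) ∣ p :=
      hx ▸ orderOf_map_dvd (QuotientGroup.mk' S) x
    refine ((Nat.dvd_prime hp).1 h1).resolve_left fun e => hd ?_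
    rw [orderOf_eq_one_iff, QuotientGroup.eq_one_iff] at e
    exact hx ▸ S.orderOf_dvd_natCard e
  · rw [centralizer_mk_singleton_of_coprime
      (by rw [hx]; exact ((Nat.Prime.coprime_iff_not_dvd hp).2 hd).symm), hC, MonoidHom.map_zpowers]
    rfl

end Cfsg.Agent.S4496
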