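import Cfsg.Statements.S4731
import Cfsg.Agent.Blk.Orth

set_option autoImplicit false
open Cfsg

namespace Cfsg.Agent.S4731

/-- Let p ≠ q be primes, M_p and M_q maximal ideals of the algebraic integers containing p and q respectively, and G a finite group with no element of order pq; let q^b be the q-part of the order of G. For a p-block B_p (relative to M_p), a q-block B_q (relative to M_q) and a p-singular element y, the sum of χ(1)χ(y) over the irreducible characters χ lying in both B_p and B_q is q^b times an algebraic integer. -/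
theorem result {G : Type*} [Group G] [Finite G] (p q : ℕ) [Fact p.Prime] [Fact q.Prime] (hpq : p ≠ q) (Mp Mq : Ideal Cfsg.AlgInt) (hMp : Cfsg.IsPModular p Mp) (hMq : Cfsg.IsPModular q Mq) (hno : ∀ g : G, orderOf g ≠ p * q) (b : ℕ) (hb : (Nat.card G).factorization q = b) (Bp : Set (Cfsg.IrrCharacter G)) (hBp : Cfsg.IsPBlock Mp Bp) (Bq : Set (Cfsg.IrrCharacter G)) (hBq : Cfsg.IsPBlock Mq Bq) (y : G) (hy : p ∣ orderOf y) : ∃ ω : Cfsg.AlgInt, ∑ᶠ χ ∈ Bp ∩ Bq, (Cfsg.charDegree (χ : G → ℂ) : ℂ) * (χ : G → ℂ) y = (q : ℂ) ^ b * (ω : ℂ) := by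
  classical
  have hp : p.Prime := Fact.out
  have hq : q.Prime := Fact.out
  have hreg : ∀ g : G, q ∣ orderOf g → ¬ p ∣ orderOf g := by
    intro g h1 h2
    have h3 : p * q ∣ orderOf g := ((Nat.coprime_primes hp hq).2 hpq).mul_dvd_of_dvd_of_dvd h2 h1
    exact hno _ (orderOf_pow_orderOf_div (orderOf_pos g).ne' h3)
  let a : IrrCharacter G → ℂ := fun χ => if χ ∈ Bp then χ.1 y else 0
  have ha : ∀ x : G, q ∣ orderOf x → ∑ χ : IrrCharacter G, a χ * χ.1 x = 0 := by
    intro x hx
    rw [← (hBp.isBlockUnion hMp).sum_mul_conj_eq_zero_of_regular hMp (hreg x hx)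
      (h := y⁻¹) (by rwa [orderOf_inv])]
    simp only [a, ite_mul, zero_mul]
    rw [← Finset.sum_filter]
    refine Finset.sum_congr (by ext; simp) fun χ _ => ?_
    rw [χ.apply_inv, Complex.conj_conj, mul_comm]
  let c : IrrCharacter G → ℂ := fun χ => if χ ∈ Bq then a χ else 0
  have hc : ∀ x, ∑ χ : IrrCharacter G, c χ * χ.1 x = ∑ χ ∈ irrFinset Bq, a χ * χ.1 x := by
    intro x
    simp only [c, ite_mul, zero_mul]
    rw [← Finset.sum_filter]
    exact Finset.sum_congr (by ext; simp) fun χ _ => rfl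
  have hθ : InIrrSpan AlgInt (fun x : G => ∑ χ : IrrCharacter G, c χ * χ.1 x) := by
    refine ⟨c, fun χ => ?_, rfl⟩
    simp only [c, a]
    split_ifs
    exacts [χ.isCharacter.isIntegral y, zero_mem _, zero_mem _]
  have h1 := hθ.apply_one_div_mem_of_vanish (p := q) (by
    rintro g hg ⟨k, hk⟩
    have hg' : q ∣ orderOf g := by
      rw [hk]
      refine dvd_pow_self q ?_
      rintro rfl
      exact hg (orderOf_eq_one_iff.1 hk)
    rw [hc]
    refine (hBq.isBlockUnion hMq).sum_eq_zero_of_section hMq a fun x hx => ha x ?_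
    by_contra hx'
    exact not_isConj_pPart_of_regular_singular hx' hg' hx.symm)
  refine ⟨⟨_, h1⟩, ?_⟩
  have hq0 : (q : ℂ) ^ b ≠ 0 := pow_ne_zero _ (by exact_mod_cast hq.ne_zero)
  simp only [hb, Nat.cast_pow]
  rw [mul_div_cancel₀ _ hq0, finsum_mem_irr]
  simp only [c, a, ite_mul, zero_mul]
  rw [← Finset.sum_filter, ← Finset.sum_filter]
  refine Finset.sum_congr (by ext; simp [and_comm]) fun χ _ => ?_
  rw [χ.one_eq_charDegree, mul_comm]

end Cfsg.Agent.S4731
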