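import Cfsg.Statements.S4498
import Cfsg.Agent.S4731

set_option autoImplicit false
open Cfsg

namespace Cfsg.Agent.S4498

/-- Let p and q be distinct primes dividing the order of the finite group G, and suppose G has no element of order p·q. Fix maximal ideals M_p over p and M_q over q of the algebraic integers. Then the principal p-block and the principal q-block of G have a non-principal irreducible character in common. -/
theorem result {G : Type*} [Group G] [Finite G] (p q : ℕ) [Fact p.Prime] [Fact q.Prime] (hpq : p ≠ q) (hp : p ∣ Nat.card G) (hq : q ∣ Nat.card G) (hno : ∀ g : G, orderOf g ≠ p * q) (Mp Mq : Ideal Cfsg.AlgInt) (hMp : Cfsg.IsPModular p Mp) (hMq : Cfsg.IsPModular q Mq) : ∃ χ : Cfsg.IrrCharacter G, (χ : G → ℂ) ≠ (fun _ => 1) ∧ χ ∈ Cfsg.principalBlock Mp G ∧ χ ∈ Cfsg.principalBlock Mq G := by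
  by_contra hne
  push Not at hne
  obtain ⟨y, hy⟩ := exists_prime_orderOf_dvd_card' p hp
  obtain ⟨ω, hω⟩ := Cfsg.Agent.S4731.result p q hpq Mp Mq hMp hMq hno _ rfl _
    isPBlock_principalBlock _ isPBlock_principalBlock y hy.symm.dvd
  have h1 : principalBlock Mp G ∩ principalBlock Mq G = {IrrCharacter.triv G} := by
    refine Set.eq_singleton_iff_unique_mem.2
      ⟨⟨hMp.triv_mem_principalBlock, hMq.triv_mem_principalBlock⟩, fun χ hχ => ?_⟩
    by_contra h
    exact hne χ (fun h' => h (Subtype.ext h')) hχ.1 hχ.2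
  rw [h1, finsum_mem_singleton, IrrCharacter.charDegree_triv] at hω
  have h2 : ((1 : ℤ) : ℂ) = ((q ^ (Nat.card G).factorization q : ℤ) : ℂ) * ω := by
    simpa using hω
  have h3 := int_dvd_of_eq_mul_isIntegral ω.2 h2
  have hq' : q.Prime := Fact.out
  have h4 : q ^ (Nat.card G).factorization q ∣ 1 := by exact_mod_cast h3
  rw [Nat.dvd_one, pow_eq_one_iff_right hq'.ne_one] at h4
  exact (hq'.factorization_pos_of_dvd Nat.card_pos.ne' hq).ne' h4

end Cfsg.Agent.S4498
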