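import Cfsg.Statements.S4500
import Cfsg.Agent.Blk.Contrib
import Cfsg.Agent.CT.Burnside
import Cfsg.Agent.CT.Kernel

set_option autoImplicit false
open Cfsg

namespace Cfsg.Agent.S4500

theorem aux {G : Type*} [Group G] [Finite G] [Nontrivial G] (p q r a b c : ℕ) (hp : p.Prime)
    (hq : q.Prime) (hr : r.Prime) (ha : a ≤ 2) (hpq : p ≠ q) (hpr : p ≠ r)
    (hG : Nat.card G = p ^ a * q ^ b * r ^ c) :
    ∃ χ : Cfsg.IrrCharacter G, (χ : G → ℂ) ≠ (fun _ => 1) ∧
      ∃ k : ℕ, Cfsg.charDegree (χ : G → ℂ) = q ^ k := by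
  classical
  have key : ∀ χ : IrrCharacter G, ¬ p ∣ charDegree χ.1 → ¬ r ∣ charDegree χ.1 →
      ∃ k : ℕ, charDegree χ.1 = q ^ k := by
    intro χ h1 h2
    have h3 := χ.charDegree_dvd_card
    rw [hG, mul_right_comm] at h3
    have h4 : (charDegree χ.1).Coprime (p ^ a * r ^ c) :=
      Nat.Coprime.mul_right (((Nat.Prime.coprime_iff_not_dvd hp).2 h1).symm.pow_right _)
        (((Nat.Prime.coprime_iff_not_dvd hr).2 h2).symm.pow_right _)
    obtain ⟨k, -, hk⟩ := (Nat.dvd_prime_pow hq).1 (h4.dvd_of_dvd_mul_left h3)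
    exact ⟨k, hk⟩
  rcases Nat.eq_zero_or_pos a with rfl | ha0
  · rw [pow_zero, one_mul] at hG
    haveI := isSolvable_of_card_eq_pow_mul_pow hq hr hG
    have h1 : 1 < Nat.card (G →* ℂˣ) := by
      rw [card_unitsHom]
      have h2 := Group.IsSolvable.commutator_lt_top_of_nontrivial (G := G)
      have h3 : (commutator G).index ≠ 1 := fun h => h2.ne (Subgroup.index_eq_one.1 h)
      have h4 : (commutator G).index ≠ 0 := Subgroup.index_ne_zero_of_finite
      omega
    haveI : Finite (G →* ℂˣ) := Nat.finite_of_card_ne_zero (by omega)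
    haveI : Nontrivial (G →* ℂˣ) := Finite.one_lt_card_iff_nontrivial.1 h1
    obtain ⟨l, hl⟩ := exists_ne (1 : G →* ℂˣ)
    refine ⟨IrrCharacter.ofHom l, fun h => hl ?_, 0, by simp⟩
    ext g
    simpa using congrFun h g
  haveI : Fact p.Prime := ⟨hp⟩
  obtain ⟨M, hM⟩ := exists_isPModular hp
  have hfac : (Nat.card G).factorization p = a := by
    rw [hG, Nat.factorization_mul (mul_ne_zero (pow_ne_zero _ hp.ne_zero) (pow_ne_zero _ hq.ne_zero))
      (pow_ne_zero _ hr.ne_zero), Nat.factorization_mul (pow_ne_zero _ hp.ne_zero)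
      (pow_ne_zero _ hq.ne_zero)]
    simp [hp.factorization_pow, hq.factorization_pow, hr.factorization_pow, hpq, hpr]
  obtain ⟨u, hu⟩ := exists_prime_orderOf_dvd_card' (G := G) p (by
    rw [hG, mul_assoc]; exact (dvd_pow_self p ha0.ne').mul_right _)
  have hB := isPBlock_principalBlock (M := M) (G := G)
  have h1 := (hB.isBlockUnion hM).sum_mul_conj_eq_zero_of_regular' hM (g := u) (h := 1) hu.symm.dvd
    (by rw [orderOf_one]; exact hp.not_dvd_one)
  have hdeg : ∀ χ ∈ principalBlock M G, ¬ p ∣ charDegree χ.1 := by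
    intro χ hχ h
    have h2 := factorization_charDegree_eq (p := p) hχ
    rw [hB.blockHeight_eq_zero_of_blockDefect_le_two hM (by
      rw [hM.blockDefect_principalBlock, hfac]; exact ha) hχ, hM.blockDefect_principalBlock] at h2
    have := hp.factorization_pos_of_dvd χ.charDegree_pos.ne' h
    omega
  by_contra hcon
  push Not at hcon
  rw [← Finset.add_sum_erase _ _ (mem_irrFinset.2 hM.triv_mem_principalBlock)] at h1
  simp only [IrrCharacter.triv_apply, map_one, mul_one] at h1
  have hr0 : (r : ℂ) ≠ 0 := Nat.cast_ne_zero.2 hr.ne_zero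
  have h2 : IsIntegral ℤ (((1 : ℕ) : ℂ) / (r : ℂ)) := by
    have : ((1 : ℕ) : ℂ) / (r : ℂ) = -∑ χ ∈ (irrFinset (principalBlock M G)).erase
        (IrrCharacter.triv G), χ.1 u * (starRingEnd ℂ (χ.1 1) / r) := by
      simp only [← mul_div_assoc, ← Finset.sum_div]
      rw [← neg_div, Nat.cast_one, eq_neg_of_add_eq_zero_left h1]
    rw [this]
    refine (IsIntegral.sum _ (fun χ hχ => ?_)).neg
    rw [Finset.mem_erase, mem_irrFinset] at hχ
    have hd : r ∣ charDegree χ.1 := by
      by_contra hd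
      obtain ⟨k, hk⟩ := key χ (hdeg χ hχ.2) hd
      exact hcon χ (fun h => hχ.1 (Subtype.ext h)) k hk
    obtain ⟨m, hm⟩ := hd
    rw [χ.one_eq_charDegree, hm, map_natCast, Nat.cast_mul, mul_div_cancel_left₀ _ hr0]
    exact (χ.isIntegral u).mul (isIntegral_natCast m)
  exact hr.one_lt.ne' (Nat.dvd_one.1 (nat_dvd_of_isIntegral_div hr.ne_zero h2))

/-- Let G be a non-trivial finite group of order p^a · q^b · r^c with p, q, r distinct primes and a ≤ 2. Then G has a non-principal irreducible character whose degree is a power of q, and a non-principal irreducible character whose degree is a power of r; the power may be the zeroth, so a non-principal linear character serves for both. -/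
theorem result {G : Type*} [Group G] [Finite G] [Nontrivial G] (p q r a b c : ℕ) (hp : p.Prime) (hq : q.Prime) (hr : r.Prime) (hpq : p ≠ q) (hpr : p ≠ r) (hqr : q ≠ r) (ha : a ≤ 2) (hG : Nat.card G = p ^ a * q ^ b * r ^ c) : (∃ χ : Cfsg.IrrCharacter G, (χ : G → ℂ) ≠ (fun _ => 1) ∧ ∃ k : ℕ, Cfsg.charDegree (χ : G → ℂ) = q ^ k) ∧ ∃ χ : Cfsg.IrrCharacter G, (χ : G → ℂ) ≠ (fun _ => 1) ∧ ∃ k : ℕ, Cfsg.charDegree (χ : G → ℂ) = r ^ k := by
  exact ⟨aux p q r a b c hp hq hr ha hpq hpr hG,
    aux p r q a c b hp hr hq ha hpr hpq (by rw [hG, mul_right_comm])⟩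

end Cfsg.Agent.S4500
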