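import Cfsg.Statements.S4635
import Cfsg.Agent.Blk.CycPerfect

set_option autoImplicit false
open Cfsg

namespace Cfsg.Agent.S4635

/-- Let B be a block of the finite group G relative to a maximal ideal M of the algebraic integers containing the prime p, with a nontrivial cyclic defect group P; let Z be the subgroup of order p of P and H = N_G(Z), which contains N_G(P). Let c be the block of H with defect group P that induces B. Then B and c contain the same number of irreducible characters, have the same p-regular rank, and there is a perfect isometry from c onto B. -/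
theorem result {G : Type*} [Group G] [Finite G] (p : ℕ) [Fact p.Prime] (M : Ideal Cfsg.AlgInt) (hM : Cfsg.IsPModular p M) (B : Set (Cfsg.IrrCharacter G)) (hB : Cfsg.IsPBlock M B) (P : Subgroup G) (hPD : Cfsg.IsDefectGroup p M B P) (hP1 : P ≠ ⊥) (hcyc : IsCyclic P) (Z : Subgroup G) (hZ : Z ≤ P) (hZcard : Nat.card Z = p) (H : Subgroup G) (hH : H = Subgroup.normalizer (Z : Set G)) (c : Set (Cfsg.IrrCharacter H)) (hcD : Cfsg.IsDefectGroup p M c (P.subgroupOf H)) (hc : Cfsg.IsInducedBlock M H c B) : Nat.card c = Nat.card B ∧ Cfsg.blockRank p c = Cfsg.blockRank p B ∧ ∃ (I : Cfsg.IrrCharacter H → Cfsg.IrrCharacter G) (ε : Cfsg.IrrCharacter H → ℤ), Cfsg.IsPerfectIsometry p M c B I ε := by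
  have := Fintype.ofFinite G
  have := Fintype.ofFinite H
  have hP : IsPGroup p P := hPD.isPGroup
  have hN : Subgroup.normalizer (P : Set G) ≤ H := fun t ht => hH ▸ conjSub_eq_self_iff.1
    (conjSub_eq_of_card_prime_of_cyclic hP hcyc hZ hZcard
      ((conjSub_mono hZ t).trans (conjSub_eq_self_iff.2 ht).le))
  have hPH : P ≤ H := Subgroup.le_normalizer.trans hN
  obtain ⟨e', S', S, -, h1⟩ := hc.exists_starSetup_pair hM hPD hcD hN
  let κ := Subgroup.subgroupOfEquivOfLe hPH
  obtain ⟨X, ψ, δ, δ₀, h⟩ := S.exists_cycData hcyc hP1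
  obtain ⟨X', ψ', δ', δ₀', h'⟩ := S'.exists_cycData (isCyclic_of_surjective _ κ.symm.surjective)
    fun h0 => hP1 (by rw [← Subgroup.map_subgroupOf_eq_of_le hPH, h0, Subgroup.map_bot])
  have hX : X'.card = X.card := by rw [h.card_X, h'.card_X, h1]
  obtain ⟨I, ε, h2, -⟩ := h.exists_isPerfectIsometry h' κ hX
  refine ⟨?_, by rw [h.blockRank_eq, h'.blockRank_eq, hX], I, ε, h2⟩
  have h3 := h.card_Y
  rw [← Nat.card_congr κ.toEquiv, ← h'.card_Y, hX] at h3
  rw [h.card_B, h'.card_B, hX, Nat.eq_of_mul_eq_mul_right h.card_X_pos h3]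

end Cfsg.Agent.S4635
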