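import Cfsg.Statements.S4502
import Cfsg.Agent.S4635

set_option autoImplicit false
open Cfsg

namespace Cfsg.Agent.S4502

/-- Let G be a finite group whose order is divisible by the prime p exactly once, and let P be a Sylow p-subgroup. Then the number of irreducible characters of G of degree not divisible by p equals the number of conjugacy classes of the normalizer of P. -/
theorem result {G : Type*} [Group G] [Finite G] (p : ℕ) [Fact p.Prime] (hdiv : p ∣ Nat.card G) (hsq : ¬ p ^ 2 ∣ Nat.card G) (P : Sylow p G) : Nat.card {χ : Cfsg.IrrCharacter G // ¬ p ∣ Cfsg.charDegree (χ : G → ℂ)} = Nat.card (ConjClasses (Subgroup.normalizer ((P : Subgroup G) : Set G))) := by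
  classical
  have hp : p.Prime := Fact.out
  obtain ⟨M, hM⟩ := exists_isPModular hp
  have := Fintype.ofFinite G
  have hfac : (Nat.card G).factorization p = 1 := by
    have h1 := (hp.dvd_iff_one_le_factorization Nat.card_pos.ne').1 hdiv
    have h2 := (hp.pow_dvd_iff_le_factorization Nat.card_pos.ne').not.1 hsq
    omega
  have hP : Nat.card P = p := by rw [P.card_eq_multiplicity, hfac, pow_one]
  have hP1 : (P : Subgroup G) ≠ ⊥ := ne_bot_of_card_prime hP
  generalize hN : Subgroup.normalizer ((P : Subgroup G) : Set G) = N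
  have := Fintype.ofFinite N
  have hPN : (P : Subgroup G) ≤ N := hN ▸ Subgroup.le_normalizer
  have hdef : ∀ b : Set (IrrCharacter N), IsPBlock M b →
      IsDefectGroup p M b ((P : Subgroup G).subgroupOf N) := fun b hb => by
    obtain ⟨D, hD⟩ := hb.exists_isDefectGroup hM
    have : ((P : Subgroup G).subgroupOf N).Normal := hN ▸ Subgroup.normal_in_normalizer
    have h1 := hD.le_of_normal hM hb (P := (P : Subgroup G).subgroupOf N)
      (P.subtype hPN).isPGroup'
    rwa [(P.subtype hPN).is_maximal' hD.isPGroup h1] at hD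
  have hind : ∀ b : Set (IrrCharacter N), ∃ B, IsPBlock M b → IsInducedBlock M N b B := fun b => by
    by_cases hb : IsPBlock M b
    · obtain ⟨B, hB⟩ := hb.inducedBlockDefined_of_normal hM P.isPGroup' hPN
        (hN ▸ Subgroup.centralizer_le_normalizer _) hN.ge
      exact ⟨B, fun _ => hB⟩
    · exact ⟨∅, fun h => (hb h).elim⟩
  choose F hF using hind
  have hFD := fun b hb => (hF b hb).isDefectGroup_of_normalizer_le hM (hdef b hb) hN.le
  rw [← card_irrCharacter, Nat.card_eq_fintype_card (α := IrrCharacter N), ← Finset.card_univ,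
    Finset.card_eq_sum_card_image (fun ξ : IrrCharacter N => blockOf M ξ.1)]
  refine (card_irrFinset {χ : IrrCharacter G | ¬ p ∣ charDegree χ.1}).symm.trans ?_
  rw [Finset.card_eq_sum_card_image (fun ξ : IrrCharacter G => blockOf M ξ.1)]
  have hblk : ∀ b ∈ Finset.univ.image (fun ξ : IrrCharacter N => blockOf M ξ.1), IsPBlock M b :=
    fun b hb => by
      obtain ⟨ξ, -, rfl⟩ := Finset.mem_image.1 hb
      exact isPBlock_blockOf ξ
  have hdeg : ∀ B : Set (IrrCharacter G), IsPBlock M B → IsDefectGroup p M B P → ∀ χ ∈ B,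
      ¬ p ∣ charDegree χ.1 :=
    fun B hB hD χ hχ => by
      obtain ⟨e, S⟩ := hD.exists_starSetup hM hB
      obtain ⟨X, ψ, δ, δ₀, h⟩ := S.exists_cycData (isCyclic_of_prime_card hP) hP1
      have h1 := factorization_charDegree_eq (p := p) hχ
      have h2 := hD.card_eq hM hB
      rw [hP] at h2
      rw [h.height hχ, hfac, ← Nat.pow_right_injective hp.two_le ((pow_one p).trans h2)] at h1
      rw [hp.dvd_iff_one_le_factorization χ.charDegree_pos.ne']
      omega
  refine (Finset.sum_bij (fun b _ => F b) (fun b hb => ?_) (fun b hb b' hb' h => ?_)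
    (fun B hB => ?_) fun b hb => ?_).symm
  · have h1 := hF b (hblk b hb)
    obtain ⟨χ, hχ⟩ := h1.2.1.nonempty hM
    exact Finset.mem_image.2 ⟨χ, mem_irrFinset.2 (hdeg _ h1.2.1 (hFD b (hblk b hb)) χ hχ),
      (h1.2.1.eq_blockOf hM hχ).symm⟩
  · exact (hF b (hblk b hb)).eq_of_normalizer_le hM (h ▸ hF b' (hblk b' hb'))
      (hdef b (hblk b hb)) (hdef b' (hblk b' hb')) hN.le
  · obtain ⟨χ, hχ, rfl⟩ := Finset.mem_image.1 hB
    have h1 := isPBlock_blockOf (M := M) χ
    have h2 := (h1.isDefectGroup_iff_of_full hM (blockDefect_eq_of_not_dvd (hM.mem_blockOf_self χ)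
      (mem_irrFinset.1 hχ)) P).2 ⟨P, rfl⟩
    obtain ⟨b, hb, -⟩ := h2.exists_isInducedBlock_of_normalizer_le hM h1 hN.le
    obtain ⟨ξ, hξ⟩ := hb.1.nonempty hM
    exact ⟨b, Finset.mem_image.2 ⟨ξ, Finset.mem_univ _, (hb.1.eq_blockOf hM hξ).symm⟩,
      (hF b hb.1).unique hM hb⟩
  · have h0 := hblk b hb
    have h1 := hF b h0
    have h2 := (S4635.result p M hM _ h1.2.1 P (hFD b h0) hP1 (isCyclic_of_prime_card hP) P le_rfl
      hP N hN.symm b (hdef b h0) h1).1
    rw [← card_irrFinset, ← card_irrFinset] at h2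
    convert h2 using 2
    · ext ξ
      simp only [Finset.mem_filter, Finset.mem_univ, true_and, mem_irrFinset]
      exact ⟨fun h => h ▸ hM.mem_blockOf_self ξ, fun h => (h0.eq_blockOf hM h).symm⟩
    · ext χ
      simp only [Finset.mem_filter, mem_irrFinset, Set.mem_setOf_eq]
      exact ⟨fun h => h.2 ▸ hM.mem_blockOf_self χ, fun h =>
        ⟨hdeg _ h1.2.1 (hFD b h0) χ h, (h1.2.1.eq_blockOf hM h).symm⟩⟩

end Cfsg.Agent.S4502
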