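import Cfsg.Statements.S4503
import Cfsg.Agent.Mod.Reduce
import Cfsg.Agent.Mod.SmallDim

set_option autoImplicit false
open Cfsg

namespace Cfsg.Agent.S4503

/-- Let G be a finite group whose order is divisible by the prime p exactly once and which has no normal subgroup of order p. Then every faithful character χ of G has degree at least (p − 1)/2: 2·χ(1) + 1 ≥ p. -/
theorem result {G : Type*} [Group G] [Finite G] (p : ℕ) (hp : p.Prime) (hdiv : p ∣ Nat.card G) (hsq : ¬ p ^ 2 ∣ Nat.card G) (hnn : ∀ H : Subgroup G, H.Normal → Nat.card H ≠ p) (χ : G → ℂ) (hχ : Cfsg.IsCharacter G χ) (hfaith : ∀ g : G, χ g = χ 1 → g = 1) : p ≤ 2 * Cfsg.charDegree χ + 1 := by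
  haveI : Fact p.Prime := ⟨hp⟩
  by_contra hlt
  obtain ⟨P⟩ : Nonempty (Sylow p G) := inferInstance
  have hP : Nat.card P = p := by
    have h1 : (Nat.card G).factorization p < 2 :=
      lt_of_not_ge fun h => hsq ((hp.pow_dvd_iff_le_factorization Nat.card_pos.ne').2 h)
    have h2 := hp.factorization_pos_of_dvd Nat.card_pos.ne' hdiv
    rw [P.card_eq_multiplicity, show (Nat.card G).factorization p = 1 by omega, pow_one]
  haveI : Nontrivial (P : Subgroup G) := Finite.one_lt_card_iff_nontrivial.1 (hp.one_lt.trans_eq hP.symm)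
  obtain ⟨u, hu⟩ := exists_ne (1 : (P : Subgroup G))
  have hu1 : (u : G) ≠ 1 := fun h => hu (Subtype.ext h)
  obtain ⟨M, hM⟩ := exists_isPModular hp
  haveI := hM.charP
  obtain ⟨ρ, hρ⟩ := hχ.exists_reduction M
  have hker : ρ.ker = ⊥ := by
    obtain ⟨k, hk⟩ := IsPGroup.iff_card.1 (hχ.isPGroup_ker_reduction hM hfaith (by omega) hρ)
    have h1 : p ^ k ∣ Nat.card G := hk ▸ Subgroup.card_subgroup_dvd_card _
    match k with
    | 0 => exact Subgroup.eq_bot_of_card_eq _ (by simpa using hk)
    | 1 => exact absurd (hk.trans (pow_one p)) (hnn _ inferInstance)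
    | k + 2 => exact absurd ((pow_dvd_pow p (by omega)).trans h1) hsq
  have hou := orderOf_eq_of_card_prime hP u.2 hu1
  obtain ⟨f, hf0, hf, hN⟩ := hχ.exists_exponent_automizer_le hou fun h => hu1 (hfaith _ h)
  have hnil : IsNilpotent (ρ u - 1) := by
    haveI : Nontrivial (Fin (charDegree χ) → resK M) := by
      haveI : Nonempty (Fin (charDegree χ)) := ⟨⟨0, by omega⟩⟩
      infer_instance
    haveI : CharP (Module.End (resK M) (Fin (charDegree χ) → resK M)) p :=
      charP_of_injective_algebraMap (algebraMap (resK M) _).injective p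
    refine ⟨p, ?_⟩
    rw [sub_pow_char_of_commute _ (Commute.one_right _), one_pow, ← map_pow,
      orderOf_dvd_iff_pow_eq_one.1 hou.dvd, map_one, sub_self]
  have hm : (ρ u - 1) ^ charDegree χ = 0 := by
    have h1 := LinearMap.aeval_self_charpoly (ρ u - 1)
    rw [hnil.charpoly_eq_X_pow_finrank, map_pow, Polynomial.aeval_X] at h1
    simpa using h1
  exact hnn _ (sylow_normal_of_small_module ρ ((MonoidHom.ker_eq_bot_iff ρ).1 hker) P hP u.2 hu1
    hm (by omega) hf0 (by omega) hN) hP

end Cfsg.Agent.S4503
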