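import Cfsg.Statements.S4505
import Cfsg.Agent.Blk.DefClass

set_option autoImplicit false
open Cfsg

namespace Cfsg.Agent.S4505

/-- Let G be a finite group, p a prime and M a maximal ideal of the algebraic integers containing p. For every σ, the number of p-blocks of defect exactly σ is at most the number of conjugacy classes of p-regular elements whose centralizer has order divisible by p^σ but not by p^(σ+1). -/
theorem result {G : Type*} [Group G] [Finite G] (p : ℕ) [Fact p.Prime] (M : Ideal Cfsg.AlgInt) (hM : Cfsg.IsPModular p M) (σ : ℕ) : Nat.card {B : Set (Cfsg.IrrCharacter G) // Cfsg.IsPBlock M B ∧ Cfsg.blockDefect p B = σ} ≤ Nat.card {C : ConjClasses G // ∃ g : G, ConjClasses.mk g = C ∧ ¬ p ∣ orderOf g ∧ (Nat.card (Subgroup.centralizer ({g} : Set G))).factorization p = σ} := by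
  classical
  have := Fintype.ofFinite (ConjClasses G)
  set I := {B : Set (IrrCharacter G) // IsPBlock M B ∧ blockDefect p B = σ}
  set J := {K : ConjClasses G // ¬ p ∣ orderOf (Quotient.out K : G) ∧
      (Nat.card (Subgroup.centralizer ({Quotient.out K} : Set G))).factorization p = σ}
  have := Fintype.ofFinite I
  choose ψ hψ using fun B : I => B.2.1.nonempty hM
  let X : Matrix I J (resK M) := Matrix.of fun B K => (idemK M B.1).coeff (Quotient.out K.1)
  let Y : Matrix J I (resK M) := Matrix.of fun K B =>
    red M (centralChar (ψ B).1 (Quotient.out K.1))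
  have hXY : X * Y = 1 := by
    ext B B'
    rw [Matrix.mul_apply, Matrix.one_apply]
    have h1 := B.2.1.lam_idemK_eq_sum_filter hM B'.2.1 B.2.2 B'.2.2 (hψ B')
    rw [Finset.sum_subtype (p := fun K : ConjClasses G => ¬ p ∣ orderOf (Quotient.out K : G) ∧
      (Nat.card (Subgroup.centralizer ({Quotient.out K} : Set G))).factorization p = σ) _
      (by simp)] at h1
    refine h1.symm.trans ?_
    split_ifs with h
    · subst h; exact (B.2.1.isBlockUnion hM).lam_idemK_of_mem hM (hψ B)
    · exact (B.2.1.isBlockUnion hM).lam_idemK_of_notMem hM fun h' =>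
        h (Subtype.ext (B.2.1.eq_of_mem hM B'.2.1 h' (hψ B')))
  have h1 : Fintype.card I ≤ Fintype.card J := by
    calc Fintype.card I = (1 : Matrix I I (resK M)).rank := Matrix.rank_one.symm
      _ = (X * Y).rank := by rw [hXY]
      _ ≤ X.rank := Matrix.rank_mul_le_left _ _
      _ ≤ _ := Matrix.rank_le_card_width _
  rw [Nat.card_eq_fintype_card]
  refine h1.trans ?_
  rw [← Nat.card_eq_fintype_card]
  exact Nat.card_le_card_of_injective
    (fun K : J => (⟨K.1, Quotient.out K.1, Quotient.out_eq _, K.2⟩ : {C : ConjClasses G //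
      ∃ g : G, ConjClasses.mk g = C ∧ ¬ p ∣ orderOf g ∧
        (Nat.card (Subgroup.centralizer ({g} : Set G))).factorization p = σ}))
    (fun K K' h => Subtype.ext (by simpa using h))

end Cfsg.Agent.S4505
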