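import Cfsg.Statements.S4506
import Cfsg.Agent.Blk.Contrib
import Cfsg.Agent.Blk.DefOneApp
import Cfsg.Agent.Blk.SecContrib

set_option autoImplicit false
open Cfsg

namespace Cfsg.Agent.S4506

theorem aux {G : Type*} [Group G] [Finite G] {p : ℕ} (hp : p.Prime) (χ : IrrCharacter G)
    (R : Set (IrrCharacter G)) (hχ : χ ∈ R) (hR : ∀ ψ ∈ R, ∃ k : ℕ, k.Coprime (Nat.card G) ∧
      k ≡ 1 [MOD Nat.card G / p ^ (Nat.card G).factorization p] ∧ ∀ g, ψ.1 g = χ.1 (g ^ k)) :
    (Nat.card R * charDegree χ.1).factorization p ≤ (Nat.card G).factorization p ∧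
    ((Nat.card G).factorization p ≤ (Nat.card R * charDegree χ.1).factorization p →
      p ^ (Nat.card G).factorization p ∣ charDegree χ.1) := by
  classical
  have := Fact.mk hp
  have := Fintype.ofFinite G
  obtain ⟨M, hM⟩ := exists_isPModular hp
  have hB := isPBlock_blockOf (M := M) χ
  have hχB := hM.mem_blockOf_self χ
  generalize blockOf M χ.1 = B at hB hχB
  have hreg : ∀ ψ ∈ R, ∀ g, ¬ p ∣ orderOf g → ψ.1 g = χ.1 g := fun ψ hψ g hg => by
    obtain ⟨k, -, hk, h⟩ := hR ψ hψ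
    rw [h, pow_eq_self_of_modEq_ordCompl hp hk hg]
  have ha := contrib_self_pos (p := p) hχB
  have h1 : ∀ ψ ∈ R, contrib p B χ ψ = contrib p B χ χ := fun ψ hψ => by
    refine Int.cast_injective (α := ℂ) ?_
    rw [cast_contrib hχB, cast_contrib hχB, classInner_pRegularPart_irr_comm]
    congr 2
    funext g
    by_cases hg : p ∣ orderOf g
    · rw [pRegularPart_of_dvd hg, pRegularPart_of_dvd hg]
    · rw [pRegularPart_of_not_dvd hg, pRegularPart_of_not_dvd hg, hreg ψ hψ g hg]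
  have hRB : irrFinset R ⊆ irrFinset B := fun ψ hψ => by
    by_contra h
    have := hB.contrib_eq_zero_of_notMem hM hχB (mem_irrFinset.not.1 h)
    rw [h1 ψ (mem_irrFinset.1 hψ)] at this
    exact ha.ne' this
  have h2 := hB.sum_contrib_mul hM hχB hχB
  rw [← Finset.sum_sdiff hRB, Finset.sum_congr (s₁ := irrFinset R) rfl fun ψ hψ => by
    rw [h1 ψ (mem_irrFinset.1 hψ)], Finset.sum_const, card_irrFinset, nsmul_eq_mul] at h2
  have h3 : 0 ≤ ∑ ξ ∈ irrFinset B \ irrFinset R, contrib p B χ ξ * contrib p B χ ξ :=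
    Finset.sum_nonneg fun _ _ => mul_self_nonneg _
  have hr : 0 < Nat.card R := by
    rw [← card_irrFinset]
    exact Finset.card_pos.2 ⟨χ, mem_irrFinset.2 hχ⟩
  have h4 : Nat.card R * contrib p B χ χ ≤ (p : ℤ) ^ blockDefect p B := by nlinarith
  have h5 := Int.le_of_dvd ha (pow_blockHeight_dvd_contrib (p := p) hχB χ)
  have h6 : (p : ℤ) ^ (Nat.card R).factorization p ≤ Nat.card R := by
    exact_mod_cast Nat.ordProj_le p hr.ne'
  have hp0 : (0 : ℤ) < p := Int.natCast_pos.2 hp.pos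
  have hp1 : (1 : ℤ) < p := by exact_mod_cast hp.one_lt
  have h7 : (p : ℤ) ^ ((Nat.card R).factorization p + blockHeight p B χ.1) ≤
      Nat.card R * contrib p B χ χ := by
    rw [pow_add]
    exact mul_le_mul h6 h5 (by positivity) (by positivity)
  have h8 := (pow_le_pow_iff_right₀ hp1).1 (h7.trans h4)
  have h9 := factorization_charDegree_eq (p := p) hχB
  rw [Nat.factorization_mul hr.ne' χ.charDegree_pos.ne', Finsupp.add_apply]
  refine ⟨by omega, fun h => ?_⟩
  rw [← hB.blockDefect_eq_zero_iff_dvd hM hχB]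
  by_contra hd
  have h10 : (Nat.card R).factorization p + blockHeight p B χ.1 = blockDefect p B := by omega
  rw [h10] at h7
  have h11 : Nat.card R * contrib p B χ χ = (p : ℤ) ^ blockDefect p B := le_antisymm h4 h7
  have h12 : contrib p B χ χ = (p : ℤ) ^ blockHeight p B χ.1 := by
    refine le_antisymm (le_of_mul_le_mul_left ?_ (Int.natCast_pos.2 hr)) h5
    rw [h11, ← h10, pow_add]
    exact mul_le_mul_of_nonneg_right h6 (by positivity)
  have h0 : blockHeight p B χ.1 = 0 := by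
    by_contra h0
    have := Int.le_of_dvd ha (hB.pow_succ_dvd_contrib_of_height_pos hM hχB hχB h0)
    rw [h12, pow_le_pow_iff_right₀ hp1] at this
    omega
  have h13 : ∑ ξ ∈ irrFinset B \ irrFinset R, contrib p B χ ξ * contrib p B χ ξ = 0 := by
    rw [← h11] at h2
    linear_combination h2
  have hBR : ∀ ψ ∈ irrFinset B, ψ ∈ R := fun ψ hψ => by
    by_contra h
    have := (Finset.sum_eq_zero_iff_of_nonneg fun _ _ => mul_self_nonneg _).1 h13 ψ
      (Finset.mem_sdiff.2 ⟨hψ, mem_irrFinset.not.2 h⟩)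
    exact hB.contrib_ne_zero_of_height_zero hM hχB (mem_irrFinset.1 hψ) h0
      (mul_self_eq_zero.1 this)
  obtain ⟨s, hs⟩ := hB.exists_isDefectClass hM
  have hs1 := hs.not_dvd_orderOf hM hB
  have hs2 := hs.factorization_card_centralizer hM hB
  have := Fintype.ofFinite (Subgroup.centralizer ({s} : Set G))
  obtain ⟨u, hu⟩ := exists_prime_orderOf_dvd_card' (G := Subgroup.centralizer ({s} : Set G)) p
    ((hp.dvd_iff_one_le_factorization Nat.card_pos.ne').2 (by omega))
  have hU : Nat.card (Subgroup.zpowers u) = p := by rw [Nat.card_zpowers, hu]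
  have := Fintype.ofFinite (Subgroup.zpowers u)
  have hc : ∀ x : Subgroup.zpowers u, Commute (x.1.1 : G) s := fun x =>
    Subgroup.mem_centralizer_singleton_iff.1 x.1.2
  have ho : ∀ x : Subgroup.zpowers u, orderOf (x.1.1 : G) ∣ p := fun x => by
    rw [Subgroup.orderOf_coe, Subgroup.orderOf_coe, ← hU]
    exact orderOf_dvd_natCard x
  have hT : ∀ ψ ∈ irrFinset B, ∑ x : Subgroup.zpowers u, ψ.1 (x.1.1 * s) =
      ∑ x : Subgroup.zpowers u, χ.1 (x.1.1 * s) := fun ψ hψ => by
    obtain ⟨k, hk, hk1, h⟩ := hR ψ (hBR ψ hψ)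
    have hk2 : (Nat.card (Subgroup.zpowers u)).Coprime k :=
      (hk.coprime_dvd_right ((Subgroup.card_subgroup_dvd_card _).trans
        (Subgroup.card_subgroup_dvd_card _))).symm
    refine Fintype.sum_equiv (powCoprime hk2) _ _ fun x => ?_
    rw [h, (hc x).mul_pow, pow_eq_self_of_modEq_ordCompl hp hk1 hs1, powCoprime_apply]
    rfl
  have h14 : ∑ ψ ∈ irrFinset B, ψ.1 1 * ∑ x : Subgroup.zpowers u, ψ.1 (x.1.1 * s) =
      ∑ ψ ∈ irrFinset B, ψ.1 1 * ψ.1 s := by
    simp only [Finset.mul_sum]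
    rw [Finset.sum_comm, Finset.sum_eq_single 1 (fun x _ hx => ?_) (by simp)]
    · simp
    refine (hB.isBlockUnion hM).sum_one_mul_eq_zero hM ?_
    have h15 : orderOf (x.1.1 : G) = p := ((Nat.dvd_prime hp).1 (ho x)).resolve_left fun h =>
      hx (Subtype.ext (Subtype.ext (orderOf_eq_one_iff.1 h)))
    rw [(hc x).orderOf_mul_eq_mul_orderOf_of_coprime (h15 ▸ (hp.coprime_iff_not_dvd.2 hs1)), h15]
    exact dvd_mul_right _ _
  have h1' : ¬ p ∣ orderOf (1 : G) := by rw [orderOf_one]; exact hp.not_dvd_one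
  rw [Finset.sum_congr rfl fun ψ hψ => by rw [hT ψ hψ, hreg ψ (hBR ψ hψ) 1 h1'],
    Finset.sum_congr (s₁ := irrFinset B) (f := fun ψ => ψ.1 1 * ψ.1 s) rfl fun ψ hψ => by
      rw [hreg ψ (hBR ψ hψ) 1 h1', hreg ψ (hBR ψ hψ) s hs1], Finset.sum_const, Finset.sum_const,
    nsmul_eq_mul, nsmul_eq_mul] at h14
  have h15 := mul_left_cancel₀ χ.one_ne_zero (mul_left_cancel₀ (Nat.cast_ne_zero.2
    (Finset.card_pos.2 ⟨χ, mem_irrFinset.2 hχB⟩).ne') h14)
  refine (hs.blockHeight_eq_zero_iff hM hB hχB).1 h0 ?_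
  have := hM.charP
  rw [← h15, red_sum _ fun x _ => χ.mem_valO _, Finset.sum_congr rfl fun x _ =>
    χ.isCharacter.isGeneralizedCharacter.red_mul_of_pElement hM (hc x)
      ((Nat.dvd_prime_pow hp (m := 1)).1 (by simpa using ho x) |>.imp fun _ h => h.2),
    Finset.sum_const, Finset.card_univ, ← Nat.card_eq_fintype_card, hU, nsmul_eq_mul,
    CharP.cast_eq_zero, zero_mul]

/-- Let G be a finite group, p a prime, p^a the p-part of the order of G and g′ its p′-part. Call two irreducible characters p-conjugate when one is obtained from the other by applying a field automorphism of ℂ that fixes the g′-th roots of unity, and let r be the number of characters p-conjugate to the irreducible character χ (χ included). Then the exponent of p in r·χ(1) is at most a; and if p^a divides r·χ(1) then p^a already divides χ(1). -/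
theorem result {G : Type*} [Group G] [Finite G] (p : ℕ) (hp : p.Prime) (χ : Cfsg.IrrCharacter G) (r : ℕ) (hr : Nat.card {ψ : Cfsg.IrrCharacter G // ∃ σ : ℂ ≃+* ℂ, σ (Complex.exp (2 * Real.pi * Complex.I / ((Nat.card G / p ^ (Nat.card G).factorization p) : ℕ))) = Complex.exp (2 * Real.pi * Complex.I / ((Nat.card G / p ^ (Nat.card G).factorization p) : ℕ)) ∧ (ψ : G → ℂ) = fun g => σ ((χ : G → ℂ) g)} = r) : (r * Cfsg.charDegree (χ : G → ℂ)).factorization p ≤ (Nat.card G).factorization p ∧ (p ^ (Nat.card G).factorization p ∣ r * Cfsg.charDegree (χ : G → ℂ) → p ^ (Nat.card G).factorization p ∣ Cfsg.charDegree (χ : G → ℂ)) := by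
  subst hr
  have hn' : Nat.card G / p ^ (Nat.card G).factorization p ≠ 0 := cardReg_ne_zero p G
  have := aux hp χ {ψ : Cfsg.IrrCharacter G | ∃ σ : ℂ ≃+* ℂ, σ (Complex.exp (2 * Real.pi * Complex.I / ((Nat.card G / p ^ (Nat.card G).factorization p) : ℕ))) = Complex.exp (2 * Real.pi * Complex.I / ((Nat.card G / p ^ (Nat.card G).factorization p) : ℕ)) ∧ (ψ : G → ℂ) = fun g => σ ((χ : G → ℂ) g)} ⟨RingEquiv.refl ℂ, rfl, rfl⟩ ?_
  · refine ⟨this.1, fun h => this.2 ((hp.pow_dvd_iff_le_factorization ?_).1 h)⟩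
    refine mul_ne_zero ?_ χ.charDegree_pos.ne'
    exact Nat.card_ne_zero.2 ⟨⟨⟨χ, RingEquiv.refl ℂ, rfl, rfl⟩⟩, inferInstance⟩
  · rintro ψ ⟨σ, h1, h2⟩
    obtain ⟨k, hk, h3, h4⟩ := exists_pow_of_galois (G := G) (σ : ℂ →+* ℂ)
    refine ⟨k, hk, modEq_one_of_forall_pow_eq hn' fun z hz => ?_, fun g => ?_⟩
    · obtain ⟨m, hm⟩ := Nat.ordCompl_dvd (Nat.card G) p
      rw [← h3 z (by rw [hm, pow_mul, hz, one_pow])]
      exact ringHom_apply_eq_of_exp_fixed (σ : ℂ →+* ℂ) hn' h1 hz
    · rw [h4 _ χ.isCharacter.isGeneralizedCharacter, h2]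
      rfl

end Cfsg.Agent.S4506
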