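import Cfsg.Statements.S4507
import Cfsg.Agent.Blk.DefOneApp

set_option autoImplicit false
open Cfsg

namespace Cfsg.Agent.S4507

/-- Let G be a finite group whose order g is divisible by the prime p exactly once, g′ = g/p, and fix a maximal ideal M of the algebraic integers containing p. Call two irreducible characters p-conjugate when a field automorphism of ℂ fixing the g′-th roots of unity carries one to the other. Let B be a p-block of positive defect (its defect group is a Sylow p-subgroup). Then B contains a subset Y (the exceptional family) such that: Y is a full p-conjugacy class (its members are pairwise p-conjugate and every p-conjugate of a member of Y lies in Y); every member of B outside Y is p-conjugate only to itself; the size t of Y divides p − 1 and B has exactly t + (p − 1)/t members; and there are signs δ_χ = ±1 (χ ∈ B) such that for every p-regular element x and every θ ∈ Y, Σ_{χ ∈ B ∖ Y} δ_χ χ(x) + δ_θ θ(x) =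 0. -/
theorem result {G : Type*} [Group G] [Finite G] (p : ℕ) [Fact p.Prime] (M : Ideal Cfsg.AlgInt) (hM : Cfsg.IsPModular p M) (hdiv : p ∣ Nat.card G) (hsq : ¬ p ^ 2 ∣ Nat.card G) (B : Set (Cfsg.IrrCharacter G)) (hB : Cfsg.IsPBlock M B) (hd : 0 < Cfsg.blockDefect p B) : ∃ Y : Set (Cfsg.IrrCharacter G), Y ⊆ B ∧ Y.Nonempty ∧ (∀ θ ∈ Y, ∀ ψ : Cfsg.IrrCharacter G, (∃ σ : ℂ ≃+* ℂ, σ (Complex.exp (2 * Real.pi * Complex.I / ((Nat.card G / p ^ (Nat.card G).factorization p) : ℕ))) = Complex.exp (2 * Real.pi * Complex.I / ((Nat.card G / p ^ (Nat.card G).factorization p) : ℕ)) ∧ (ψ : G → ℂ) = fun g => σ ((θ : G → ℂ) g)) ↔ ψ ∈ Y) ∧ (∀ χ ∈ B, χ ∉ Y → ∀ ψ : Cfsg.IrrCharacter G, (∃ σ : ℂ ≃+* ℂ, σ (Complex.exp (2 * Real.pi * Complex.I / ((Nat.card G / p ^ (Nat.card G).factorization p) : ℕ))) = Complex.exp (2 * Real.pi * Complex.I / ((Nat.card G / p ^ (Nat.card G).factorization p) : ℕ)) ∧ (ψ : G → ℂ) = fun g => σ ((χ : G → ℂ) g)) → ψ = χ) ∧ Nat.card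 Y ∣ p - 1 ∧ Nat.card B = Nat.card Y + (p - 1) / Nat.card Y ∧ ∃ δ : Cfsg.IrrCharacter G → ℤ, (∀ χ ∈ B, δ χ = 1 ∨ δ χ = -1) ∧ ∀ x : G, ¬ p ∣ orderOf x → ∀ θ ∈ Y, (∑ᶠ χ ∈ B \ Y, (δ χ : ℂ) * (χ : G → ℂ) x) + (δ θ : ℂ) * (θ : G → ℂ) x = 0 := by
  classical
  haveI := Fintype.ofFinite G
  have hp : p.Prime := Fact.out
  obtain ⟨D, hBD⟩ := hB.exists_isDefectGroup hM
  have hfac : (Nat.card G).factorization p < 2 :=
    lt_of_not_ge fun h => hsq ((hp.pow_dvd_iff_le_factorization Nat.card_pos.ne').2 h)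
  have hD : Nat.card D = p := by
    have h1 := blockDefect_le (p := p) (B := B)
    rw [hBD.card_eq hM hB, show blockDefect p B = 1 by omega, pow_one]
  obtain ⟨b, -, ⟨O⟩⟩ := hBD.exists_defOne hM hB hD
  obtain ⟨l₀, hl₀⟩ := exists_unitsHom_ne_one_of_card_prime hD
  have hm : Nat.card G / p ^ (Nat.card G).factorization p ∣ Nat.card G := Nat.ordCompl_dvd _ _
  have hpos := O.relIndex_pos
  have hYe := O.card_Y_mul
  have hY0 : 0 < Nat.card O.Y := by
    refine Nat.pos_of_ne_zero fun h => ?_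
    rw [h, zero_mul] at hYe
    have := hp.two_le
    omega
  refine ⟨O.Y, ?_, ⟨_, l₀, hl₀, rfl⟩, ?_, ?_, Dvd.intro _ hYe, ?_,
    fun χ => if χ ∈ O.X then O.δ χ else O.δ₀, ?_, ?_⟩
  · intro χ hχ
    exact (O.mem_iff χ).2 (Or.inr hχ)
  · rintro _ ⟨l, hl, rfl⟩ ψ
    rw [IrrCharacter.exists_ringEquiv_fix_iff_exists_pow hm]
    constructor
    · rintro ⟨k, hk, hk1, h⟩
      have hpk : ¬ p ∣ k := fun h => hp.one_lt.ne' (Nat.eq_one_of_dvd_coprimes hk h hdiv)
      refine ⟨l ^ k, unitsHom_pow_ne_one_of_card_prime hD hl hpk, Subtype.ext (funext fun g => ?_)⟩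
      rw [h g, O.ψ_pow hD rfl hl hk hk1]
    · rintro ⟨m, hm, rfl⟩
      obtain ⟨k, hk, rfl⟩ := exists_unitsHom_pow_eq_of_card_prime hD hl hm
      obtain ⟨k', h1, h2, h3⟩ := exists_coprime_modEq_ordCompl hp (Nat.card_pos (α := G)).ne' hk
      refine ⟨k', h1, h2, fun g => ?_⟩
      rw [O.ψ_pow hD rfl hl h1 h2]
      suffices l ^ k = l ^ k' by rw [this]
      ext u
      have h4 : k' ≡ k [MOD p] :=
        h3.of_dvd (dvd_pow_self p (hp.factorization_pos_of_dvd Nat.card_pos.ne' hdiv).ne')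
      have h5 : u ^ k = u ^ k' :=
        pow_eq_pow_iff_modEq.2 (h4.symm.of_dvd (hD ▸ orderOf_dvd_natCard u))
      simp only [MonoidHom.pow_apply, ← map_pow, h5]
  · intro χ hχ hχY ψ
    rw [IrrCharacter.exists_ringEquiv_fix_iff_exists_pow hm]
    rintro ⟨k, hk, hk1, h⟩
    have hX : χ ∈ O.X := ((O.mem_iff χ).1 hχ).resolve_right hχY
    exact Subtype.ext (funext fun g => by rw [h g, O.X_pow hD rfl hX hk hk1])
  · rw [O.card_eq, ← O.card_Y_eq, ← hYe, Nat.mul_div_cancel_left _ hY0, add_comm]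
  · intro χ _
    by_cases h : χ ∈ O.X
    · simpa [h] using O.δ_sign χ h
    · simpa [h] using O.δ₀_sign
  · rintro x hx _ ⟨l, hl, rfl⟩
    rw [O.sdiff_Y, finsum_mem_coe_finset]
    simp only [if_neg (O.ψ_notMem l hl)]
    rw [Finset.sum_congr rfl fun χ hχ => by rw [if_pos hχ], add_comm]
    exact O.reg l hl x hx

end Cfsg.Agent.S4507
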