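import Cfsg.Statements.S4508
import Cfsg.Agent.Blk.DefOneApp
import Cfsg.Agent.Grp.SelfCent
import Cfsg.Agent.CT.Det

set_option autoImplicit false
open Cfsg

namespace Cfsg.Agent.S4508

theorem sum_mul_eq_zero {G : Type*} [Group G] [Finite G] {χ : G → ℂ} (h : IsCharacter G χ)
    (P : Subgroup G) [Fintype P] (h0 : ∑ u : P, χ u = 0) (g : G) : ∑ u : P, χ (u * g) = 0 := by
  obtain ⟨n, ρ, rfl⟩ := h
  have hc : (Fintype.card P : ℂ) ≠ 0 := by exact_mod_cast Fintype.card_ne_zero
  set E : Module.End ℂ (Fin n → ℂ) := (Fintype.card P : ℂ)⁻¹ • ∑ u : P, ρ u with hE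
  have h1 : ∀ v : P, ρ v * ∑ u : P, ρ u = ∑ u : P, ρ u := by
    intro v
    rw [Finset.mul_sum]
    simp only [← map_mul]
    exact Equiv.sum_comp (Equiv.mulLeft v) fun u : P => ρ u
  have h2 : IsIdempotentElem E := by
    rw [IsIdempotentElem, hE, smul_mul_smul_comm, Finset.sum_mul, Finset.sum_congr rfl fun v _ => h1 v,
      Finset.sum_const, Finset.card_univ, ← Nat.cast_smul_eq_nsmul ℂ, smul_smul]
    congr 1
    field_simp
  have h3 := (LinearMap.IsIdempotentElem.isProj_range _ h2).trace
  have h4 : LinearMap.trace ℂ _ E = 0 := by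
    rw [hE, map_smul, map_sum]
    simp only [Representation.character] at h0
    rw [h0, smul_zero]
  rw [h4, eq_comm, Nat.cast_eq_zero, Submodule.finrank_eq_zero, LinearMap.range_eq_bot] at h3
  rw [hE, smul_eq_zero] at h3
  have h5 := h3.resolve_left (inv_ne_zero hc)
  simp only [Representation.character, map_mul]
  rw [← map_sum, ← Finset.sum_mul, h5, zero_mul, map_zero]

theorem detChar_eq_neg_one {G : Type*} [Group G] [Finite G] {χ : G → ℂ} (h : IsCharacter G χ)
    {g : G} {k m : ℕ} (hg : orderOf g = 2 ^ (k + 1)) (hm : Odd m)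
    (h1 : χ 1 = (m * 2 ^ (k + 1) : ℕ)) (h0 : ∀ j, g ^ j ≠ 1 → χ (g ^ j) = 0) :
    detChar χ g = -1 := by
  have hζ := Complex.isPrimitiveRoot_exp (2 ^ (k + 1)) (by positivity)
  set ζ := Complex.exp (2 * Real.pi * Complex.I / ((2 ^ (k + 1) : ℕ) : ℂ)) with hζdef
  rw [detChar_eq_prod_of_forall_pow h (ι := Fin m × Fin (2 ^ (k + 1))) (ε := fun i => ζ ^ (i.2 : ℕ))
    (fun i => pow_ne_zero _ (hζ.ne_zero (by positivity)))]
  · rw [Fintype.prod_prod_type]
    simp only [Finset.prod_const, Finset.card_univ, Fintype.card_fin]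
    rw [Finset.prod_pow_eq_pow_sum, Fin.sum_univ_eq_sum_range (fun i => i), Finset.sum_range_id,
      show 2 ^ (k + 1) * (2 ^ (k + 1) - 1) / 2 = 2 ^ k * (2 ^ (k + 1) - 1) by
        rw [pow_succ', mul_assoc, Nat.mul_div_cancel_left _ two_pos], pow_mul]
    have h2 : ζ ^ 2 ^ k = -1 :=
      (hζ.pow (by positivity) (show 2 ^ (k + 1) = 2 ^ k * 2 from pow_succ _ _)).eq_neg_one_of_two_right
    have h3 : Odd (2 ^ (k + 1) - 1) := Nat.Even.sub_odd (Nat.one_le_two_pow)
      (Nat.even_pow.2 ⟨even_two, by omega⟩) odd_one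
    rw [h2, h3.neg_one_pow, hm.neg_one_pow]
  · intro j
    rw [Fintype.sum_prod_type]
    simp only [Finset.sum_const, Finset.card_univ, Fintype.card_fin, ← pow_mul, mul_comm _ j]
    simp only [pow_mul]
    rw [Fin.sum_univ_eq_sum_range (fun i => (ζ ^ j) ^ i)]
    by_cases hj : g ^ j = 1
    · have h2 : ζ ^ j = 1 := (hζ.pow_eq_one_iff_dvd j).2 (hg ▸ orderOf_dvd_of_pow_eq_one hj)
      rw [hj, h1, h2]; simp
    · have h2 : ζ ^ j ≠ 1 := fun h => hj (orderOf_dvd_iff_pow_eq_one.1
        (hg ▸ (hζ.pow_eq_one_iff_dvd j).1 h))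
      have h3 := mul_geom_sum (ζ ^ j) (2 ^ (k + 1))
      rw [← pow_mul ζ j, mul_comm j, pow_mul, hζ.pow_eq_one, one_pow, sub_self, mul_eq_zero] at h3
      rw [h0 j hj, h3.resolve_left (sub_ne_zero.2 h2), smul_zero]

/-- Let the finite group G contain an element x of prime order p with C_G(x) = ⟨x⟩, and let t be the number of conjugacy classes of elements of order p. If G has an irreducible character of degree p − 1, then t is even or the commutator subgroup has even index. -/
theorem result {G : Type*} [Group G] [Finite G] (p : ℕ) (hp : p.Prime) (x : G) (hx : orderOf x = p) (hC : Subgroup.centralizer ({x} : Set G) = Subgroup.zpowers x) (t : ℕ) (ht : Nat.card {C : ConjClasses G // ∃ g ∈ C.carrier, orderOf g = p} = t) (χ : Cfsg.IrrCharacter G) (hχ : Cfsg.charDegree (χ : G → ℂ) + 1 = p) : Even t ∨ Even (commutator G).index := by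
  classical
  haveI : Fact p.Prime := ⟨hp⟩
  haveI := Fintype.ofFinite G
  have h : IsSelfCentPrime p x := ⟨hx, hC⟩
  have hcl := h.card_classes_mul
  rw [ht] at hcl
  by_cases hp2 : p = 2
  · right
    have h1 := h.card_classes_eq_iff.1 (by
      rw [ht, hp2]; rw [hp2] at hcl; exact Nat.eq_one_of_mul_eq_one_right hcl)
    rw [(h.commutator_eq_pPrimeCore h1).2, hp2]
    exact even_two
  by_contra hcon
  rw [not_or, Nat.not_even_iff_odd] at hcon
  set P := Subgroup.zpowers x with hPdef
  set N := Subgroup.normalizer (P : Set G) with hN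
  have hP : Nat.card P = p := h.card_zpowers
  have hCP : Subgroup.centralizer (P : Set G) = P := h.centralizer_eq
  haveI := Fintype.ofFinite P
  have hp3 : 3 ≤ p := by have := hp.two_le; omega
  have hndvd : ¬ p ∣ charDegree χ.1 := fun h1 => by
    have := Nat.le_of_dvd χ.charDegree_pos h1
    omega
  -- the restriction to `P` has no fixed vectors
  have hsum : ∑ u : P, χ.1 u = 0 := by
    obtain ⟨M, hM⟩ := exists_isPModular hp
    obtain ⟨B, hB, hχB⟩ : ∃ B, IsPBlock M B ∧ χ ∈ B := ⟨_, isPBlock_blockOf χ, hM.mem_blockOf_self χ⟩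
    obtain ⟨Q, hQ⟩ := h.exists_sylow
    have hBD : IsDefectGroup p M B P :=
      (hB.isDefectGroup_iff_of_full hM (blockDefect_eq_of_not_dvd hχB hndvd) _).2 ⟨Q, hQ.symm⟩
    obtain ⟨b, -, ⟨O⟩⟩ := hBD.exists_defOne hM hB hP
    have hDC := le_centralizer_of_card_prime hP
    have hθ : charDegree (O.θ 1).1 = 1 := by
      haveI : IsMulCommutative (Subgroup.centralizer (P : Set G)) := by
        rw [hCP]; infer_instance
      exact (O.θ 1).charDegree_eq_one_of_comm
    have htriv : IrrCharacter.triv _ ∈ b := by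
      refine (O.mem_root _).2 ⟨1, Subtype.ext (funext fun c => ?_)⟩
      have := O.θ_apply_mem 1 ⟨c, hCP.le c.2⟩ c.2
      simpa [hθ] using this
    have hT := O.T_eq hDC htriv
    have hcard : ((Finset.univ.erase (1 : P)).card : ℂ) = p - 1 := by
      rw [Finset.card_erase_of_mem (Finset.mem_univ _), Finset.card_univ, ← Nat.card_eq_fintype_card,
        hP, Nat.cast_sub hp.one_le, Nat.cast_one]
    have hdeg : χ.1 ((1 : P) : G) = p - 1 := by
      rw [OneMemClass.coe_one, χ.one_eq_charDegree, ← hχ]; simp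
    have hχ' : (charDegree χ.1 : ℤ) = p - 1 := by rw [← hχ]; simp
    rw [← Finset.add_sum_erase _ _ (Finset.mem_univ (1 : P)), hdeg]
    rcases (O.mem_iff χ).1 hχB with hX | ⟨l, hl, rfl⟩
    · have h1 := O.X_modEq hP rfl hX
      have h2 : (pairStab ⊤ P (subIdem M _ b)).relIndex N = 1 := by rw [hT, Subgroup.relIndex_self]
      rw [hθ, h2, hχ'] at h1
      have h3 : O.δ χ = -1 := by
        refine (O.δ_sign χ hX).resolve_left fun h3 => ?_
        rw [h3] at h1
        have h4 : (p : ℤ) ∣ 2 := by
          have := (dvd_add_right (dvd_refl (p : ℤ))).2 h1.dvd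
          simpa [show (p : ℤ) + (1 - (p - 1)) = 2 by ring] using this
        have := Int.le_of_dvd two_pos h4
        omega
      rw [Finset.sum_congr rfl (g := fun _ => -1), Finset.sum_const, nsmul_eq_mul, hcard]
      · ring
      · intro u hu
        have := O.X_apply_of_triv hP rfl htriv hX u.2 (fun h => Finset.ne_of_mem_erase hu
          (Subtype.ext h)) (Subgroup.one_mem _) (by rw [orderOf_one]; exact hp.not_dvd_one)
        rw [mul_one, h3] at this
        simpa using this
    · have h1 := O.ψ_modEq hP rfl hl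
      have hf : (Subgroup.centralizer (P : Set G)).relIndex N = P.relIndex N := by rw [hCP]
      rw [hθ, hχ', hf, mul_one] at h1
      have hf0 : 0 < P.relIndex N := Nat.pos_of_ne_zero fun h => by rw [h] at hcl; omega
      have hf1 : P.relIndex N ≤ p - 1 := Nat.le_of_dvd (by omega) (Dvd.intro_left _ hcl)
      rcases O.δ₀_sign with h2 | h2
      · exfalso
        rw [h2] at h1
        have h4 : (p : ℤ) ∣ P.relIndex N - 1 := by
          have := (dvd_add_right (dvd_refl (p : ℤ))).2 h1.dvd
          rw [← dvd_neg]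
          convert this using 1
          ring
        have h5 : (P.relIndex N : ℤ) - 1 = 0 := Int.eq_zero_of_dvd_of_nonneg_of_lt (by omega)
          (by omega) h4
        have h6 : P.relIndex N = 1 := by omega
        rw [h6, mul_one] at hcl
        have h7 := hp.odd_of_ne_two hp2
        rw [Nat.odd_iff] at h7
        have h8 := hcon.1
        rw [Nat.odd_iff] at h8
        omega
      · rw [h2] at h1
        have h4 : (p : ℤ) ∣ p - 1 - P.relIndex N := by
          have := h1.symm.dvd
          simpa using this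
        have h5 : (p : ℤ) - 1 - P.relIndex N = 0 := Int.eq_zero_of_dvd_of_nonneg_of_lt (by omega)
          (by omega) h4
        have h6 : (P.relIndex N : ℂ) = p - 1 := by
          have : (P.relIndex N : ℤ) = p - 1 := by omega
          exact_mod_cast this
        haveI := Fintype.ofFinite N
        rw [Finset.sum_congr rfl (g := fun u : P => (p : ℂ)⁻¹ * ∑ n : N,
          extendByZero _ (O.θ l).1 ((n : G)⁻¹ * u * n)), ← Finset.mul_sum, Finset.sum_comm,
          Finset.sum_congr rfl (g := fun _ => -1), Finset.sum_const, Finset.card_univ,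
          ← Nat.card_eq_fintype_card, ← card_mul_relIndex (show P ≤ N from Subgroup.le_normalizer),
          hP, nsmul_eq_mul, Nat.cast_mul, h6]
        · have : (p : ℂ) ≠ 0 := by exact_mod_cast hp.ne_zero
          field_simp
          ring
        · intro n _
          have hmem : ∀ u : P, (n : G)⁻¹ * u * n ∈ P := fun u => by
            simpa using (Subgroup.mem_normalizer_iff.1 (Subgroup.inv_mem _ n.2) u).1 u.2
          let φ : P →* ℂˣ := l.comp
            { toFun := fun u => ⟨_, hmem u⟩
              map_one' := by simp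
              map_mul' := fun a b => Subtype.ext (by simp [mul_assoc]) }
          have hφ : φ ≠ 1 := by
            intro h1
            apply hl
            ext u
            have := DFunLike.congr_fun h1 ⟨n * u * (n : G)⁻¹,
              (Subgroup.mem_normalizer_iff.1 n.2 u).1 u.2⟩
            simpa [φ, mul_assoc] using this
          have h7 := sum_hom_units_eq_zero ((Units.coeHom ℂ).comp φ) fun h => hφ (by
            ext u; simpa using DFunLike.congr_fun h u)
          rw [← Finset.add_sum_erase _ _ (Finset.mem_univ (1 : P)), map_one] at h7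
          rw [eq_neg_iff_add_eq_zero, add_comm, ← h7]
          congr 1
          refine Finset.sum_congr rfl fun u _ => ?_
          rw [extendByZero_of_mem _ _ (hDC (hmem u))]
          have := O.θ_apply_mem l ⟨_, hmem u⟩ (hDC (hmem u))
          rw [hθ] at this
          simpa [φ] using this
        · intro u hu
          have hu1 : (u : G) ≠ 1 := fun h => Finset.ne_of_mem_erase hu (Subtype.ext h)
          have h7 := O.indFun_sec hP rfl l u.2 hu1 (Subgroup.one_mem _)
            (by rw [orderOf_one]; exact hp.not_dvd_one)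
          rw [mul_one] at h7
          rw [O.ψ_sing l hl u (by rw [orderOf_eq_of_card_prime hP u.2 hu1]), h7, h2]
          have h8 : Nat.card (Subgroup.centralizer (P : Set G)) = p := by rw [hCP, hP]
          rw [h8]
          simp only [Int.cast_neg, Int.cast_one, neg_neg, one_mul]
          congr!
  -- `χ` vanishes on `N ∖ P`
  have hvan : ∀ g ∈ N, g ∉ P → χ.1 g = 0 := by
    intro g hg hgP
    have h1 := sum_mul_eq_zero χ.2.isCharacter P hsum g
    have hmem : ∀ u : P, (u : G) * g * (u : G)⁻¹ * g⁻¹ ∈ P := fun u => by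
      have := P.mul_mem u.2 ((Subgroup.mem_normalizer_iff.1 hg _).1 (P.inv_mem u.2))
      simpa [mul_assoc] using this
    have hbij : Function.Bijective fun u : P => (⟨_, hmem u⟩ : P) := by
      refine Finite.injective_iff_bijective.1 fun a b hab => ?_
      by_contra hne
      have h2 : (a : G) * g * (a : G)⁻¹ = b * g * (b : G)⁻¹ :=
        mul_right_cancel (congrArg Subtype.val hab)
      have h3 := h.centralizer_eq_of_mem (P.mul_mem (P.inv_mem b.2) a.2) fun h =>
        hne (Subtype.ext (inv_mul_eq_one.1 h).symm)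
      refine hgP (h3.le (Subgroup.mem_centralizer_singleton_iff.2 ?_))
      calc g * ((b : G)⁻¹ * a) = (b : G)⁻¹ * (b * g * (b : G)⁻¹) * a := by group
        _ = _ := by rw [← h2]; group
    rw [← hbij.sum_comp fun u : P => χ.1 (u * g)] at h1
    simp only [inv_mul_cancel_right, χ.isClassFunction _ _, Finset.sum_const, nsmul_eq_mul,
      mul_eq_zero, Nat.cast_eq_zero, Finset.card_univ, Fintype.card_ne_zero, false_or] at h1
    exact h1
  -- a generator of a Sylow `2`-subgroup of `N`
  obtain ⟨k, m, hm, hkm⟩ := Nat.exists_eq_two_pow_mul_odd (n := P.relIndex N) (by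
    intro h; rw [h] at hcl; omega)
  obtain ⟨k, rfl⟩ : ∃ j, k = j + 1 := by
    refine Nat.exists_eq_add_one.2 (Nat.pos_of_ne_zero ?_)
    rintro rfl
    have h1 := hcon.1.mul hm
    rw [pow_zero, one_mul] at hkm
    rw [← hkm, hcl, Nat.odd_iff] at h1
    have h7 := hp.odd_of_ne_two hp2
    rw [Nat.odd_iff] at h7
    omega
  haveI : Fact (Nat.Prime 2) := ⟨Nat.prime_two⟩
  obtain ⟨S, hS⟩ := Sylow.exists_subgroup_card_pow_prime (G := N) 2 (n := k + 1) (by
    rw [← card_mul_relIndex (show P ≤ N from Subgroup.le_normalizer), hkm]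
    exact (dvd_mul_right _ _).mul_left _)
  have hSP : ∀ s ∈ S, (s : G) ∈ P → s = 1 := by
    intro s hs hsP
    by_contra hs1
    have h1 := orderOf_eq_of_card_prime hP hsP fun h => hs1 (Subtype.ext h)
    have h2 : orderOf (⟨s, hs⟩ : S) ∣ 2 ^ (k + 1) := hS ▸ orderOf_dvd_natCard _
    rw [Subgroup.orderOf_mk, ← Subgroup.orderOf_coe, h1] at h2
    exact hp2 ((Nat.prime_dvd_prime_iff_eq hp Nat.prime_two).1 (hp.dvd_of_dvd_pow h2))
  haveI : IsCyclic S := by
    haveI : IsCyclic P := isCyclic_of_prime_card hP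
    haveI : IsCyclic (ZMod (Nat.card P))ˣ := by rw [hP]; exact ZMod.isCyclic_units_prime hp
    haveI : IsCyclic (MulAut P) := (IsCyclic.mulAutMulEquiv P).isCyclic.2 inferInstance
    refine isCyclic_of_injective (P.normalizerMonoidHom.comp S.subtype) ?_
    rw [injective_iff_map_eq_one]
    intro s hs
    have h1 : (s : N) ∈ P.normalizerMonoidHom.ker := hs
    rw [Subgroup.normalizerMonoidHom_ker, hCP] at h1
    exact Subtype.ext (hSP _ s.2 h1)
  obtain ⟨g, hg⟩ := IsCyclic.exists_ofOrder_eq_natCard (α := S)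
  have hdet := detChar_eq_neg_one χ.2.isCharacter (g := ((g : N) : G)) (k := k) (m := t * m)
    (by rw [Subgroup.orderOf_coe, Subgroup.orderOf_coe, hg, hS]) (hcon.1.mul hm) (by
      rw [χ.one_eq_charDegree, Nat.cast_inj, mul_assoc, mul_comm m, ← hkm, hcl]; omega)
    fun j hj => hvan _ (N.pow_mem (g : N).2 j) fun h => hj
      (congrArg Subtype.val (hSP ((g : N) ^ j) (S.pow_mem g.2 j) h))
  have h1 := detChar_pow_detOrder χ.1 ((g : N) : G)
  rw [hdet, neg_one_pow_eq_one_iff_even (by norm_num)] at h1
  exact hcon.2 (h1.trans_dvd (detOrder_dvd_index_commutator _))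

end Cfsg.Agent.S4508
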