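import Cfsg.Statements.S4509
import Cfsg.Agent.Grp.SelfCent
-- import your own Cfsg.Agent.* helpers here

set_option autoImplicit false
open Cfsg

namespace Cfsg.Agent.S4509

/-- Let the finite group G contain an element x of prime order p with C_G(x) = ⟨x⟩; let t be the number of conjugacy classes of elements of order p and 1 + n·p the number of subgroups of order p. Then G has a normal subgroup of order 1 + n·p if and only if either t = p − 1, or t < p − 1 and G″ ≠ G′. Moreover, if t = p − 1 then G′ has order 1 + n·p and G/G′ is cyclic of order p; and if t < p − 1 and G″ ≠ G′ then G″ has order 1 + n·p and G′ has order p·(1 + n·p). -/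
theorem result {G : Type*} [Group G] [Finite G] (p : ℕ) (hp : p.Prime) (x : G) (hx : orderOf x = p) (hC : Subgroup.centralizer ({x} : Set G) = Subgroup.zpowers x) (t : ℕ) (ht : Nat.card {C : ConjClasses G // ∃ g ∈ C.carrier, orderOf g = p} = t) (n : ℕ) (hn : Nat.card {H : Subgroup G // Nat.card H = p} = 1 + n * p) : ((∃ S : Subgroup G, S.Normal ∧ Nat.card S = 1 + n * p) ↔ (t = p - 1 ∨ (t < p - 1 ∧ derivedSeries G 2 ≠ derivedSeries G 1))) ∧ (t = p - 1 → Nat.card (commutator G) = 1 + n * p ∧ IsCyclic (G ⧸ commutator G) ∧ (commutator G).index = p) ∧ (t < p - 1 → derivedSeries G 2 ≠ derivedSeries G 1 → Nat.card (derivedSeries G 2) = 1 + n * p ∧ Nat.card (commutator G) = p * (1 + n * p)) := by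
  have : Fact p.Prime := ⟨hp⟩
  have h : IsSelfCentPrime p x := ⟨hx, hC⟩
  subst ht
  rw [h.card_subgroups] at hn
  have hA : Nat.card {C : ConjClasses G // ∃ g ∈ C.carrier, orderOf g = p} = p - 1 →
      Nat.card (commutator G) = 1 + n * p ∧ IsCyclic (G ⧸ commutator G) ∧
        (commutator G).index = p := by
    intro he
    have h1 := h.card_classes_eq_iff.1 he
    have h2 := (h.commutator_eq_pPrimeCore h1).2
    refine ⟨?_, isCyclic_of_prime_card h2, h2⟩
    rw [le_antisymm h1 Subgroup.le_normalizer] at hn
    have h3 := (commutator G).card_mul_index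
    rw [h2, ← (Subgroup.zpowers x).index_mul_card, h.card_zpowers, hn] at h3
    exact Nat.eq_of_mul_eq_mul_right hp.pos h3
  have hB : Nat.card {C : ConjClasses G // ∃ g ∈ C.carrier, orderOf g = p} < p - 1 →
      derivedSeries G 2 ≠ derivedSeries G 1 →
      Nat.card (derivedSeries G 2) = 1 + n * p ∧ Nat.card (commutator G) = p * (1 + n * p) := by
    intro hlt hne
    have h1 := h.dvd_card_commutator fun he => hlt.ne (h.card_classes_eq_iff.2 he)
    have hP := h.le_of_dvd_card h1
    have h2 : ¬ p ∣ Nat.card (derivedSeries G 2) := fun hd => hne (le_antisymm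
      (derivedSeries_antitone G (by norm_num)) (h.commutator_le hd))
    have h3 : derivedSeries G 2 ⊔ Subgroup.zpowers x = commutator G := by
      have hle : derivedSeries G 2 ⊔ Subgroup.zpowers x ≤ commutator G :=
        sup_le (derivedSeries_antitone G (by norm_num : 1 ≤ 2)) hP
      have hn : ((derivedSeries G 2 ⊔ Subgroup.zpowers x).subgroupOf (commutator G)).Normal := by
        apply Subgroup.Normal.of_commutator_le
        rw [Subgroup.subgroupOf, ← Subgroup.map_le_iff_le_comap, Subgroup.map_subtype_commutator]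
        exact le_sup_left
      refine le_antisymm hle (Subgroup.subgroupOf_eq_top.1 (h.eq_top_of_normal_commutator
        (L := (derivedSeries G 2 ⊔ Subgroup.zpowers x).subgroupOf (commutator G)) ?_))
      rw [card_subgroupOf_of_le hle]
      exact h.card_zpowers.symm.dvd.trans (Subgroup.card_dvd_of_le le_sup_right)
    have h4 : Nat.card (commutator G) = Nat.card (derivedSeries G 2) * p := by
      rw [← h3, card_sup_of_disjoint Subgroup.le_normalizer_of_normal
        (inf_eq_bot_of_coprime_card (coprime_card_of_isPGroup h.isPGroup h2).symm), h.card_zpowers]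
    have h5 : Subgroup.normalizer (Subgroup.zpowers x : Set G) ⊓ commutator G =
        Subgroup.zpowers x := by
      rw [← h3, inf_comm, sup_inf_of_le_normalizer' Subgroup.le_normalizer_of_normal
        Subgroup.le_normalizer, h.inf_normalizer_eq_bot h2, bot_sup_eq]
    rw [← Subgroup.relIndex_top_right, ← h.sup_normalizer_eq_top h1,
      relIndex_sup_left_of_le_normalizer Subgroup.le_normalizer_of_normal,
      ← Subgroup.inf_relIndex_right, h5] at hn
    have h6 := card_mul_relIndex hP
    rw [hn, h.card_zpowers] at h6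
    refine ⟨?_, h6.symm⟩
    rw [h4, mul_comm] at h6
    exact (Nat.eq_of_mul_eq_mul_right hp.pos h6).symm
  refine ⟨⟨?_, ?_⟩, hA, hB⟩
  · rintro ⟨S, hS, hSc⟩
    refine or_iff_not_imp_left.2 fun hne => ⟨lt_of_le_of_ne ?_ hne, fun e => ?_⟩
    · rw [← h.card_classes_mul]
      exact Nat.le_mul_of_pos_right _ (Nat.pos_of_ne_zero Subgroup.index_ne_zero_of_finite)
    have h1 := h.dvd_card_commutator fun he => hne (h.card_classes_eq_iff.2 he)
    have h2 : ¬ p ∣ Nat.card S := by
      rw [hSc, Nat.dvd_add_left (dvd_mul_left p n), Nat.dvd_one]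
      exact hp.ne_one
    have h3 : S ⊔ Subgroup.normalizer (Subgroup.zpowers x : Set G) = ⊤ := by
      apply Subgroup.eq_top_of_card_eq
      rw [card_sup_of_disjoint Subgroup.le_normalizer_of_normal (h.inf_normalizer_eq_bot h2), hSc,
        ← hn, Subgroup.index_mul_card]
    have h4 : commutator G ≤ S ⊔ Subgroup.zpowers x :=
      (commutator_le_of_sup_eq_top h3).trans (sup_le_sup_left h.commutator_normalizer_le _)
    have h5 : derivedSeries G 2 ≤ S := by
      refine (Subgroup.commutator_mono h4 h4).trans ?_
      rw [← map_mk_eq_bot_iff, Subgroup.map_commutator, Subgroup.map_sup, map_mk_eq_bot_iff.2 le_rfl,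
        bot_sup_eq, MonoidHom.map_zpowers, Subgroup.commutator_self_eq_bot_iff]
      infer_instance
    rw [e] at h5
    exact h2 (h1.trans (Subgroup.card_dvd_of_le h5))
  · rintro (he | ⟨hlt, hne⟩)
    · exact ⟨_, inferInstance, (hA he).1⟩
    · exact ⟨_, inferInstance, (hB hlt hne).1⟩

end Cfsg.Agent.S4509
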