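import Cfsg.Statements.S4510
import Cfsg.Agent.Blk.DefClass

set_option autoImplicit false
open Cfsg

namespace Cfsg.Agent.S4510

/-- Let G be a finite group, p a prime, M a maximal ideal of the algebraic integers containing p, and call the defect of a conjugacy class the exponent of p in the order of the centralizer of its elements. Two irreducible characters lying in p-blocks of defect exactly d lie in the same block if and only if their central characters (class size times χ(x)/χ(1)) agree modulo the local ideal at M at every p-regular element x whose class has defect exactly d. -/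
theorem result {G : Type*} [Group G] [Finite G] (p : ℕ) [Fact p.Prime] (M : Ideal Cfsg.AlgInt) (hM : Cfsg.IsPModular p M) (d : ℕ) (χ ψ : Cfsg.IrrCharacter G) (hχ : Cfsg.blockDefect p (Cfsg.blockOf M (χ : G → ℂ)) = d) (hψ : Cfsg.blockDefect p (Cfsg.blockOf M (ψ : G → ℂ)) = d) : Cfsg.SameBlock M (χ : G → ℂ) (ψ : G → ℂ) ↔ ∀ x : G, ¬ p ∣ orderOf x → (Nat.card (Subgroup.centralizer ({x} : Set G))).factorization p = d → Cfsg.MemLocalIdeal M (Cfsg.centralChar (χ : G → ℂ) x - Cfsg.centralChar (ψ : G → ℂ) x) := by
  classical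
  have := Fintype.ofFinite (ConjClasses G)
  refine ⟨fun h x _ _ => h x, fun h => ?_⟩
  have hB := isPBlock_blockOf (M := M) χ
  have hB' := isPBlock_blockOf (M := M) ψ
  have h1 := hB.lam_idemK_eq_sum_filter hM hB hχ hχ (hM.mem_blockOf_self χ)
  have h2 := hB.lam_idemK_eq_sum_filter hM hB' hχ hψ (hM.mem_blockOf_self ψ)
  rw [(hB.isBlockUnion hM).lam_idemK_of_mem hM (hM.mem_blockOf_self χ)] at h1
  refine (hB.mem_iff_sameBlock hM (hM.mem_blockOf_self χ) ψ).1 ?_
  rw [(hB.isBlockUnion hM).mem_iff_lam_idemK hM, h2, h1]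
  refine Finset.sum_congr rfl fun K hK => ?_
  obtain ⟨-, h3, h4⟩ := Finset.mem_filter.1 hK
  rw [(hM.memLocalIdeal_sub_iff (centralChar_isAlgebraic χ _) (centralChar_isAlgebraic ψ _)
    (centralChar_mem_valO χ _) (centralChar_mem_valO ψ _)).1 (h _ h3 h4)]

end Cfsg.Agent.S4510
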