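import Cfsg.Statements.S4512
import Cfsg.Agent.Blk.Klein

set_option autoImplicit false
open Cfsg

namespace Cfsg.Agent.S4512

/-- If G is a finite group with a Sylow 2-subgroup that is a Klein four-group and a single conjugacy class of involutions, then its principal 2-block (relative to a maximal ideal M of the algebraic integers containing 2) has 2-regular rank 3: the restrictions of its irreducible characters to the elements of odd order span a space of dimension 3 (it has three irreducible Brauer characters). -/
theorem result {G : Type*} [Group G] [Finite G] (M : Ideal Cfsg.AlgInt) (hM : Cfsg.IsPModular 2 M) (P : Sylow 2 G)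
    (hP : Nat.card P = 4) (hexp : ∀ x : P, x * x = 1)
    (hone : ∀ s t : G, orderOf s = 2 → orderOf t = 2 → IsConj s t) :
    Cfsg.blockRank 2 (Cfsg.principalBlock M G) = 3 := by
  have hV : IsKleinFour (P : Subgroup G) := ⟨hP, by
    have : Nontrivial (P : Subgroup G) :=
      Finite.one_lt_card_iff_nontrivial.1 (by rw [show Nat.card (P : Subgroup G) = 4 from hP]; norm_num)
    exact (Monoid.exponent_eq_prime_iff Nat.prime_two).2 fun g hg =>
      orderOf_eq_prime (by rw [sq]; exact hexp g) hg⟩
  obtain ⟨e, S⟩ := ((hM.isDefectGroup_principalBlock_iff P).2 ⟨P, rfl⟩).exists_starSetup hM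
    isPBlock_principalBlock
  rw [S.klein_blockRank hV]
  refine (S.klein_inertialIndex hV).resolve_left fun h => ?_
  rw [← S.klein_blockRank hV, hM.blockRank_principalBlock_eq_one_iff'] at h
  classical
  have := Fintype.ofFinite (P : Subgroup G)
  obtain ⟨a, ha, b, hb, hab⟩ := Finset.one_lt_card.1
    (show 1 < (Finset.univ.erase (1 : (P : Subgroup G))).card by
      rw [Finset.card_erase_of_mem (Finset.mem_univ _), Finset.card_univ,
        ← Nat.card_eq_fintype_card, hV.card_four]; norm_num)
  have ho : ∀ x : (P : Subgroup G), x ≠ 1 → orderOf (x : G) = 2 := fun x hx => by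
    rw [Subgroup.orderOf_coe]
    exact orderOf_eq_prime (by rw [sq]; exact hexp x) hx
  obtain ⟨g, hg⟩ := isConj_iff.1 (hone a b (ho a (Finset.ne_of_mem_erase ha))
    (ho b (Finset.ne_of_mem_erase hb)))
  obtain ⟨u, hu, h1⟩ := h.exists_conj_in_sylow P (g := g) (X := {(a : G)}) fun x hx => by
    rw [Set.mem_singleton_iff.1 hx, hg]; exact ⟨a.2, b.2⟩
  have h2 := h1 a rfl
  rw [hg, ← kleinFour_le_centralizer hV hu a a.2, mul_inv_cancel_right] at h2
  exact hab (Subtype.ext h2.symm)

end Cfsg.Agent.S4512
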