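import Cfsg.Statements.S4513
import Cfsg.Agent.Blk.Subsec
import Cfsg.Agent.Blk.Invol

set_option autoImplicit false
open Cfsg

namespace Cfsg.Agent.S4513

/-- Blocks of defect one for p = 2. Let M be a maximal ideal of the algebraic integers containing 2, B a 2-block of the finite group G whose defect group is the subgroup generated by an involution x, C = C_G(x), b a block of C inducing B and θ a member of b taking the same value at x as at 1 (there is exactly one). Then B consists of exactly two irreducible characters, which agree on every element of odd order, and they can be labelled χ₁, χ₂ with signs ε₁, ε₂ = ±1, ε₁ε₂ = −1, such that χᵢ(x y) = εᵢ θ(y) for every element y of C of odd order. -/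
theorem result {G : Type*} [Group G] [Finite G] (M : Ideal Cfsg.AlgInt) (hM : Cfsg.IsPModular 2 M) (x : G) (hx : orderOf x = 2)
    (B : Set (Cfsg.IrrCharacter G)) (hB : Cfsg.IsPBlock M B) (hBD : Cfsg.IsDefectGroup 2 M B (Subgroup.zpowers x))
    (b : Set (Cfsg.IrrCharacter ↥(Subgroup.centralizer ({x} : Set G)))) (hb : Cfsg.IsInducedBlock M (Subgroup.centralizer ({x} : Set G)) b B)
    (θ : Cfsg.IrrCharacter ↥(Subgroup.centralizer ({x} : Set G))) (hθ : θ ∈ b)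
    (hθx : ∀ z : ↥(Subgroup.centralizer ({x} : Set G)), (z : G) = x → (θ : ↥(Subgroup.centralizer ({x} : Set G)) → ℂ) z = (θ : ↥(Subgroup.centralizer ({x} : Set G)) → ℂ) 1) :
    Nat.card B = 2 ∧ (∀ χ ∈ B, ∀ ψ ∈ B, ∀ g : G, ¬ 2 ∣ orderOf g → (χ : G → ℂ) g = (ψ : G → ℂ) g) ∧
      ∃ χ₁ ∈ B, ∃ χ₂ ∈ B, χ₁ ≠ χ₂ ∧ ∃ ε₁ ε₂ : ℤ, (ε₁ = 1 ∨ ε₁ = -1) ∧ (ε₂ = 1 ∨ ε₂ = -1) ∧ ε₁ * ε₂ = -1 ∧
        ∀ y : ↥(Subgroup.centralizer ({x} : Set G)), ¬ 2 ∣ orderOf y →
          (χ₁ : G → ℂ) (x * y) = (ε₁ : ℂ) * (θ : ↥(Subgroup.centralizer ({x} : Set G)) → ℂ) y ∧ (χ₂ : G → ℂ) (x * y) = (ε₂ : ℂ) * (θ : ↥(Subgroup.centralizer ({x} : Set G)) → ℂ) y := by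
  classical
  have := Fintype.ofFinite G
  have := hM.fact_prime
  have := hM.charP
  have hC := (centralizer_zpowers_eq_singleton x).symm
  have S : StarSetup 2 M B (Subgroup.zpowers x) (subIdem M _ b) := ⟨hM, hB,
    ((StarSetup.isInducedBlock_iff_isPairOf hM hBD.isPGroup hC hB hb.1).1
      hb).isMaxPair_of_isDefGrp ((hB.isDefectGroup_iff hM).1 hBD)⟩
  set u : Subgroup.zpowers x := ⟨x, Subgroup.mem_zpowers x⟩ with hu
  have hcard : Nat.card (Subgroup.zpowers x) = 2 := by rw [Nat.card_zpowers, hx]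
  have hu1 : u ≠ 1 := fun h => by
    have h1 : x = 1 := congrArg Subtype.val h
    rw [h1, orderOf_one] at hx; omega
  have huniq : ∀ v : Subgroup.zpowers x, v ≠ 1 → v = u := fun v hv => by
    obtain ⟨y, -, hy⟩ := (Nat.card_eq_two_iff' (1 : Subgroup.zpowers x)).1 hcard
    rw [hy v hv, hy u hu1]
  have hab : Subgroup.zpowers x ≤ Subgroup.centralizer (Subgroup.zpowers x : Set G) := by
    rw [← hC, Subgroup.zpowers_le, Subgroup.mem_centralizer_singleton_iff]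
  have hT : pairStab ⊤ (Subgroup.zpowers x) (subIdem M _ b) ≤
      Subgroup.centralizer (Subgroup.zpowers x : Set G) := fun t ht => by
    rw [← hC, Subgroup.mem_centralizer_singleton_iff, ← mul_inv_eq_iff_eq_mul]
    refine congrArg Subtype.val (huniq ⟨_, (Subgroup.mem_normalizer_iff.1
      (mem_pairStab.1 ht).2.1 x).1 u.2⟩ fun h => hu1 (Subtype.ext ?_))
    have h1 : t * x * t⁻¹ = 1 := congrArg Subtype.val h
    exact (by simpa using h1 : x = 1)
  have hbb : b = S.below u := S.eq_below (v := u) hb.1 (PairLE.refl _ _)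
  have hnil := (S.isNilpotentBlock_iff_of_comm hab).2 hT
  have hk : Nat.card B = 2 := (hnil.card_eq_of_comm hM hBD hab).trans hcard
  obtain ⟨φ₀, -, hφ₀⟩ := hnil.exists_isBasicSet_of_comm hM hBD hab
  have hreg : ∀ χ ∈ B, ∀ g : G, ¬ 2 ∣ orderOf g → χ.1 g = φ₀ () g := fun χ hχ g hg => by
    rw [← hφ₀ χ hχ, pRegularPart_apply, if_neg hg]
  have hdb := S.card_eq_pow_below (StarSetup.le_centralizer_of_comm hab u)
  obtain ⟨φ, hφ, hφ'⟩ := S.exists_isBasicSet_below hab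
    ((S.isNilpotentBlock_below_iff hab u).2 fun t ht _ => hT ht)
  rw [← hbb] at hφ hφ' hdb
  have hdb' : (2 : ℤ) ^ blockDefect 2 b = 2 := by exact_mod_cast hdb.symm.trans hcard
  have hθφ : ∀ y, ¬ 2 ∣ orderOf y → θ.1 y = φ () y := fun y hy => by
    rw [← hφ' θ hθ, pRegularPart_apply, if_neg hy]
  set d : IrrCharacter (Subgroup.centralizer ({x} : Set G)) → Unit → ℤ := fun _ _ => 1
  have hxp : ∃ k : ℕ, orderOf x = 2 ^ k := ⟨1, hx⟩
  have hval : ∀ χ ∈ B, ∀ y : Subgroup.centralizer ({x} : Set G), ¬ 2 ∣ orderOf y →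
      χ.1 (x * y) = gdn x b d χ.1 () * θ.1 y := fun χ hχ y hy => by
    have h1 := congrFun (S.eq_add_secProj_of_fuse hu1 (fun v hv => by
      rw [huniq v hv]; exact pairFuse_refl S.isPair u.2) (blockPart_irr_of_mem hχ)) (x * y)
    rw [← hbb, Pi.add_apply, pRegularPart_apply, if_pos, zero_add] at h1
    · rw [h1, hθφ y hy]; exact hφ.secProj_mul_of_unique hxp rfl χ.1 hy
    · rw [← pPart_ne_one_iff, pPart_mul_of_commute
        (Subgroup.mem_centralizer_singleton_iff.1 y.2).symm hxp (by rwa [Subgroup.orderOf_coe])]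
      exact fun h => hu1 (Subtype.ext h)
  have hsub : b ⊆ inducingChars M _ B := fun _ h => ⟨_, h, hb⟩
  obtain ⟨χ₁, χ₂, hne, hB12⟩ := Finset.card_eq_two.1 ((card_irrFinset B).trans hk)
  have h1 : χ₁ ∈ B := mem_irrFinset.1 (by rw [hB12]; simp)
  have h2 : χ₂ ∈ B := mem_irrFinset.1 (by rw [hB12]; simp)
  have hx2 : x ^ 2 = 1 := by rw [← hx, pow_orderOf_eq_one]
  obtain ⟨ε₁, hε₁⟩ := exists_gdn_eq_int (V := b) (d := d) rfl hx2
    χ₁.isCharacter.isGeneralizedCharacter ()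
  obtain ⟨ε₂, hε₂⟩ := exists_gdn_eq_int (V := b) (d := d) rfl hx2
    χ₂.isCharacter.isGeneralizedCharacter ()
  have h3 := hφ.sum_gdn_mul_conj_of_unique hM hxp rfl hB (hb.1.isBlockUnion hM) hsub
  have h4 := hφ.sum_gdn_mul_conj_apply hM hxp rfl hB (hb.1.isBlockUnion hM) hsub () (g := 1)
    (by rw [pPart_one, isConj_one_left]; exact fun h => hu1 (Subtype.ext h))
  rw [hB12, Finset.sum_pair hne, hε₁, hε₂, map_intCast, map_intCast] at h3 h4
  rw [hreg χ₂ h2 1 (by simp), ← hreg χ₁ h1 1 (by simp), ← add_mul,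
    mul_eq_zero_iff_right χ₁.one_ne_zero] at h4
  have h5 : ε₁ * ε₁ + ε₂ * ε₂ = 2 := by rw [← hdb']; exact_mod_cast h3
  have h6 : ε₁ + ε₂ = 0 := by exact_mod_cast h4
  obtain rfl : ε₂ = -ε₁ := by omega
  have h7 : ε₁ * ε₁ = 1 := by linarith [neg_mul_neg ε₁ ε₁]
  have h8 : -ε₁ * -ε₁ = 1 := by rw [neg_mul_neg, h7]
  refine ⟨hk, fun χ hχ ψ hψ g hg => by rw [hreg χ hχ g hg, hreg ψ hψ g hg], χ₁, h1, χ₂, h2, hne,
    ε₁, -ε₁, Int.eq_one_or_neg_one_of_mul_eq_one h7, Int.eq_one_or_neg_one_of_mul_eq_one h8,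
    by rw [mul_neg, h7], fun y hy => ⟨?_, ?_⟩⟩
  · rw [hval χ₁ h1 y hy, hε₁]
  · rw [hval χ₂ h2 y hy, hε₂]

end Cfsg.Agent.S4513
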