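import Cfsg.Statements.S4634
import Cfsg.Agent.Blk.CycPerfect
import Cfsg.Agent.Blk.Cover

set_option autoImplicit false
open Cfsg

namespace Cfsg.Agent.S4634

/-- Let B be a block of the finite group G relative to a maximal ideal M of the algebraic integers containing the prime p, with a nontrivial cyclic defect group P, let c be a block of C_G(P) inducing B, T the stabilizer of c in N_G(P) and e the index of C_G(P) in T. Let F be any finite group of order #P · e having a cyclic subgroup Q of order #P that is its own centralizer (F is then the semidirect product of Q by a cyclic group of order e acting faithfully). Then there is a perfect isometry from the set of all irreducible characters of F onto B whose signs agree on all the characters of F that do not contain Q in their kernel. -/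
theorem result {G : Type*} [Group G] [Finite G] (p : ℕ) [Fact p.Prime] (M : Ideal Cfsg.AlgInt) (hM : Cfsg.IsPModular p M) (B : Set (Cfsg.IrrCharacter G)) (hB : Cfsg.IsPBlock M B) (P : Subgroup G) (hPD : Cfsg.IsDefectGroup p M B P) (hP1 : P ≠ ⊥) (hcyc : IsCyclic P) (c : Set (Cfsg.IrrCharacter (Subgroup.centralizer (P : Set G)))) (hc : Cfsg.IsInducedBlock M (Subgroup.centralizer (P : Set G)) c B) (T : Subgroup G) (hT : ∀ g : G, g ∈ T ↔ (g ∈ Subgroup.normalizer (P : Set G) ∧ Cfsg.StabilizesBlock (Subgroup.centralizer (P : Set G)) c g)) (e : ℕ) (he : (Subgroup.centralizer (P : Set G)).relIndex T = e) (F : Type*) [Group F] [Finite F] (hF : Nat.card F = Nat.card P * e) (Q : Subgroup F) (hQ : IsCyclic Q) (hQcard : Nat.card Q = Nat.card P) (hQC : Subgroup.centralizer (Q : Set F) = Q) : ∃ (I : Cfsg.IrrCharacter F → Cfsg.IrrCharacter G) (ε : Cfsg.IrrCharacter F → ℤ), Cfsg.IsPerfectIsometry p M (Set.univ : Set (Cfsg.IrrCharacter F)) B I ε ∧ ∀ η η' : Cfsg.IrrCharacter F, (∃ x ∈ Q, (η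 : F → ℂ) x ≠ (η : F → ℂ) 1) → (∃ x ∈ Q, (η' : F → ℂ) x ≠ (η' : F → ℂ) 1) → ε η = ε η' := by
  classical
  have hp : p.Prime := Fact.out
  have := Fintype.ofFinite G
  have := Fintype.ofFinite F
  obtain ⟨X, ψ, δ, δ₀, h⟩ := (hc.starSetup hM hPD).exists_cycData hcyc hP1
  have hXe : X.card = e := by rw [h.card_X, ← he, hc.1.eq_stabGA hM hT]
  obtain ⟨a, ha⟩ := IsPGroup.iff_card.1 hPD.isPGroup
  have hQp : IsPGroup p Q := IsPGroup.iff_card.2 ⟨a, hQcard.trans ha⟩
  have hi : Q.index = e := Nat.eq_of_mul_eq_mul_left Nat.card_pos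
    (by rw [Q.card_mul_index, hF, hQcard])
  have hnd : ¬ p ∣ Q.index := hi ▸ hXe ▸ h.not_dvd
  let R : Sylow p F := hQp.toSylow hnd
  have hR : Nat.card (Sylow p F) = 1 := by
    have h1 : Nat.card (Sylow p F) ≤ p - 1 := Nat.le_of_dvd (Nat.sub_pos_of_lt hp.one_lt)
      (R.card_dvd_index.trans (hi ▸ hXe ▸ h.card_X_dvd : Q.index ∣ p - 1))
    exact Nat.ModEq.eq_of_lt_of_lt (card_sylow_modEq_one p F) (by have := hp.one_lt; omega)
      hp.one_lt
  have : Subsingleton (Sylow p F) := (Nat.card_eq_one_iff_unique.1 hR).1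
  have hQn : Q.Normal := R.normal_of_subsingleton
  have S' := ((hM.isInducedBlock_centralizer_principalBlock_iff hQp rfl
    isPBlock_principalBlock).2 rfl).starSetup hM ((hM.isDefectGroup_principalBlock_iff Q).2 ⟨R, rfl⟩)
  have hE : pairStab ⊤ Q (subIdem M _ (principalBlock M (Subgroup.centralizer (Q : Set F)))) = ⊤ :=
    eq_top_iff.2 fun g _ => mem_pairStab.2 ⟨trivial, (Subgroup.normalizer_eq_top Q).ge trivial,
      (isPBlock_principalBlock.mem_blockStab_iff_gaConj hM).1 (hM.blockStab_principalBlock.ge trivial)⟩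
  rw [hM.principalBlock_eq_univ hQp hQC.le] at S'
  obtain ⟨D₁, f, C⟩ := S'.exists_cycSetup' hQ fun h0 => hP1 (Subgroup.card_eq_one.1
    (by rw [← hQcard, h0, Subgroup.card_bot]))
  have := Fintype.ofFinite (Subgroup.centralizer (D₁ : Set F))
  obtain ⟨θ, L, hθ⟩ := C.exists_locFix_triv trivial
  have hidx : (Subgroup.centralizer (Q : Set F)).relIndex (pairStab ⊤ Q (subIdem M _
      (principalBlock M (Subgroup.centralizer (Q : Set F))))) = e := by
    rw [hE, Subgroup.relIndex_top_right, hQC, hi]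
  let Z : Finset (IrrCharacter F) := Finset.univ.filter fun η => Q ≤ charKer η.1
  have hZ : ∑ η ∈ Z, charDegree η.1 ^ 2 = e := hi ▸ sum_charDegree_sq_le_charKer Q
  have hrow : ∀ η ∈ Z, ∀ l, l ≠ 1 → cycRow θ η.1 l = -charDegree η.1 := fun η hη l hl => by
    have h1 : (fun h : Subgroup.centralizer (D₁ : Set F) => η.1 h) = η.1 1 • (θ 1).1 := by
      ext x
      rw [hθ, η.le_charKer_iff.1 (Finset.mem_filter.1 hη).2 _
        (hQC.le (C.mem_cen_of_mem (hE.ge trivial) x.2))]
      simp
    rw [cycRow, h1, classInner_smul_left, classInner_smul_left, IrrCharacter.classInner_self,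
      IrrCharacter.classInner_of_ne (L.N.inj.ne hl.symm), η.one_eq_charDegree]
    simp
  obtain ⟨X', ψ', δ', δ₀', h', -, h1, h2⟩ := L.exists_cycData' Z (by
    rw [hidx, ← hZ, Finset.card_eq_sum_ones]
    exact Finset.sum_le_sum fun η _ => Nat.one_le_pow _ _ η.charDegree_pos)
  obtain ⟨l, hl⟩ := h'.exists_ne_one
  have hZX : Z ⊆ X' := fun η hη => h2 η hη fun l hl => by
    rw [hrow η hη l hl, neg_ne_zero]
    exact Nat.cast_ne_zero.2 η.charDegree_pos.ne'
  have hZX' : Z = X' := Finset.eq_of_subset_of_card_le hZX (by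
    rw [h'.card_X, hidx, ← hZ, Finset.card_eq_sum_ones]
    refine Finset.sum_le_sum fun η hη => ?_
    have h3 : (charDegree η.1 : ℤ) = δ' η := by
      exact_mod_cast neg_injective ((hrow η hη l hl).symm.trans (h1 η (hZX hη) l hl))
    have := h'.δ_sign η (hZX hη)
    rw [show charDegree η.1 = 1 by omega, one_pow])
  obtain ⟨I, ε, h3, h4⟩ := h.exists_isPerfectIsometry h' (mulEquivOfCyclicCardEq hQcard)
    (by rw [h'.card_X, hidx, hXe])
  have h5 : ∀ η : IrrCharacter F, (∃ x ∈ Q, η.1 x ≠ η.1 1) → η ∉ X' := fun η ⟨x, hx, hne⟩ hη =>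
    hne (η.le_charKer_iff.1 (Finset.mem_filter.1 (hZX' ▸ hη : η ∈ Z)).2 x hx)
  exact ⟨I, ε, h3, fun η η' hη hη' => (h4 η (h5 η hη)).trans (h4 η' (h5 η' hη')).symm⟩

end Cfsg.Agent.S4634
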