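import Cfsg.Statements.S4636
import Cfsg.Agent.Grp.Misc
-- import your own Cfsg.Agent.* helpers here

set_option autoImplicit false
open scoped Pointwise
open Cfsg

namespace Cfsg.Agent.S4636

/-- Let P be a nontrivial cyclic p-subgroup of the finite group G and Z its subgroup of order p. For every x outside N_G(Z), P meets its conjugate xPx⁻¹ trivially; consequently N_G(Q) ≤ N_G(Z) for every nontrivial subgroup Q of P. -/
theorem result {G : Type*} [Group G] [Finite G] (p : ℕ) [Fact p.Prime] (P : Subgroup G) (hP : IsPGroup p P) (hP1 : P ≠ ⊥) (hcyc : IsCyclic P) (Z : Subgroup G) (hZ : Z ≤ P) (hZcard : Nat.card Z = p) : (∀ x : G, x ∉ Subgroup.normalizer (Z : Set G) → P ⊓ MulAut.conj x • P = ⊥) ∧ ∀ Q : Subgroup G, Q ≤ P → Q ≠ ⊥ → Subgroup.normalizer (Q : Set G) ≤ Subgroup.normalizer (Z : Set G) := by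
  have key : ∀ x : G, x ∉ Subgroup.normalizer (Z : Set G) → P ⊓ MulAut.conj x • P = ⊥ := by
    intro x hx
    by_contra hne
    obtain ⟨y, hy, hyo⟩ := exists_orderOf_eq_prime_of_dvd_card
      (dvd_card_of_isPGroup_of_ne_bot hP.to_inf_left hne)
    have h1 : Subgroup.zpowers y = Z := eq_of_card_eq_of_isCyclic hcyc (Subgroup.zpowers_le.2 hy.1)
      hZ (by rw [Nat.card_zpowers, hyo, hZcard])
    have h2 : MulAut.conj x⁻¹ • Z = Z := by
      refine eq_of_card_eq_of_isCyclic hcyc ?_ hZ (card_conj_smul _ _)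
      rw [map_inv, ← Subgroup.subset_pointwise_smul_iff, ← h1, Subgroup.zpowers_le]
      exact hy.2
    exact hx (inv_mem_iff.1 (conj_smul_eq_iff_mem_normalizer.1 h2))
  refine ⟨key, fun Q hQ hQ1 x hx => by_contra fun hx' => hQ1 (eq_bot_iff.2 ?_)⟩
  rw [← key x hx']
  refine le_inf hQ ?_
  rw [← conj_smul_eq_iff_mem_normalizer.2 hx]
  exact Subgroup.pointwise_smul_le_pointwise_smul_iff.2 hQ

end Cfsg.Agent.S4636
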