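import Cfsg.Statements.S4638
import Cfsg.Agent.Blk.Perfect
import Cfsg.Agent.Blk.Klein


set_option autoImplicit false
open Cfsg

namespace Cfsg.Agent.S4638

open scoped ComplexConjugate in
/-- the data extracted from a block with Klein four defect group -/
theorem exists_frame {G : Type*} [Group G] [Finite G] {M : Ideal Cfsg.AlgInt}
    (hM : Cfsg.IsPModular 2 M) {B : Set (Cfsg.IrrCharacter G)} (hB : Cfsg.IsPBlock M B)
    {P : Subgroup G} (hPD : Cfsg.IsDefectGroup 2 M B P) (hV : IsKleinFour P) {n : ℕ}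
    (hn : (IsNilpotentBlock 2 M B ∧ n = 2) ∨ (¬ IsNilpotentBlock 2 M B ∧ n = 0)) :
    Nat.card B = 4 ∧ ∃ (D : Fin (n + 1) → IrrCharacter G → ℤ) (F : Fin (n + 1) → G → ℂ),
      SingFrame 2 M B (fun j χ => (D j χ : ℂ)) F ∧ (∀ j, ∀ χ ∈ B, D j χ = 1 ∨ D j χ = -1) ∧
      ∀ i j, i ≠ j → ∑ χ ∈ irrFinset B, D i χ * D j χ = 0 := by
  classical
  have := hM.fact_prime
  have := hM.charP
  obtain ⟨e, S⟩ := hPD.exists_starSetup hM hB
  have hab := kleinFour_le_centralizer hV
  refine ⟨S.klein_card hV, ?_⟩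
  have hfree := S.klein_free hV
  have key : ∀ (u : Fin (n + 1) → P) (a : Fin (n + 1) → ℂ), (∀ j, u j ≠ 1) → (∀ j, a j ∈ valO M) →
      (∀ χ ∈ B, ∀ x : G, 2 ∣ orderOf x →
        χ.1 x = ∑ j, a j * secProj 2 (u j : G) (S.below (u j)) χ.1 x) →
      (∀ i j, i ≠ j → ¬ PairFuse 2 P e (u i : G) (u j)) →
      ∃ (D : Fin (n + 1) → IrrCharacter G → ℤ) (F : Fin (n + 1) → G → ℂ),
      SingFrame 2 M B (fun j χ => (D j χ : ℂ)) F ∧ (∀ j, ∀ χ ∈ B, D j χ = 1 ∨ D j χ = -1) ∧
      ∀ i j, i ≠ j → ∑ χ ∈ irrFinset B, D i χ * D j χ = 0 := by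
    intro u a hu1 ha hdec hnf
    choose φ hφ _ using fun j => S.exists_isBasicSet_below hab
      (S.isNilpotentBlock_below_of_free hab hfree (hu1 j))
    have hint : ∀ j (χ : IrrCharacter G), ∃ m : ℤ,
        gdn (u j : G) (S.below (u j)) (fun _ _ => 1) χ.1 () = m := fun j χ =>
      exists_gdn_eq_int rfl (by rw [sq]; exact kleinFour_mul_self hV (u j).2)
        χ.isCharacter.isGeneralizedCharacter ()
    choose D hD using hint
    have hF := S.singFrame u hu1 ha hdec hφ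
    simp only [hD] at hF
    refine ⟨D, _, hF, fun j χ hχ => ?_, fun i j hij => ?_⟩
    · have := (S.klein_gdn hV (hφ j)).2 χ hχ
      rw [hD] at this
      exact_mod_cast this
    · have := S.sum_gdn_mul_conj_of_not_fuse (hnf i j hij) (hφ i) (hφ j)
      simp only [hD, map_intCast] at this
      exact_mod_cast this
  have := Fintype.ofFinite P
  have hcard : Fintype.card {v : P // v ≠ 1} = 3 := by
    rw [Fintype.card_subtype_compl, ← Nat.card_eq_fintype_card, hV.card_four]; simp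
  rcases hn with ⟨hnil, rfl⟩ | ⟨hnil, rfl⟩
  · have E : Fin 3 ≃ {v : P // v ≠ 1} := (Fintype.equivFinOfCardEq hcard).symm
    have he := (S.klein_isNilpotentBlock_iff hV).1 hnil
    refine key (fun j => (E j).1) (fun _ => 1) (fun j => (E j).2) (fun _ => one_mem _)
      (fun χ hχ x hx => ?_) (fun i j hij h => hij ?_)
    · rw [S.apply_eq_sum_secProj_of_dvd hχ hx, ← E.sum_comp]
      refine Finset.sum_congr rfl fun j _ => ?_
      rw [S.fuseCard_of_free hab hfree (E j).2, he]; simp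
    · have h1 := S.isConj_of_nilpotent hnil _ _ h
      have := isMulCommutative_of_le_centralizer hab
      apply E.injective
      apply Subtype.ext
      obtain ⟨c, hc⟩ := isConj_iff.1 h1
      rw [← hc, mul_comm' c, mul_inv_cancel_right]
  · have he : (Subgroup.centralizer (P : Set G)).relIndex (pairStab ⊤ P e) = 3 :=
      (S.klein_inertialIndex hV).resolve_left fun h => hnil ((S.klein_isNilpotentBlock_iff hV).2 h)
    obtain ⟨⟨u, hu⟩⟩ : Nonempty {v : P // v ≠ 1} := Fintype.card_pos_iff.1 (by omega)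
    refine key (fun _ => u) (fun _ => 1) (fun _ => hu) (fun _ => one_mem _)
      (fun χ hχ x hx => ?_) (fun i j hij => absurd (Subsingleton.elim (α := Fin 1) i j) hij)
    have h1 := congrFun (S.eq_add_secProj_of_fuse hu (fun v hv => S.klein_fuse hV he hu hv)
      (blockPart_irr_of_mem hχ)) x
    rw [Pi.add_apply, pRegularPart_of_dvd hx, zero_add] at h1
    simpa using h1

/-- rows of a `4 × 3` sign matrix with orthogonal columns -/
theorem hadamard {α : Type*} (s : Finset α) (hs : s.card = 4) (D : Fin 3 → α → ℤ)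
    (h1 : ∀ j, ∀ a ∈ s, D j a = 1 ∨ D j a = -1)
    (h2 : ∀ i j, i ≠ j → ∑ a ∈ s, D i a * D j a = 0) (x y : ℤ) (hx : x = 1 ∨ x = -1)
    (hy : y = 1 ∨ y = -1) :
    ∃! a, a ∈ s ∧ D 0 a * D 1 a = x ∧ D 0 a * D 2 a = y := by
  classical
  have e1 : ∑ a ∈ s, (1 + x * (D 0 a * D 1 a)) * (1 + y * (D 0 a * D 2 a)) = 4 := by
    have : ∀ a ∈ s, (1 + x * (D 0 a * D 1 a)) * (1 + y * (D 0 a * D 2 a)) =
        1 + x * (D 0 a * D 1 a) + y * (D 0 a * D 2 a) + x * y * (D 1 a * D 2 a) := by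
      intro a ha
      rcases h1 0 a ha with h | h <;> rw [h] <;> ring
    rw [Finset.sum_congr rfl this]
    simp only [Finset.sum_add_distrib, ← Finset.mul_sum, h2 0 1 (by decide), h2 0 2 (by decide),
      h2 1 2 (by decide)]
    simp [hs]
  have e2 : ∀ a ∈ s, (1 + x * (D 0 a * D 1 a)) * (1 + y * (D 0 a * D 2 a)) =
      if D 0 a * D 1 a = x ∧ D 0 a * D 2 a = y then 4 else 0 := by
    intro a ha
    rcases h1 0 a ha with h | h <;> rcases h1 1 a ha with h' | h' <;>
      rcases h1 2 a ha with h'' | h'' <;> rcases hx with rfl | rfl <;> rcases hy with rfl | rfl <;>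
      simp [h, h', h'']
  rw [Finset.sum_congr rfl e2, ← Finset.sum_filter, Finset.sum_const, nsmul_eq_mul] at e1
  have e3 : (s.filter fun a => D 0 a * D 1 a = x ∧ D 0 a * D 2 a = y).card = 1 := by omega
  obtain ⟨a, ha⟩ := Finset.card_eq_one.1 e3
  refine ⟨a, ?_, fun b hb => ?_⟩
  · have : a ∈ s.filter fun a => D 0 a * D 1 a = x ∧ D 0 a * D 2 a = y := by
      rw [ha]; simp
    exact Finset.mem_filter.1 this
  · have : b ∈ s.filter fun a => D 0 a * D 1 a = x ∧ D 0 a * D 2 a = y := Finset.mem_filter.2 hb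
    rwa [ha, Finset.mem_singleton] at this

theorem mul_sign {x y : ℤ} (hx : x = 1 ∨ x = -1) (hy : y = 1 ∨ y = -1) :
    x * y = 1 ∨ x * y = -1 := by
  rcases hx with rfl | rfl <;> rcases hy with rfl | rfl <;> simp


/-- Let B be a block of the finite group G relative to a maximal ideal M of the algebraic integers containing 2, with a Klein four defect group P, and let c be its Brauer correspondent: the block of N_G(P) with defect group P that induces B. Then there is a perfect isometry from c onto B. -/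
theorem result {G : Type*} [Group G] [Finite G] (M : Ideal Cfsg.AlgInt) (hM : Cfsg.IsPModular 2 M) (B : Set (Cfsg.IrrCharacter G)) (hB : Cfsg.IsPBlock M B) (P : Subgroup G) (hPD : Cfsg.IsDefectGroup 2 M B P) (hV : IsKleinFour P) (c : Set (Cfsg.IrrCharacter (Subgroup.normalizer (P : Set G)))) (hcD : Cfsg.IsDefectGroup 2 M c (P.subgroupOf (Subgroup.normalizer (P : Set G)))) (hc : Cfsg.IsInducedBlock M (Subgroup.normalizer (P : Set G)) c B) : ∃ (I : Cfsg.IrrCharacter (Subgroup.normalizer (P : Set G)) → Cfsg.IrrCharacter G) (ε : Cfsg.IrrCharacter (Subgroup.normalizer (P : Set G)) → ℤ), Cfsg.IsPerfectIsometry 2 M c B I ε := by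
  classical
  have hPN : P ≤ Subgroup.normalizer (P : Set G) := Subgroup.le_normalizer
  have hV' : IsKleinFour (P.subgroupOf (Subgroup.normalizer (P : Set G))) := by
    have E := Subgroup.subgroupOfEquivOfLe hPN
    exact ⟨by rw [Nat.card_congr E.toEquiv, hV.card_four],
      by rw [Monoid.exponent_eq_of_mulEquiv E, hV.exponent_two]⟩
  have hiff := hc.isNilpotentBlock_iff_of_normalizer_le hM hPD (kleinFour_le_centralizer hV)
    le_rfl hcD
  by_cases hnil : IsNilpotentBlock 2 M B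
  · obtain ⟨h4, D, F, hF, h1, h2⟩ := exists_frame hM hB hPD hV (Or.inl ⟨hnil, rfl⟩)
    obtain ⟨h4', D', F', hF', h1', h2'⟩ :=
      exists_frame hM hc.1 hcD hV' (Or.inl ⟨hiff.2 hnil, rfl⟩)
    have H := hadamard (irrFinset B) (by rw [card_irrFinset, h4]) D
      (fun j a ha => h1 j a (mem_irrFinset.1 ha)) h2
    have H' := hadamard (irrFinset c) (by rw [card_irrFinset, h4']) D'
      (fun j a ha => h1' j a (mem_irrFinset.1 ha)) h2'
    have hex : ∀ η, ∃ χ : IrrCharacter G, η ∈ c → χ ∈ B ∧ D 0 χ * D 1 χ = D' 0 η * D' 1 η ∧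
        D 0 χ * D 2 χ = D' 0 η * D' 2 η := by
      intro η
      by_cases hη : η ∈ c
      · obtain ⟨χ, hχ, -⟩ := H _ _ (mul_sign (h1' 0 η hη) (h1' 1 η hη))
          (mul_sign (h1' 0 η hη) (h1' 2 η hη))
        exact ⟨χ, fun _ => ⟨mem_irrFinset.1 hχ.1, hχ.2⟩⟩
      · exact ⟨IrrCharacter.triv G, fun h => absurd h hη⟩
    choose I hI using hex
    refine ⟨I, fun η => D 0 (I η) * D' 0 η, hF.isPerfectIsometry hM hF' ⟨fun η hη => (hI η hη).1,
      fun η hη η' hη' h => ?_, fun χ hχ => ?_⟩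
      (fun η hη => mul_sign (h1 0 _ (hI η hη).1) (h1' 0 η hη)) fun η hη j => ?_⟩
    · refine (H' _ _ (mul_sign (h1' 0 η hη) (h1' 1 η hη))
        (mul_sign (h1' 0 η hη) (h1' 2 η hη))).unique ⟨mem_irrFinset.2 hη, rfl, rfl⟩
        ⟨mem_irrFinset.2 hη', ?_, ?_⟩
      · rw [← (hI η' hη').2.1, ← h, (hI η hη).2.1]
      · rw [← (hI η' hη').2.2, ← h, (hI η hη).2.2]
    · obtain ⟨η, hη, -⟩ := H' _ _ (mul_sign (h1 0 χ hχ) (h1 1 χ hχ))
        (mul_sign (h1 0 χ hχ) (h1 2 χ hχ))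
      have hη' := mem_irrFinset.1 hη.1
      refine ⟨η, hη', (H _ _ (mul_sign (h1 0 χ hχ) (h1 1 χ hχ))
        (mul_sign (h1 0 χ hχ) (h1 2 χ hχ))).unique ⟨mem_irrFinset.2 (hI η hη').1, ?_, ?_⟩
        ⟨mem_irrFinset.2 hχ, rfl, rfl⟩⟩
      · rw [(hI η hη').2.1, hη.2.1]
      · rw [(hI η hη').2.2, hη.2.2]
    · rw [map_intCast, ← Int.cast_mul, Int.cast_inj]
      obtain ⟨hb, e1, e2⟩ := hI η hη
      have s1 : D 0 (I η) * D 0 (I η) = 1 := by rcases h1 0 _ hb with h | h <;> simp [h]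
      have s2 : D' 0 η * D' 0 η = 1 := by rcases h1' 0 _ hη with h | h <;> simp [h]
      fin_cases j
      · show D 0 (I η) * D' 0 η * D' 0 η = D 0 (I η)
        rw [mul_assoc, s2, mul_one]
      · show D 0 (I η) * D' 0 η * D' 1 η = D 1 (I η)
        rw [mul_assoc, ← e1, ← mul_assoc, s1, one_mul]
      · show D 0 (I η) * D' 0 η * D' 2 η = D 2 (I η)
        rw [mul_assoc, ← e2, ← mul_assoc, s1, one_mul]
  · obtain ⟨h4, D, F, hF, h1, -⟩ := exists_frame hM hB hPD hV (Or.inr ⟨hnil, rfl⟩)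
    obtain ⟨h4', D', F', hF', h1', -⟩ :=
      exists_frame hM hc.1 hcD hV' (Or.inr ⟨fun h => hnil (hiff.1 h), rfl⟩)
    obtain ⟨E⟩ : Nonempty (c ≃ B) := Finite.card_eq.1 (h4'.trans h4.symm)
    let I : IrrCharacter (Subgroup.normalizer (P : Set G)) → IrrCharacter G :=
      fun η => if h : η ∈ c then (E ⟨η, h⟩).1 else IrrCharacter.triv G
    have hI : ∀ η (h : η ∈ c), I η = (E ⟨η, h⟩).1 := fun η h => dif_pos h
    have hmem : ∀ η ∈ c, I η ∈ B := fun η h => by rw [hI η h]; exact (E ⟨η, h⟩).2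
    refine ⟨I, fun η => D 0 (I η) * D' 0 η, hF.isPerfectIsometry hM hF' ⟨hmem,
      fun η hη η' hη' h => ?_, fun χ hχ => ?_⟩
      (fun η hη => mul_sign (h1 0 _ (hmem η hη)) (h1' 0 η hη)) fun η hη j => ?_⟩
    · rw [hI η hη, hI η' hη'] at h
      exact congrArg Subtype.val (E.injective (Subtype.ext h))
    · refine ⟨(E.symm ⟨χ, hχ⟩).1, (E.symm ⟨χ, hχ⟩).2, ?_⟩
      rw [hI _ (E.symm ⟨χ, hχ⟩).2]
      simp
    · rw [map_intCast, ← Int.cast_mul, Int.cast_inj]
      have s2 : D' 0 η * D' 0 η = 1 := by rcases h1' 0 _ hη with h | h <;> simp [h]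
      rw [Subsingleton.elim (α := Fin 1) j 0, mul_assoc]
      exact (congrArg _ s2).trans (mul_one _)

end Cfsg.Agent.S4638
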