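import Cfsg.Statements.S4639
import Cfsg.Agent.Blk.GlueGram
import Cfsg.Agent.Blk.PairBridge

set_option autoImplicit false
open Cfsg

namespace Cfsg.Agent.S4639

/-- Let B be a block of the finite group G relative to a maximal ideal M of the algebraic integers containing the prime p, with a nontrivial commutative defect group P. Let c be a block of C_G(P) inducing B, T the stabilizer of c in N_G(P) and e the index of C_G(P) in T. Suppose that T/C_G(P) is commutative (all commutators of elements of T lie in C_G(P)) and acts freely on the non-identity elements of P (an element of T fixing a non-identity element of P under conjugation lies in C_G(P)). Then B has at most e + (#P − 1)/e irreducible characters and p-regular rank at most e; equality holds in the first bound exactly when it holds in the second; and both equalities hold when e ≤ 3. -/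
theorem result {G : Type*} [Group G] [Finite G] (p : ℕ) [Fact p.Prime] (M : Ideal Cfsg.AlgInt) (hM : Cfsg.IsPModular p M) (B : Set (Cfsg.IrrCharacter G)) (hB : Cfsg.IsPBlock M B) (P : Subgroup G) (hPD : Cfsg.IsDefectGroup p M B P) (hP1 : P ≠ ⊥) (hPab : ∀ x ∈ P, ∀ y ∈ P, x * y = y * x) (c : Set (Cfsg.IrrCharacter (Subgroup.centralizer (P : Set G)))) (hc : Cfsg.IsInducedBlock M (Subgroup.centralizer (P : Set G)) c B) (T : Subgroup G) (hT : ∀ g : G, g ∈ T ↔ (g ∈ Subgroup.normalizer (P : Set G) ∧ Cfsg.StabilizesBlock (Subgroup.centralizer (P : Set G)) c g)) (e : ℕ) (he : (Subgroup.centralizer (P : Set G)).relIndex T = e) (hEab : ∀ g ∈ T, ∀ h ∈ T, g * h * g⁻¹ * h⁻¹ ∈ Subgroup.centralizer (P : Set G)) (hfree : ∀ g ∈ T, ∀ x ∈ P, x ≠ 1 → g * x * g⁻¹ = x → g ∈ Subgroup.centralizer (P : Set G)) : Nat.card B ≤ e + (Nat.card P - 1) / e ∧ Cfsg.blockRank p B ≤ e ∧ (Nat.card B = e + (Nat.card P - 1) / e ↔ Cfsg.blockRank p B = e) ∧ (e ≤ 3 → Nat.card B = e + (Nat.card P - 1) / e ∧ Cfsg.blockRank p B = e) := by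
  have := Fintype.ofFinite G
  have S := hc.starSetup hM hPD
  have hTe : T = pairStab ⊤ P (subIdem M _ c) := hc.1.eq_stabGA hM hT
  subst hTe
  have hab : P ≤ Subgroup.centralizer (P : Set G) := fun x hx y hy => hPab y hy x hx
  obtain ⟨h1, h2⟩ := S.blockRank_le_of_free hab hfree hP1
  have h3 := S.card_mul_of_free hab hfree
  have h4 : 0 < e := he ▸ Nat.pos_of_ne_zero Subgroup.index_ne_zero_of_finite
  have h5 := blockRank_le_card (p := p) B
  rw [he] at h1 h2 h3
  obtain ⟨t, ht⟩ := Nat.exists_eq_add_of_le h5
  have h6 : (Nat.card P - 1) / e = t := by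
    rw [ht, add_mul] at h3
    rw [show Nat.card P - 1 = t * e by omega, Nat.mul_div_cancel _ h4]
  rw [h6]
  exact ⟨by omega, h1, by omega, fun h => by have := h2 h; omega⟩

end Cfsg.Agent.S4639
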