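import Cfsg.Statements.S4640
import Cfsg.Agent.Blk.AbelCover

set_option autoImplicit false
open Cfsg

namespace Cfsg.Agent.S4640

/-- Let N be a normal subgroup of the finite group G of index a power of the prime p, M a maximal ideal of the algebraic integers containing p, b a block of N stabilized by every element of G, and B a block of G covering b (some member of B has a member of b as a constituent of its restriction to N). Suppose that B has a commutative defect group P. Then G = NP and P ∩ N is a defect group of b; every member of B restricts to a member of b; every member of b is the restriction of exactly [G : N] members of B; B contains exactly [G : N] times as many irreducible characters as b; and B and b have the same p-regular rank. -/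
theorem result {G : Type*} [Group G] [Fintype G] (p : ℕ) [Fact p.Prime] (M : Ideal Cfsg.AlgInt) (hM : Cfsg.IsPModular p M) (N : Subgroup G) [N.Normal] [Fintype N] (hNi : ∃ k : ℕ, N.index = p ^ k) (b : Set (Cfsg.IrrCharacter N)) (hb : Cfsg.IsPBlock M b) (hstab : ∀ g : G, Cfsg.StabilizesBlock N b g) (B : Set (Cfsg.IrrCharacter G)) (hB : Cfsg.IsPBlock M B) (hcov : ∃ χ ∈ B, ∃ θ ∈ b, Cfsg.classInner (fun n : N => (χ : G → ℂ) n) (θ : N → ℂ) ≠ 0) (P : Subgroup G) (hPD : Cfsg.IsDefectGroup p M B P) (hPab : ∀ x ∈ P, ∀ y ∈ P, x * y = y * x) : N ⊔ P = ⊤ ∧ Cfsg.IsDefectGroup p M b ((P ⊓ N).subgroupOf N) ∧ (∀ χ ∈ B, ∃ θ ∈ b, ∀ n : N, (χ : G → ℂ) n = (θ : N → ℂ) n) ∧ (∀ θ ∈ b, Nat.card {χ : Cfsg.IrrCharacter G // χ ∈ B ∧ ∀ n : N, (χ : G → ℂ) n = (θ : N → ℂ) n} = N.index) ∧ Nat.card B = N.index * Nat.card b ∧ Cfsg.blockRank p B = Cfsg.blockRank p b := by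
  have hG : IsPGroup p (G ⧸ N) := by
    obtain ⟨k, hk⟩ := hNi
    exact IsPGroup.of_card hk
  have hs : Cfsg.blockStab b = ⊤ := by
    rw [eq_top_iff]
    exact fun g _ => (hb.mem_blockStab_iff_stabilizesBlock hM).2 (hstab g)
  have hab : P ≤ Subgroup.centralizer (P : Set G) := fun x hx y hy => hPab y hy x hx
  have hsup := hb.sup_eq_top_of_stable hM hG hs hB hcov hPD
  have hcomm := Cfsg.commutator_le_of_sup_eq_top_of_comm hsup hab
  have h1 : ∀ χ ∈ B, ∃ θ ∈ b, ∀ n : N, (χ : G → ℂ) n = (θ : N → ℂ) n :=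
    fun χ hχ => hb.exists_res_eq_of_comm hM hG hs hB hcov hPD hab hχ
  have h2 : ∀ θ ∈ b, ∃ χ ∈ B, ∀ n : N, (χ : G → ℂ) n = (θ : N → ℂ) n := by
    intro θ hθ
    obtain ⟨χ, hχ, hχθ⟩ := hB.exists_over_of_covers hM hb hcov hθ
    obtain ⟨θ', -, h'⟩ := h1 χ hχ
    have : θ' = θ := by
      by_contra hne
      rw [funext h', Cfsg.IrrCharacter.classInner_of_ne hne] at hχθ
      exact hχθ rfl
    exact ⟨χ, hχ, this ▸ h'⟩
  have h3 : ∀ θ ∈ b, Nat.card {χ : Cfsg.IrrCharacter G // χ ∈ B ∧ ∀ n : N, (χ : G → ℂ) n = (θ : N → ℂ) n} = N.index := by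
    intro θ hθ
    obtain ⟨χ, -, hχ⟩ := h2 θ hθ
    have h4 := Cfsg.card_extensions χ.isCharacter hχ
    rw [sup_eq_left.2 hcomm] at h4
    rw [← h4]
    refine Nat.card_congr (Equiv.subtypeEquivRight fun ψ => ⟨fun h => h.2, fun h => ⟨?_, h⟩⟩)
    refine hB.mem_of_over_of_isPGroup hM hG hb hcov hθ ?_
    rw [Cfsg.classInner_res_of_eq h]
    exact one_ne_zero
  refine ⟨hsup, ?_, h1, h3, Cfsg.card_eq_mul_of_res_fibers h1 h3,
    Cfsg.blockRank_eq_of_res_eq (fun g hg => Cfsg.mem_of_not_dvd_orderOf_of_isPGroup hG hg) h1 h2⟩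
  rw [Subgroup.inf_subgroupOf_right]
  exact hB.isDefectGroup_inf_of_stable hM hb hs hcov hPD

end Cfsg.Agent.S4640
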