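import Cfsg.Statements.S4641
import Cfsg.Agent.Mod.BrauerDeg
import Cfsg.Agent.Blk.Defect

set_option autoImplicit false
open Cfsg

namespace Cfsg.Agent.S4641

/-- Let B be a block of the finite group G relative to a maximal ideal M of the algebraic integers containing the prime p, let p^a be the p-part of the order of G and p^d the order of a defect group D of B, and let g be the greatest common divisor of the degrees of the members of B. Then the p-part of g is exactly p^(a−d), and writing g = p^(a−d)·u there is a positive integer v, prime to p and at least the p-regular rank of B (its number of irreducible Brauer characters), with Σ_{χ ∈ B} χ(1)² = p^(2a−d)·u²·v. -/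
theorem result {G : Type*} [Group G] [Finite G] (p : ℕ) [Fact p.Prime] (M : Ideal Cfsg.AlgInt) (hM : Cfsg.IsPModular p M) (B : Set (Cfsg.IrrCharacter G)) (hB : Cfsg.IsPBlock M B) (D : Subgroup G) (hD : Cfsg.IsDefectGroup p M B D) (a d : ℕ) (ha : (Nat.card G).factorization p = a) (hd : Nat.card D = p ^ d) (g : ℕ) (hg1 : ∀ χ ∈ B, g ∣ Cfsg.charDegree (χ : G → ℂ)) (hg2 : ∀ g' : ℕ, (∀ χ ∈ B, g' ∣ Cfsg.charDegree (χ : G → ℂ)) → g' ∣ g) : g.factorization p = a - d ∧ ∃ v : ℕ, 0 < v ∧ ¬ p ∣ v ∧ Cfsg.blockRank p B ≤ v ∧ ∑ᶠ χ ∈ B, Cfsg.charDegree (χ : G → ℂ) ^ 2 = p ^ (2 * a - d) * (g / p ^ (a - d)) ^ 2 * v := by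
  classical
  have hp : p.Prime := Fact.out
  have hdd : d = blockDefect p B := by
    have := hD.card_eq hM hB
    rw [hd] at this
    exact Nat.pow_right_injective hp.two_le this
  have hda : d ≤ a := by rw [hdd, ← ha]; exact blockDefect_le
  obtain ⟨χ0, hχ0, h0⟩ := exists_blockHeight_eq_zero (hB.nonempty hM) p
  have hg0 : g ≠ 0 := by
    rintro rfl
    exact χ0.charDegree_pos.ne' (zero_dvd_iff.1 (hg1 χ0 hχ0))
  have hdvd : p ^ (a - d) ∣ g := by
    refine hg2 _ fun χ hχ => ?_
    rw [← pow_mul_redDeg (p := p) hχ, ha, ← hdd]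
    exact Dvd.intro _ rfl
  have hfac : g.factorization p = a - d := by
    apply le_antisymm
    · have h1 := (Nat.factorization_le_iff_dvd hg0 χ0.charDegree_pos.ne').2 (hg1 χ0 hχ0) p
      have h2 := factorization_charDegree_eq (p := p) hχ0
      omega
    · exact (hp.pow_dvd_iff_le_factorization hg0).1 hdvd
  refine ⟨hfac, ?_⟩
  obtain ⟨u, hu⟩ := hdvd
  have hpu : ¬ p ∣ u := by
    intro h
    have : p ^ (a - d + 1) ∣ g := by rw [hu, pow_succ]; exact Nat.mul_dvd_mul_left _ h
    have := (hp.pow_dvd_iff_le_factorization hg0).1 this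
    omega
  have hgu : g / p ^ (a - d) = u := by
    rw [hu]; exact Nat.mul_div_cancel_left _ (pow_pos hp.pos _)
  obtain ⟨s, φ, f, h⟩ := (hB.isBlockUnion hM).exists_isBrauerData hM
  have h1 : ∀ i : s, ∃ w, projDeg M B i.1 = p ^ a * u * w := by
    intro i
    have h2 := h.pow_dvd_projDeg hM (hB.isBlockUnion hM) i
    rw [ha] at h2
    have h3 : u ∣ projDeg M B i.1 :=
      (Dvd.intro_left _ hu.symm).trans (IsBrauerData.dvd_projDeg hg1 i.1)
    exact Nat.Coprime.mul_dvd_of_dvd_of_dvd
      (Nat.Coprime.pow_left _ ((Nat.Prime.coprime_iff_not_dvd hp).2 hpu)) h2 h3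
  have h2 : ∀ i : s, ∃ w, f i = p ^ (a - d) * u * w := fun i => by
    rw [← hu]; exact h.dvd_deg hp hg1 i
  choose w hw using h1
  choose w' hw' using h2
  have hsum : ∑ χ ∈ irrFinset B, charDegree χ.1 ^ 2
      = p ^ (2 * a - d) * u ^ 2 * ∑ i, w i * w' i := by
    rw [h.sum_charDegree_sq hp, Finset.mul_sum]
    refine Finset.sum_congr rfl fun i _ => ?_
    rw [hw, hw', show 2 * a - d = a + (a - d) by omega, pow_add]
    ring
  have hpos : ∀ i, 0 < w i * w' i := by
    intro i
    refine Nat.mul_pos (Nat.pos_of_ne_zero fun h0 => ?_) (Nat.pos_of_ne_zero fun h0 => ?_)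
    · have := h.projDeg_pos i
      rw [hw, h0, mul_zero] at this
      exact lt_irrefl _ this
    · have := h.pos i
      rw [hw', h0, mul_zero] at this
      exact lt_irrefl _ this
  have hle : blockRank p B ≤ ∑ i, w i * w' i := by
    rw [← h.basic.card_eq, ← Finset.card_univ, Finset.card_eq_sum_ones]
    exact Finset.sum_le_sum fun i _ => hpos i
  have hfs := hB.factorization_sum_charDegree_sq hM
  rw [ha, ← hdd] at hfs
  have hne : ∑ χ ∈ irrFinset B, charDegree χ.1 ^ 2 ≠ 0 :=
    (Finset.sum_pos' (fun _ _ => Nat.zero_le _)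
      ⟨χ0, mem_irrFinset.2 hχ0, pow_pos χ0.charDegree_pos 2⟩).ne'
  refine ⟨∑ i, w i * w' i, ?_, ?_, hle, ?_⟩
  · refine Nat.pos_of_ne_zero fun h0 => hne ?_
    rw [hsum, h0, mul_zero]
  · intro hv
    have : p ^ (2 * a - d + 1) ∣ ∑ χ ∈ irrFinset B, charDegree χ.1 ^ 2 := by
      rw [hsum, pow_succ, mul_assoc]
      exact Nat.mul_dvd_mul_left _ (Dvd.dvd.mul_left hv _)
    have := (hp.pow_dvd_iff_le_factorization hne).1 this
    omega
  · rw [finsum_mem_irr, hgu, hsum]

end Cfsg.Agent.S4641
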