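import Cfsg.Statements.S4642
import Cfsg.Agent.CT.RealOdd
import Cfsg.Agent.Blk.GenDec
import Cfsg.Agent.Blk.Star

set_option autoImplicit false
open Cfsg

namespace Cfsg.Agent.S4642

open scoped ComplexConjugate Pointwise commutatorElement

theorem centralizer_pCore_le_of_range {G X : Type*} [Group G] [Finite G] [Group X] [Finite X]
    {p : ℕ} [Fact p.Prime] (h : Subgroup.centralizer (pCore p G : Set G) ≤ pCore p G)
    {R : Subgroup G} (hR : IsPGroup p R) (φ : X →* G) (hφ : Function.Injective φ)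
    (hr : φ.range = Subgroup.centralizer (R : Set G)) :
    Subgroup.centralizer (pCore p X : Set X) ≤ pCore p X := by
  refine le_pCore inferInstance fun g => ?_
  have h1 : pRegPart p (g : X) ∈ Subgroup.centralizer (pCore p X : Set X) := pRegPart_mem p g.2
  have h2 : ¬ p ∣ orderOf (φ (pRegPart p (g : X))) := by
    rw [orderOf_injective φ hφ]
    exact not_dvd_orderOf_pRegPart _
  have h3 := thompson_PxQ (Q := Subgroup.zpowers (φ (pRegPart p (g : X)))) (isPGroup_pCore p G) hR
    (by rwa [Nat.card_zpowers]) Subgroup.le_normalizer_of_normal Subgroup.le_normalizer_of_normal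
    (Subgroup.zpowers_le.2 (hr ▸ ⟨_, rfl⟩)) (by
      rintro v ⟨hv1, hv2⟩
      rw [← hr] at hv2
      obtain ⟨y, rfl⟩ := hv2
      rw [centralizer_zpowers, Subgroup.mem_centralizer_singleton_iff, ← map_mul, ← map_mul,
        h1 y (le_pCore inferInstance ((isPGroup_pCore p G).comap_of_injective φ hφ) hv1)])
  obtain ⟨k, hk⟩ := exists_orderOf_eq_pow_of_mem (isPGroup_pCore p G)
    (h (h3 (Subgroup.mem_zpowers _)))
  have h4 : pRegPart p (g : X) = 1 := by
    rcases k with _ | k
    · exact hφ ((orderOf_eq_one_iff.1 hk).trans (map_one φ).symm)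
    · exact absurd (hk ▸ dvd_pow_self p k.succ_ne_zero) h2
  obtain ⟨k, hk⟩ := exists_orderOf_pPart (p := p) (g : X)
  refine ⟨k, Subtype.ext ?_⟩
  rw [Subgroup.coe_pow, ← pPart_mul_pRegPart p (g : X), h4, mul_one, ← hk, pow_orderOf_eq_one,
    Subgroup.coe_one]

theorem classInner_ez_mul {Γ : Type*} [Group Γ] [Finite Γ] {D U K : Subgroup Γ} [Fintype D]
    (hDU : D ≤ U) (hDK : D ≤ K) (hN : U ≤ Subgroup.normalizer (D : Set Γ))
    (hN' : U ≤ Subgroup.normalizer (K : Set Γ)) {ξ : IrrCharacter U} {θ : IrrCharacter K}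
    (hθ : U ≤ ezStab θ) {γ : IrrCharacter D} (h : rmult ξ γ ≠ 0) :
    classInner (fun d : D => ξ.ez d) (fun d : D => θ.ez d) * charDegree γ.1 =
      rmult θ γ * charDegree ξ.1 := by
  rw [(ξ.isCharacter_ez hDU).isClassFunction.classInner_eq_sum
    (θ.isCharacter_ez hDK).isClassFunction, charDegree_eq_sum_rmult hDU, Finset.sum_mul,
    Nat.cast_sum, Finset.mul_sum]
  refine Finset.sum_congr rfl fun β _ => ?_
  rw [← cast_rmult hDU, ← cast_rmult hDK, Complex.conj_natCast, Nat.cast_mul]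
  by_cases h1 : rmult ξ β = 0
  · simp [h1]
  · obtain ⟨u, hu, rfl⟩ := clifford_exists_cj hDU hN h h1
    rw [rmult_cj_right hDK θ γ (hN' hu) (hθ hu), γ.charDegree_cj]
    ring

theorem not_dvd_rmult_of_isInducedBlock {G : Type*} [Group G] [Finite G] {p : ℕ}
    {M : Ideal AlgInt} (hM : IsPModular p M) {K C : Subgroup G} [K.Normal] [Fintype K]
    (hK : ¬ p ∣ Nat.card K) {θ : IrrCharacter K} (hθ : charInertia θ.1 = ⊤)
    {f : Set (IrrCharacter C)} (hf : IsInducedBlock M C f (irrOver K.subtype θ.1))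
    {ξ : IrrCharacter C} (hξ : ξ ∈ f) {γ : IrrCharacter ↥(K ⊓ C)} (h : rmult ξ γ ≠ 0) :
    ¬ p ∣ rmult θ γ := by
  classical
  have := Fintype.ofFinite G
  have h1 := hf.lam_gaTrunc_idemK hM hξ
  rw [← toK_idemO, ← red_omega_gaTrunc_toC _ _ (IsFixedGA.of_mem_center (idemO_mem_center _) C),
    (hf.2.1.isBlockUnion hM).toC_idemO hM] at h1
  have h2 := red_ne_zero_iff.1 (h1.trans_ne one_ne_zero)
  have h3 : ∀ g, blockCoeff (irrOver K.subtype θ.1) g =
      (Nat.card K : ℂ)⁻¹ * (θ.1 1 * conj (θ.ez g)) := fun g => by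
    by_cases hg : g ∈ K
    · rw [θ.ez_of_mem hg]
      exact blockCoeff_irrOver_coe_of_invariant hθ ⟨g, hg⟩
    · rw [blockCoeff_irrOver_of_notMem θ hg, θ.ez_of_notMem hg, map_zero, mul_zero, mul_zero]
  have h4 : ∑ c : C, ξ.1 c * conj (θ.ez c) = ∑ d : ↥(K ⊓ C), ξ.ez d * conj (θ.ez d) := by
    simp only [← ξ.ez_coe]
    rw [sum_subgroup_eq_sum_ite C fun g => ξ.ez g * conj (θ.ez g),
      sum_subgroup_eq_sum_ite (K ⊓ C) fun g => ξ.ez g * conj (θ.ez g)]
    refine Finset.sum_congr rfl fun g _ => ?_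
    by_cases h5 : g ∈ K
    · simp [h5]
    · simp [h5, θ.ez_of_notMem h5]
  have h5 := classInner_ez_mul inf_le_right inf_le_left (fun t ht =>
    Subgroup.inf_normalizer_le_normalizer_inf ⟨Subgroup.le_normalizer_of_normal
      (Subgroup.mem_top t), Subgroup.le_normalizer ht⟩) Subgroup.le_normalizer_of_normal
    (θ := θ) (by rw [ezStab_eq_charInertia, hθ]; exact le_top) h
  have h6 : omega ξ.1 (gaTrunc ℂ C (idemC (irrOver K.subtype θ.1))) *
      ((Nat.card K * charDegree γ.1 : ℕ) : ℂ) =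
      ((charDegree θ.1 * Nat.card ↥(K ⊓ C) : ℕ) : ℂ) * rmult θ γ := by
    have h7 : (Nat.card K : ℂ) ≠ 0 := Nat.cast_ne_zero.2 Nat.card_pos.ne'
    have h8 : (Nat.card ↥(K ⊓ C) : ℂ) ≠ 0 := Nat.cast_ne_zero.2 Nat.card_pos.ne'
    have h9 := ξ.one_ne_zero
    rw [classInner, ← h4, ← ξ.one_eq_charDegree] at h5
    rw [omega_eq_sum]
    simp only [coeff_gaTrunc, coeff_idemC, h3]
    rw [Finset.sum_congr rfl (g := fun c : C => (Nat.card K : ℂ)⁻¹ * θ.1 1 / ξ.1 1 *
      (ξ.1 c * conj (θ.ez c))) (fun c _ => by ring), ← Finset.mul_sum, Nat.cast_mul, Nat.cast_mul,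
      ← θ.one_eq_charDegree]
    field_simp at h5 ⊢
    rw [h5]
  intro h7
  have h8 := congrArg (valM M) h6
  rw [map_mul, map_mul, h2, hM.valM_natCast_eq_one_iff.2 (hM.prime.not_dvd_mul hK fun h9 =>
    hK ((h9.trans γ.charDegree_dvd_card).trans (Subgroup.card_dvd_of_le inf_le_left))),
    one_mul] at h8
  exact (mul_lt_one_of_nonneg_of_lt_one_right (mem_valO_iff.1 (natCast_mem_valO _)) zero_le
    (hM.valM_natCast_lt_one_iff.2 h7)).ne h8.symm

/-- Let G be a finite group, p a prime, M a maximal ideal of the algebraic integers containing p, K the largest normal subgroup of G of order prime to p, and L the preimage in G of the largest normal p-subgroup of G/K. Let Q be a Sylow p-subgroup of L and suppose C_G(Q) ≤ L. Let θ be an irreducible character of K invariant under conjugation by every element of G, and let B be the set of irreducible characters of G whose restriction to K contains θ. Then B is a block of G, every Sylow p-subgroup of G is a defect group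 of B, and B is of principal type: for every p-subgroup R of G exactly one block of C_G(R) induces B. -/
theorem result {G : Type*} [Group G] [Fintype G] (p : ℕ) [Fact p.Prime] (M : Ideal Cfsg.AlgInt) (hM : Cfsg.IsPModular p M) (K : Subgroup G) (hK : K = Cfsg.pPrimeCore p G) [Fintype K] (L : Subgroup G) (hL : L = Cfsg.pPrimePCore p G) (Q : Subgroup G) (hQL : Q ≤ L) (hQp : IsPGroup p Q) (hQS : ¬ p ∣ Q.relIndex L) (hCQ : Subgroup.centralizer (Q : Set G) ≤ L) (θ : Cfsg.IrrCharacter K) (hθ : ∀ g : G, Cfsg.IsConjCharOf K g (θ : K → ℂ) (θ : K → ℂ)) (B : Set (Cfsg.IrrCharacter G)) (hBdef : ∀ χ : Cfsg.IrrCharacter G, χ ∈ B ↔ Cfsg.classInner (fun k : K => (χ : G → ℂ) k) (θ : K → ℂ) ≠ 0) : Cfsg.IsPBlock M B ∧ (∀ S : Sylow p G, Cfsg.IsDefectGroup p M B S) ∧ ∀ R : Subgroup G, IsPGroup p R → ∃! f : Set (Cfsg.IrrCharacter (Subgroup.centralizer (R : Set G))), Cfsg.IsInducedBlock M (Subgroup.centralizer (R : Set G)) f B := by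
  have hKn : K.Normal := hK ▸ inferInstance
  have hKp : ¬ p ∣ Nat.card K := hK ▸ not_dvd_card_pPrimeCore p
  have hinv : charInertia θ.1 = ⊤ :=
    top_le_iff.1 fun g _ => mem_charInertia_iff_isConjCharOf.2 (hθ g)
  obtain rfl : B = irrOver K.subtype θ.1 := Set.ext fun χ => (hBdef χ).trans mem_irrOver_subtype.symm
  have hc : Subgroup.centralizer (pCore p (G ⧸ K) : Set (G ⧸ K)) ≤ pCore p (G ⧸ K) := by
    subst hK hL
    obtain ⟨k, hk⟩ := exists_relIndex_pPrimePCore (G := G) p
    have h1 : Q.map (QuotientGroup.mk' (pPrimeCore p G)) = pCore p (G ⧸ pPrimeCore p G) := by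
      refine le_antisymm (Subgroup.map_le_iff_le_comap.2 hQL) ?_
      rw [← map_comap_mk _ (pCore p _), map_mk_le_map_mk_iff, sup_comm]
      exact le_sup_of_relIndex_eq_pow le_rfl hQL Subgroup.le_normalizer
        (pPrimeCore_le_pPrimePCore p) hQS hk
    conv_lhs => rw [← h1]
    rw [centralizer_map_mk_of_coprime (coprime_card_of_isPGroup hQp hKp).symm
      (Or.inr (have := hQp.isNilpotent; inferInstance))]
    exact Subgroup.map_le_iff_le_comap.2 hCQ
  have hB := hM.isPBlock_irrOver hKp hinv hc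
  have hD := fun S : Sylow p G =>
    (hB.isDefectGroup_iff_of_full hM (blockDefect_irrOver hKp hinv) S).2 ⟨S, rfl⟩
  refine ⟨hB, hD, fun R hR => ?_⟩
  obtain ⟨S, hS⟩ := hR.exists_le_sylow
  obtain ⟨ξ₀, f, -, hf⟩ := ((hD S).inducingChars_nonempty_iff hM hB hR rfl).2 (IsConjLE.of_le hS)
  refine ⟨f, hf, fun f' hf' => ?_⟩
  have hg : GlSetup p K R (K ⊓ Subgroup.centralizer (R : Set G)) :=
    ⟨Subgroup.le_normalizer_of_normal, hKp, hR, rfl⟩
  have hθ' : ∀ U, U ≤ ezStab θ := fun U => by rw [ezStab_eq_charInertia, hinv]; exact le_top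
  obtain ⟨η, hη⟩ := hg.exists_corr (hθ' R)
  have hN : Subgroup.centralizer (R : Set G) ≤
      Subgroup.normalizer ((K ⊓ Subgroup.centralizer (R : Set G) : Subgroup G) : Set G) :=
    fun g hg' => hg.mem_normalizer (Subgroup.le_normalizer_of_normal (Subgroup.mem_top g))
      (Subgroup.centralizer_le_normalizer _ hg')
  have := Subgroup.normal_subgroupOf_of_le_normalizer hN
  have := Fintype.ofFinite ((K ⊓ Subgroup.centralizer (R : Set G)).subgroupOf
    (Subgroup.centralizer (R : Set G)))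
  have hb := hM.isPBlock_irrOver (θ := η.subgroupOf inf_le_right)
    (by rw [card_subgroupOf_of_le inf_le_right]; exact hg.not_dvd_card)
    (charInertia_subgroupOf_eq_top' inf_le_right fun g hg' => (hg.mem_ezStab_iff (hθ' R) hη
      (Subgroup.le_normalizer_of_normal (Subgroup.mem_top g))
      (Subgroup.centralizer_le_normalizer _ hg')).1 (hθ' ⊤ (Subgroup.mem_top g)))
    (centralizer_pCore_le_of_range hc (hR.map (QuotientGroup.mk' K)) (QuotientGroup.lift _
      ((QuotientGroup.mk' K).comp (Subgroup.centralizer (R : Set G)).subtype)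
      fun x hx => (QuotientGroup.eq_one_iff _).2 hx.1)
      ((QuotientGroup.injective_lift_iff _ _ _).2 (Subgroup.ext fun x =>
        ⟨fun hx => (QuotientGroup.eq_one_iff _).2 hx.1,
          fun hx => ⟨(QuotientGroup.eq_one_iff _).1 hx, x.2⟩⟩)) (by
      rw [centralizer_map_mk_of_coprime (coprime_card_of_isPGroup hR hKp).symm
        (Or.inr (have := hR.isNilpotent; inferInstance))]
      ext y
      constructor
      · rintro ⟨x, rfl⟩
        obtain ⟨x, rfl⟩ := QuotientGroup.mk_surjective x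
        exact ⟨x, x.2, rfl⟩
      · rintro ⟨x, hx, rfl⟩
        exact ⟨(⟨x, hx⟩ : Subgroup.centralizer (R : Set G)), rfl⟩))
  have key : ∀ f, IsInducedBlock M (Subgroup.centralizer (R : Set G)) f (irrOver K.subtype θ.1) →
      f = irrOver (Subgroup.subtype _) (η.subgroupOf inf_le_right).1 := fun f hf => by
    obtain ⟨ξ, hξ⟩ := hf.1.nonempty hM
    obtain ⟨γ, hγ⟩ := exists_rmult_under (inf_le_right : K ⊓ _ ≤ _) ξ
    rw [hg.unique (hθ' R) (not_dvd_rmult_of_isInducedBlock hM hKp hinv hf hξ hγ) hη] at hγ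
    exact hf.1.eq_of_mem hM hb hξ
      (mem_irrOver_subtype.2 ((rmult_ne_zero_iff_subgroupOf inf_le_right).1 hγ))
  rw [key f hf, key f' hf']

end Cfsg.Agent.S4642
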