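import Cfsg.Statements.S4643
import Cfsg.Agent.Blk.PSolvAb

set_option autoImplicit false
open Cfsg

namespace Cfsg.Agent.S4643

/-- Let G be a finite p-solvable group, M a maximal ideal of the algebraic integers containing the prime p, and B a block of G with a commutative defect group P. Let c be the Brauer correspondent of B: the block of N_G(P) with defect group P that induces B. Then B and c contain the same number of irreducible characters, have the same p-regular rank, and there is a perfect isometry from c onto B. -/
theorem result {G : Type*} [Group G] [Finite G] (p : ℕ) [Fact p.Prime] (M : Ideal Cfsg.AlgInt) (hM : Cfsg.IsPModular p M) (hsolv : Cfsg.IsPSolvable p G) (B : Set (Cfsg.IrrCharacter G)) (hB : Cfsg.IsPBlock M B) (P : Subgroup G) (hPD : Cfsg.IsDefectGroup p M B P) (hPab : ∀ x ∈ P, ∀ y ∈ P, x * y = y * x) (c : Set (Cfsg.IrrCharacter (Subgroup.normalizer (P : Set G)))) (hcD : Cfsg.IsDefectGroup p M c (P.subgroupOf (Subgroup.normalizer (P : Set G)))) (hc : Cfsg.IsInducedBlock M (Subgroup.normalizer (P : Set G)) c B) : Nat.card c = Nat.card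 B ∧ Cfsg.blockRank p c = Cfsg.blockRank p B ∧ ∃ (I : Cfsg.IrrCharacter (Subgroup.normalizer (P : Set G)) → Cfsg.IrrCharacter G) (ε : Cfsg.IrrCharacter (Subgroup.normalizer (P : Set G)) → ℤ), Cfsg.IsPerfectIsometry p M c B I ε := by
  have h := hsolv.perfRel_brauer hM hB hPD hPab (Subgroup.subtype_injective _)
    (Subgroup.range_subtype _) hc.1 ((hM.isInducedBlock_normalizer_iff hB hPD hc.1).1 hc)
  exact ⟨h.card_eq, h.blockRank_eq, h.isPerfectIsometry hM⟩

end Cfsg.Agent.S4643
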