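import Cfsg.Statements.S4645
import Cfsg.Agent.Blk.PairReg
import Cfsg.Agent.Grp.Misc

set_option autoImplicit false
open Cfsg

namespace Cfsg.Agent.S4645

/-- Let B be a block of the finite group G relative to a maximal ideal M of the algebraic integers containing the prime p, with a nontrivial cyclic defect group P; let c be a block of C_G(P) inducing B and T the stabilizer of c in N_G(P). Let Q be a nontrivial subgroup of P (so C_G(P) ≤ C_G(Q)), f the block of C_G(Q) induced by c inside C_G(Q), and T' the stabilizer of f in N_G(Q). Then T' = T·C_G(Q), the index of C_G(Q) in T' equals the index of C_G(P) in T, f has p-regular rank 1, and f is a nilpotent block of C_G(Q). -/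
theorem result {G : Type*} [Group G] [Finite G] (p : ℕ) [Fact p.Prime] (M : Ideal Cfsg.AlgInt) (hM : Cfsg.IsPModular p M) (B : Set (Cfsg.IrrCharacter G)) (hB : Cfsg.IsPBlock M B) (P : Subgroup G) (hPD : Cfsg.IsDefectGroup p M B P) (hP1 : P ≠ ⊥) (hcyc : IsCyclic P) (c : Set (Cfsg.IrrCharacter (Subgroup.centralizer (P : Set G)))) (hc : Cfsg.IsInducedBlock M (Subgroup.centralizer (P : Set G)) c B) (T : Subgroup G) (hT : ∀ g : G, g ∈ T ↔ (g ∈ Subgroup.normalizer (P : Set G) ∧ Cfsg.StabilizesBlock (Subgroup.centralizer (P : Set G)) c g)) (Q : Subgroup G) (hQP : Q ≤ P) (hQ1 : Q ≠ ⊥) (f : Set (Cfsg.IrrCharacter (Subgroup.centralizer (Q : Set G)))) (hf : Cfsg.IsInducedBlockIn M (Subgroup.centralizer (Q : Set G)) (Subgroup.centralizer (P : Set G)) c f) (T' : Subgroup G) (hT' : ∀ g : G, g ∈ T' ↔ (g ∈ Subgroup.normalizer (Q : Set G) ∧ Cfsg.StabilizesBlock (Subgroup.centralizer (Q : Set G)) f g)) : T' = T ⊔ Subgroup.centralizer (Q : Set G) ∧ (Subgroup.centralizer (Q : Set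 G)).relIndex T' = (Subgroup.centralizer (P : Set G)).relIndex T ∧ Cfsg.blockRank p f = 1 ∧ Cfsg.IsNilpotentBlock p M f := by
  haveI := hM.charP
  have hm := hc.isMaxPair hM hPD
  have he := hm.pairOf.pair
  have hcB := hB.isBlk_top hM
  obtain rfl : T = pairStab ⊤ P (subIdem M _ c) := hc.1.eq_stabGA hM hT
  obtain rfl : T' = pairStab ⊤ Q (subIdem M _ f) := hf.2.1.eq_stabGA hM hT'
  have hab : P ≤ Subgroup.centralizer (P : Set G) := Subgroup.le_centralizer P
  have hp := hf.2.1.isPair hM (he.pgrp.to_le hQP)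
  have hPQ := hab.trans (Subgroup.centralizer_le hQP)
  have hle : PairLE p ⊤ Q (subIdem M _ f) P (subIdem M _ c) := by
    rw [he.pairLE_iff_indBlk hp hQP le_top hPQ, cenIn_top, cenIn_top]
    exact hf.indBlk hM (Subgroup.centralizer_le hQP)
  have hidx := hm.not_dvd_relIndex le_rfl top_le_normalizer_top hcB
  rw [cenIn_top, sup_eq_left.2 hab] at hidx
  have hfree : Subgroup.centralizer (Q : Set G) ⊓ pairStab ⊤ P (subIdem M _ c) =
      Subgroup.centralizer (P : Set G) := by
    refine le_antisymm (fun g hg => ?_)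
      (le_inf (Subgroup.centralizer_le hQP) he.centralizer_le_pairStab)
    obtain ⟨⟨x, hx⟩, hx1⟩ := (Subgroup.ne_bot_iff_exists_ne_one).1 hQ1
    exact mem_centralizer_of_cyclic_of_fixed he.pgrp hcyc (pairStab_le_normalizer _ _ _) hidx hg.2
      (hQP hx) (fun h0 => hx1 (Subtype.ext h0)) (mul_inv_eq_iff_eq_mul.2 (hg.1 x hx).symm)
  have hTN : pairStab ⊤ P (subIdem M _ c) ≤ Subgroup.normalizer (Q : Set G) := fun g hg =>
    conjSub_eq_self_iff.1 (eq_of_card_eq_of_isCyclic hcyc
      ((conjSub_mono hQP g).trans (conjSub_eq_self_iff.2 (mem_pairStab.1 hg).2.1).le) hQP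
      (card_conjSub Q g))
  have h1 : pairStab ⊤ Q (subIdem M _ f) =
      pairStab ⊤ P (subIdem M _ c) ⊔ Subgroup.centralizer (Q : Set G) := by
    refine le_antisymm (fun t ht => ?_) (sup_le (fun g hg => mem_pairStab.2 ⟨Subgroup.mem_top g,
      hTN hg, hle.gaConj_eq he (mem_normalizer_top g) (mem_pairStab.1 hg).2.1
        (mem_pairStab.1 hg).2.2 (hTN hg)⟩) hp.centralizer_le_pairStab)
    obtain ⟨y, hy, h2, h3⟩ := hm.exists_stab_mul le_rfl top_le_normalizer_top hcB hle hPQ
      (pairStab_le_norIn _ _ _ ht) (mem_pairStab.1 ht).2.2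
    have : t = y⁻¹ * (y * t) := by group
    rw [this, sup_comm]
    exact Subgroup.mul_mem_sup (Subgroup.inv_mem _ hy.2) (mem_pairStab.2 ⟨h2.1, h2.2, h3⟩)
  have hnil : IsNilpotentBlock p M f := by
    have h2 := hm.isMaxPair_cenIn le_rfl top_le_normalizer_top hcB hle le_rfl
      (cenIn_le_norIn le_rfl _) hp.fixed_cenIn (le_inf le_top hPQ)
    have h3 := h2.isNilpGA_iff_of_comm le_rfl Subgroup.le_normalizer hp.blk hab
    rw [cenIn_top] at h3
    rw [hf.2.1.isNilpotentBlock_iff_sub hM, h3]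
    refine le_trans (fun g hg => ?_) hfree.le
    obtain ⟨h4, h5, h6⟩ := mem_pairStab.1 hg
    exact ⟨h4, mem_pairStab.2 ⟨Subgroup.mem_top g, h5, h6⟩⟩
  refine ⟨h1, ?_, hnil.rank_eq_one hM hf.2.1, hnil⟩
  rw [h1, sup_comm, relIndex_sup_of_le_normalizer
    (hTN.trans (normalizer_le_normalizer_centralizer Q)), ← Subgroup.inf_relIndex_right, hfree]

end Cfsg.Agent.S4645
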