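import Cfsg.Statements.S4646
import Cfsg.Agent.Blk.Principal

set_option autoImplicit false
open Cfsg

namespace Cfsg.Agent.S4646

/-- For a finite group G, a prime p and a maximal ideal M of the algebraic integers containing p: the principal block of G is nilpotent if and only if its p-regular rank is 1 (the trivial Brauer character is its only irreducible Brauer character). -/
theorem result {G : Type*} [Group G] [Finite G] (p : ℕ) [Fact p.Prime] (M : Ideal Cfsg.AlgInt) (hM : Cfsg.IsPModular p M) : Cfsg.IsNilpotentBlock p M (Cfsg.principalBlock M G) ↔ Cfsg.blockRank p (Cfsg.principalBlock M G) = 1 := by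
  rw [hM.blockRank_principalBlock_eq_one_iff', hasNormalPComplement_iff_forall_mem_centralizer]
  constructor
  · rintro ⟨-, h⟩ Q hQ x hx hp
    have hb := isPBlock_principalBlock (M := M) (G := Subgroup.centralizer (Q : Set G))
    refine h Q _ (hM.isBrauerPairOf_iff_isInducedBlock.2 ⟨hQ,
      (hM.isInducedBlock_centralizer_principalBlock_iff hQ rfl hb).2 rfl⟩) x hx ?_ hp
    have hx' := normalizer_le_normalizer_centralizer Q hx
    have hc := (conjSub_eq_self_iff.2 hx').symm
    rw [hb.stabilizesBlock_centralizer_iff hM hx, ← hb.conjIrrSet_eq_iff hM hx',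
      ← (hb.conjIrrSet hM hc).augGA_subIdem_eq_one_iff hM,
      (hb.isBlockUnion hM).subIdem_conjIrrSet hM hc, augGA_gaConj]
    exact hM.augGA_subIdem_principal _
  · intro h
    exact ⟨isPBlock_principalBlock, fun Q e he x hx _ hp => h Q he.1.1 x hx hp⟩

end Cfsg.Agent.S4646
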