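import Cfsg.Statements.S4649
import Cfsg.Agent.Blk.CycData

set_option autoImplicit false
open Cfsg

namespace Cfsg.Agent.S4649

/-- A block with cyclic defect group, of a finite group relative to a maximal ideal M of the algebraic integers containing the prime p, is nilpotent if and only if its p-regular rank is 1 (it has a unique irreducible Brauer character). -/
theorem result {G : Type*} [Group G] [Finite G] (p : ℕ) [Fact p.Prime] (M : Ideal Cfsg.AlgInt) (hM : Cfsg.IsPModular p M) (B : Set (Cfsg.IrrCharacter G)) (hB : Cfsg.IsPBlock M B) (P : Subgroup G) (hPD : Cfsg.IsDefectGroup p M B P) (hcyc : IsCyclic P) : Cfsg.IsNilpotentBlock p M B ↔ Cfsg.blockRank p B = 1 := by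
  have := Fintype.ofFinite G
  refine ⟨fun h => h.blockRank_eq_one hM, fun h1 => ?_⟩
  obtain ⟨e, S⟩ := hPD.exists_starSetup hM hB
  by_cases hP : P = ⊥
  · subst hP
    exact (S.isNilpotentBlock_iff_of_comm bot_le).2 fun x _ y hy => by
      rw [Subgroup.mem_bot.1 hy, one_mul, mul_one]
  · obtain ⟨X, ψ, δ, δ₀, h⟩ := S.exists_cycData hcyc hP
    rw [S.isNilpotentBlock_iff_of_comm h.hab, ← Subgroup.relIndex_eq_one, ← h.card_X,
      ← h.blockRank_eq, h1]

end Cfsg.Agent.S4649
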