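import Cfsg.Statements.S4650
import Cfsg.Agent.Blk.PairMisc

set_option autoImplicit false
open Cfsg

namespace Cfsg.Agent.S4650

/-- Let B be a block of the finite group G relative to a maximal ideal M of the algebraic integers containing the prime p, with a nontrivial commutative defect group P; let c be a block of C_G(P) inducing B and T the stabilizer of c in N_G(P). Then T/C_G(P) acts freely on the non-identity elements of P (an element of T fixing a non-identity element of P under conjugation lies in C_G(P)) if and only if, for every nontrivial subgroup Q of P, the block of C_G(Q) induced by c inside C_G(Q) is a nilpotent block of C_G(Q). -/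
theorem result {G : Type*} [Group G] [Finite G] (p : ℕ) [Fact p.Prime] (M : Ideal Cfsg.AlgInt) (hM : Cfsg.IsPModular p M) (B : Set (Cfsg.IrrCharacter G)) (hB : Cfsg.IsPBlock M B) (P : Subgroup G) (hPD : Cfsg.IsDefectGroup p M B P) (hPab : ∀ x ∈ P, ∀ y ∈ P, x * y = y * x) (hP1 : P ≠ ⊥) (c : Set (Cfsg.IrrCharacter (Subgroup.centralizer (P : Set G)))) (hc : Cfsg.IsInducedBlock M (Subgroup.centralizer (P : Set G)) c B) (T : Subgroup G) (hT : ∀ g : G, g ∈ T ↔ (g ∈ Subgroup.normalizer (P : Set G) ∧ Cfsg.StabilizesBlock (Subgroup.centralizer (P : Set G)) c g)) : (∀ g ∈ T, ∀ x ∈ P, x ≠ 1 → g * x * g⁻¹ = x → g ∈ Subgroup.centralizer (P : Set G)) ↔ ∀ Q : Subgroup G, Q ≤ P → Q ≠ ⊥ → ∀ f : Set (Cfsg.IrrCharacter (Subgroup.centralizer (Q : Set G))), Cfsg.IsInducedBlockIn M (Subgroup.centralizer (Q : Set G)) (Subgroup.centralizer (P : Set G)) c f → Cfsg.IsNilpotentBlock p M f := by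
  haveI := hM.charP
  have hm := hc.isMaxPair hM hPD
  have he := hm.pairOf.pair
  have hcB := hB.isBlk_top hM
  obtain rfl : T = pairStab ⊤ P (subIdem M _ c) := hc.1.eq_stabGA hM hT
  have hab : P ≤ Subgroup.centralizer (P : Set G) := fun x hx y hy => hPab y hy x hx
  have key : ∀ Q ≤ P, ∀ f : Set (IrrCharacter (Subgroup.centralizer (Q : Set G))), IsPBlock M f →
      ((IsInducedBlockIn M (Subgroup.centralizer (Q : Set G)) (Subgroup.centralizer (P : Set G)) c f ↔
        PairLE p ⊤ Q (subIdem M _ f) P (subIdem M _ c)) ∧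
      (PairLE p ⊤ Q (subIdem M _ f) P (subIdem M _ c) → (IsNilpotentBlock p M f ↔
        pairStab (Subgroup.centralizer (Q : Set G)) P (subIdem M _ c) ≤
          Subgroup.centralizer (P : Set G)))) := by
    intro Q hQ f hf
    have hp := hf.isPair hM (he.pgrp.to_le hQ)
    have hPQ := hab.trans (Subgroup.centralizer_le hQ)
    constructor
    · rw [hM.isInducedBlockIn_iff_indBlk (Subgroup.centralizer_le hQ) hc.1 hf,
        he.pairLE_iff_indBlk hp hQ le_top hPQ, cenIn_top, cenIn_top]
    · intro hle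
      have h1 := hm.isMaxPair_cenIn le_rfl top_le_normalizer_top hcB hle le_rfl
        (cenIn_le_norIn le_rfl _) hp.fixed_cenIn (le_inf le_top hPQ)
      have h2 := h1.isNilpGA_iff_of_comm le_rfl Subgroup.le_normalizer hp.blk hab
      rw [cenIn_top] at h2
      rw [hf.isNilpotentBlock_iff_sub hM, h2]
  constructor
  · intro h Q hQ hQ1 f hf
    rw [(key Q hQ f hf.2.1).2 ((key Q hQ f hf.2.1).1.1 hf)]
    intro g hg
    obtain ⟨⟨x, hx⟩, hx1⟩ := (Subgroup.ne_bot_iff_exists_ne_one).1 hQ1
    obtain ⟨h1, h2, h3⟩ := mem_pairStab.1 hg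
    exact h g (mem_pairStab.2 ⟨Subgroup.mem_top g, h2, h3⟩) x (hQ hx)
      (fun h0 => hx1 (Subtype.ext h0)) (mul_inv_eq_iff_eq_mul.2 (h1 x hx).symm)
  · intro h g hg x hx hx1 hgx
    have hQ : Subgroup.zpowers x ≤ P := Subgroup.zpowers_le.2 hx
    obtain ⟨a, ha⟩ := exists_pairLE he hQ
    obtain ⟨f, hf, rfl⟩ := (ha.isPair_left he).exists_eq_subIdem hM
    have h1 := h _ hQ (by simpa using hx1) f ((key _ hQ f hf).1.2 ha)
    obtain ⟨-, h2, h3⟩ := mem_pairStab.1 hg
    refine ((key _ hQ f hf).2 ha).1 h1 (mem_pairStab.2 ⟨?_, h2, h3⟩)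
    rw [centralizer_zpowers]
    exact Subgroup.mem_centralizer_singleton_iff.2 (mul_inv_eq_iff_eq_mul.1 hgx)

end Cfsg.Agent.S4650
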