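import Cfsg.Statements.S4651
import Cfsg.Agent.Blk.KnRob

set_option autoImplicit false
open Cfsg

namespace Cfsg.Agent.S4651

universe u

section chain
variable {G : Type u} [Group G] {p : ℕ} {u : G} {s : Finset (Subgroup G)}

def NC (p : ℕ) (s : Finset (Subgroup G)) : Prop :=
  (∀ Q ∈ s, ∀ R ∈ s, Q ≤ R ∨ R ≤ Q) ∧ (∀ Q ∈ s, Q ≠ ⊥ ∧ IsPGroup p Q) ∧
    ∀ Q ∈ s, ∀ R ∈ s, R ≤ Subgroup.normalizer (Q : Set G)

def NN (s : Finset (Subgroup G)) : Subgroup G := ⨅ Q ∈ s, Subgroup.normalizer (Q : Set G)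

theorem mem_NN {g : G} : g ∈ NN s ↔ ∀ Q ∈ s, g ∈ Subgroup.normalizer (Q : Set G) := by
  simp [NN, Subgroup.mem_iInf]

theorem NC.mono {t : Finset (Subgroup G)} (h : NC p s) (ht : t ⊆ s) : NC p t :=
  ⟨fun Q hQ R hR => h.1 Q (ht hQ) R (ht hR), fun Q hQ => h.2.1 Q (ht hQ),
    fun Q hQ R hR => h.2.2 Q (ht hQ) R (ht hR)⟩

theorem sup_mem_of_chain (h : ∀ Q ∈ s, ∀ R ∈ s, Q ≤ R ∨ R ≤ Q) (hs : s.Nonempty) :
    s.sup id ∈ s := by
  obtain ⟨m, hm⟩ := s.exists_maximal hs
  have : s.sup id = m := le_antisymm (Finset.sup_le fun Q hQ =>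
    (h Q hQ m hm.1).elim id fun h' => hm.2 hQ h') (Finset.le_sup (f := id) hm.1)
  rw [this]; exact hm.1

theorem mem_normalizer_sup {g : G} (h : g ∈ NN s) :
    g ∈ Subgroup.normalizer ((s.sup id : Subgroup G) : Set G) := by
  refine Finset.sup_induction (p := fun L : Subgroup G => g ∈ Subgroup.normalizer (L : Set G))
    ?_ (fun a ha b hb => Subgroup.normalizer_inf_normalizer_le_normalizer_sup a b ⟨ha, hb⟩)
    (mem_NN.1 h)
  exact Subgroup.normalizer_eq_top (⊥ : Subgroup G) ▸ Subgroup.mem_top g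

noncomputable def TT (u : G) (s : Finset (Subgroup G)) : Subgroup G := s.sup id ⊔ Subgroup.zpowers u

open Classical in
noncomputable def QQ (u : G) (s : Finset (Subgroup G)) : Subgroup G :=
  (s.filter fun Q => u ∉ Q).sup id

noncomputable def RR (u : G) (s : Finset (Subgroup G)) : Subgroup G :=
  QQ u s ⊔ Subgroup.closure {x | ∃ t ∈ TT u s, x = t * u * t⁻¹}

theorem le_TT {Q : Subgroup G} (hQ : Q ∈ s) : Q ≤ TT u s :=
  (Finset.le_sup (f := id) hQ).trans le_sup_left

theorem self_mem_TT : u ∈ TT u s :=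
  (le_sup_right : Subgroup.zpowers u ≤ _) (Subgroup.mem_zpowers u)

theorem TT_le {L : Subgroup G} (h : ∀ Q ∈ s, Q ≤ L) (hu : u ∈ L) : TT u s ≤ L :=
  sup_le (Finset.sup_le h) ((Subgroup.zpowers_le).2 hu)

theorem QQ_le {L : Subgroup G} (h : ∀ Q ∈ s, u ∉ Q → Q ≤ L) : QQ u s ≤ L := by
  classical
  exact Finset.sup_le fun Q hQ => h Q (Finset.mem_filter.1 hQ).1 (Finset.mem_filter.1 hQ).2

theorem le_QQ {Q : Subgroup G} (hQ : Q ∈ s) (h : u ∉ Q) : Q ≤ QQ u s := by
  classical
  exact Finset.le_sup (f := id) (Finset.mem_filter.2 ⟨hQ, h⟩)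

theorem self_mem_RR : u ∈ RR u s :=
  (le_sup_right : Subgroup.closure _ ≤ _) (Subgroup.subset_closure ⟨1, one_mem _, by simp⟩)

theorem RR_le {L : Subgroup G} (h : QQ u s ≤ L) (hu : u ∈ L)
    (hL : TT u s ≤ Subgroup.normalizer (L : Set G)) : RR u s ≤ L := by
  refine sup_le h ((Subgroup.closure_le _).2 ?_)
  rintro _ ⟨t, ht, rfl⟩
  exact (Subgroup.mem_normalizer_iff.1 (hL ht) u).1 hu

theorem RR_le_TT : RR u s ≤ TT u s :=
  RR_le (QQ_le fun _ hQ _ => le_TT hQ) self_mem_TT Subgroup.le_normalizer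

theorem mem_normalizer_RR [Finite G] {g : G} (hg : g ∈ NN s)
    (hT : g ∈ Subgroup.normalizer (TT u s : Set G)) (hu : ∃ t ∈ TT u s, g * u * g⁻¹ = t * u * t⁻¹) :
    g ∈ Subgroup.normalizer (RR u s : Set G) := by
  classical
  refine Subgroup.normalizer_inf_normalizer_le_normalizer_sup _ _ ⟨mem_normalizer_sup
    (mem_NN.2 fun Q hQ => mem_NN.1 hg Q (Finset.mem_filter.1 hQ).1), ?_⟩
  refine Subgroup.mem_normalizer_fintype fun n hn => ?_
  have : Subgroup.closure {x | ∃ t ∈ TT u s, x = t * u * t⁻¹} ≤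
      (Subgroup.closure {x | ∃ t ∈ TT u s, x = t * u * t⁻¹}).comap (MulAut.conj g).toMonoidHom := by
    refine (Subgroup.closure_le _).2 ?_
    rintro _ ⟨t, ht, rfl⟩
    obtain ⟨t', ht', h⟩ := hu
    refine Subgroup.subset_closure ⟨g * t * g⁻¹ * t',
      mul_mem ((Subgroup.mem_normalizer_iff.1 hT t).1 ht) ht', ?_⟩
    change g * (t * u * t⁻¹) * g⁻¹ = _
    calc g * (t * u * t⁻¹) * g⁻¹ = g * t * g⁻¹ * (g * u * g⁻¹) * (g * t * g⁻¹)⁻¹ := by group
      _ = _ := by rw [h]; group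
  exact this hn

theorem TT_le_NN (h : NC p s) (hu : u ∈ NN s) : TT u s ≤ NN s := fun _ hg =>
  mem_NN.2 fun Q hQ => TT_le (fun R hR => h.2.2 Q hQ R hR) (mem_NN.1 hu Q hQ) hg

theorem TT_le_normalizer_RR [Finite G] (h : NC p s) (hu : u ∈ NN s) :
    TT u s ≤ Subgroup.normalizer (RR u s : Set G) := fun g hg =>
  mem_normalizer_RR (TT_le_NN h hu hg) (Subgroup.le_normalizer hg) ⟨g, hg, rfl⟩

theorem mem_normalizer_RR_of_comm [Finite G] {g : G} (hg : g ∈ NN s)
    (hc : g ∈ Subgroup.centralizer {u}) : g ∈ Subgroup.normalizer (RR u s : Set G) := by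
  refine mem_normalizer_RR hg (Subgroup.normalizer_inf_normalizer_le_normalizer_sup _ _
    ⟨mem_normalizer_sup hg, Subgroup.centralizer_le_normalizer _ ?_⟩) ⟨1, one_mem _, ?_⟩
  · rwa [centralizer_zpowers_eq_singleton]
  · rw [Subgroup.mem_centralizer_singleton_iff.1 hc]; simp

theorem isPGroup_TT (h : NC p s) (hu : u ∈ NN s) (hp : IsPGroup p (Subgroup.zpowers u)) :
    IsPGroup p (TT u s) := by
  refine IsPGroup.to_sup_of_normal_left' ?_ hp ((Subgroup.zpowers_le).2 (mem_normalizer_sup hu))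
  rcases s.eq_empty_or_nonempty with rfl | hs
  · exact IsPGroup.of_bot
  · exact (h.2.1 _ (sup_mem_of_chain h.1 hs)).2

theorem RR_le_of_mem (h : NC p s) (hu : u ∈ NN s) {Q : Subgroup G} (hQ : Q ∈ s) (huQ : u ∈ Q) :
    RR u s ≤ Q :=
  RR_le (QQ_le fun R hR huR => (h.1 R hR Q hQ).resolve_right fun h' => huR (h' huQ)) huQ
    fun _ hg => mem_NN.1 (TT_le_NN h hu hg) Q hQ

open Classical in
theorem NC.insert_RR [Finite G] (h : NC p s) (hu : u ∈ NN s) (hu1 : u ≠ 1)
    (hp : IsPGroup p (Subgroup.zpowers u)) : NC p (insert (RR u s) s) := by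
  have h1 : ∀ Q ∈ s, Q ≤ RR u s ∨ RR u s ≤ Q := fun Q hQ => by
    by_cases huQ : u ∈ Q
    · exact Or.inr (RR_le_of_mem h hu hQ huQ)
    · exact Or.inl ((le_QQ hQ huQ).trans le_sup_left)
  refine ⟨?_, ?_, ?_⟩
  · simp only [Finset.forall_mem_insert]
    exact ⟨⟨Or.inl le_rfl, fun R hR => (h1 R hR).symm⟩, fun Q hQ => ⟨h1 Q hQ, h.1 Q hQ⟩⟩
  · simp only [Finset.forall_mem_insert]
    refine ⟨⟨fun h0 => hu1 ?_, (isPGroup_TT h hu hp).to_le RR_le_TT⟩, h.2.1⟩
    have := self_mem_RR (u := u) (s := s)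
    rwa [h0, Subgroup.mem_bot] at this
  · simp only [Finset.forall_mem_insert]
    exact ⟨⟨Subgroup.le_normalizer, fun R hR => (le_TT hR).trans (TT_le_normalizer_RR h hu)⟩,
      fun Q hQ => ⟨RR_le_TT.trans fun _ hg => mem_NN.1 (TT_le_NN h hu hg) Q hQ, h.2.2 Q hQ⟩⟩

open Classical in
theorem RR_insert : RR u (insert (RR u s) s) = RR u s := by
  have h1 : TT u (insert (RR u s) s) = TT u s :=
    le_antisymm (TT_le (by
      simp only [Finset.forall_mem_insert]
      exact ⟨RR_le_TT, fun Q hQ => le_TT hQ⟩) self_mem_TT)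
      (TT_le (fun Q hQ => le_TT (Finset.mem_insert_of_mem hQ)) self_mem_TT)
  have h2 : QQ u (insert (RR u s) s) = QQ u s :=
    le_antisymm (QQ_le (by
      simp only [Finset.forall_mem_insert]
      exact ⟨fun h => (h self_mem_RR).elim, fun Q hQ h => le_QQ hQ h⟩))
      (QQ_le fun Q hQ h => le_QQ (Finset.mem_insert_of_mem hQ) h)
  conv_lhs => rw [RR, h1, h2]
  rfl

theorem eq_of_normal_closure [Finite G] [Fact p.Prime] {L T : Subgroup G} (hT : IsPGroup p T)
    (hLT : L ≤ T)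
    (h : ∀ L', L ≤ L' → L' ≤ T → T ≤ Subgroup.normalizer (L' : Set G) → T ≤ L') : L = T := by
  by_contra hne
  obtain ⟨L', h1, h2⟩ := Finite.exists_le_maximal (p := fun X : Subgroup G => X < T)
    (lt_of_le_of_ne hLT hne)
  have h3 := lt_inf_normalizer_of_isPGroup hT h2.1
  refine h2.1.not_ge (h L' h1 h2.1.le ?_)
  by_contra h4
  exact h3.not_ge (h2.2 (lt_of_le_of_ne inf_le_left fun h5 => h4 (h5 ▸ inf_le_right)) h3.le)

open Classical in
theorem RR_erase [Finite G] [Fact p.Prime] (h : NC p s) (hu : u ∈ NN s)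
    (hp : IsPGroup p (Subgroup.zpowers u)) : RR u (s.erase (RR u s)) = RR u s := by
  have h2 : QQ u (s.erase (RR u s)) = QQ u s :=
    le_antisymm (QQ_le fun Q hQ h => le_QQ (Finset.mem_of_mem_erase hQ) h)
      (QQ_le fun Q hQ h => le_QQ (Finset.mem_erase.2 ⟨fun h' => h (h' ▸ self_mem_RR), hQ⟩) h)
  have h1 : TT u (s.erase (RR u s)) = TT u s := by
    refine eq_of_normal_closure (isPGroup_TT h hu hp)
      (TT_le (fun Q hQ => le_TT (Finset.mem_of_mem_erase hQ)) self_mem_TT) fun L h3 _ h5 => ?_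
    refine TT_le (fun Q hQ => ?_) (h3 self_mem_TT)
    by_cases hQ' : Q = RR u s
    · rw [hQ']
      exact RR_le (h2 ▸ (QQ_le fun Q hQ _ => le_TT hQ).trans h3) (h3 self_mem_TT) h5
    · exact (le_TT (Finset.mem_erase.2 ⟨hQ', hQ⟩)).trans h3
  conv_lhs => rw [RR, h1, h2]
  rfl

open Classical in
theorem NN_insert_inf [Finite G] :
    NN (insert (RR u s) s) ⊓ Subgroup.centralizer {u} = NN s ⊓ Subgroup.centralizer {u} := by
  ext g
  simp only [Subgroup.mem_inf, mem_NN, Finset.forall_mem_insert]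
  exact ⟨fun h => ⟨h.1.2, h.2⟩, fun h => ⟨⟨mem_normalizer_RR_of_comm (mem_NN.2 h.1) h.2, h.1⟩, h.2⟩⟩

open Classical in
theorem sum_eq_zero [Finite G] [Fact p.Prime] [Fintype (Finset (Subgroup G))] (hu1 : u ≠ 1)
    (hp : IsPGroup p (Subgroup.zpowers u)) (F : Subgroup G → ℤ) :
    ∑ s ∈ Finset.univ.filter (fun s : Finset (Subgroup G) => NC p s ∧ u ∈ NN s),
      (-1) ^ s.card * F (NN s ⊓ Subgroup.centralizer {u}) = 0 := by
  refine Finset.sum_involution
    (fun s _ => if RR u s ∈ s then s.erase (RR u s) else insert (RR u s) s) ?_ ?_ ?_ ?_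
  · intro s hs
    obtain ⟨h, hu⟩ := (Finset.mem_filter.1 hs).2
    split_ifs with hR
    · have h1 := NN_insert_inf (u := u) (s := s.erase (RR u s))
      rw [RR_erase h hu hp, Finset.insert_erase hR] at h1
      rw [h1, ← Finset.card_erase_add_one hR]; ring
    · rw [NN_insert_inf, Finset.card_insert_of_notMem hR]; ring
  · intro s _ _
    split_ifs with hR
    · exact fun h => Finset.notMem_erase (RR u s) s (by rw [h]; exact hR)
    · exact fun h => hR (h.subset (Finset.mem_insert_self _ _))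
  · intro s hs
    obtain ⟨h, hu⟩ := (Finset.mem_filter.1 hs).2
    refine Finset.mem_filter.2 ⟨Finset.mem_univ _, ?_⟩
    split_ifs with hR
    · exact ⟨h.mono (Finset.erase_subset _ _),
        mem_NN.2 fun Q hQ => mem_NN.1 hu Q (Finset.mem_of_mem_erase hQ)⟩
    · refine ⟨h.insert_RR hu hu1 hp, ?_⟩
      have : u ∈ NN s ⊓ Subgroup.centralizer {u} :=
        ⟨hu, Subgroup.mem_centralizer_singleton_iff.2 rfl⟩
      rw [← NN_insert_inf] at this
      exact this.1
  · intro s hs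
    obtain ⟨h, hu⟩ := (Finset.mem_filter.1 hs).2
    by_cases hR : RR u s ∈ s
    · simp only [if_pos hR, RR_erase h hu hp, Finset.notMem_erase, if_false,
        Finset.insert_erase hR]
    · simp only [if_neg hR, RR_insert, Finset.mem_insert_self, if_true, Finset.erase_insert hR]

end chain

/-- An alternating-sum identity over chains of p-subgroups (the character-count form behind the chain reformulation of Alperin's weight conjecture, which holds unconditionally for the difference k − l). Let b be a block of the finite group G relative to a maximal ideal M of the algebraic integers containing the prime p. Consider the nonempty chains s = {Q_0 < Q_1 < ⋯ < Q_m} of nontrivial p-subgroups of G in which every member is normal in the largest member; let N_G(s) be the intersection of the normalizers of the members (the stabilizer of the chain), and let b_s be the set of irreducible characters of N_G(s) lying in blocks of N_G(s) that induce b. Then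 #G · (k(b) − l(b)) equals the sum over all such chains s of (−1)^m · #N_G(s) · (k(b_s) − l(b_s)), where k counts irreducible characters and l is the p-regular rank; equivalently, k(b) − l(b) is the alternating sum of k(b_s) − l(b_s) over representatives of the conjugacy classes of such chains. -/
theorem result {G : Type*} [Group G] [Finite G] (p : ℕ) [Fact p.Prime] (M : Ideal Cfsg.AlgInt) (hM : Cfsg.IsPModular p M) (b : Set (Cfsg.IrrCharacter G)) (hb : Cfsg.IsPBlock M b) : (Nat.card G : ℤ) * ((Nat.card b : ℤ) - (Cfsg.blockRank p b : ℤ)) = ∑ᶠ s ∈ {s : Finset (Subgroup G) | s.Nonempty ∧ (∀ Q ∈ s, ∀ R ∈ s, Q ≤ R ∨ R ≤ Q) ∧ (∀ Q ∈ s, Q ≠ ⊥ ∧ IsPGroup p Q) ∧ ∃ T ∈ s, ∀ Q ∈ s, Q ≤ T ∧ T ≤ Subgroup.normalizer ((Q : Subgroup G) : Set G)}, (-1 : ℤ) ^ (s.card - 1) * (Nat.card (((⨅ Q ∈ s, Subgroup.normalizer ((Q : Subgroup G) : Set G) : Subgroup G))) : ℤ) * ((Nat.card {ψ : Cfsg.IrrCharacter (((⨅ Q ∈ s, Subgroup.normalizer ((Q : Subgroup G) : Set G) : Subgroup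 G))) | ∃ β : Set (Cfsg.IrrCharacter (((⨅ Q ∈ s, Subgroup.normalizer ((Q : Subgroup G) : Set G) : Subgroup G)))), ψ ∈ β ∧ Cfsg.IsInducedBlock M (((⨅ Q ∈ s, Subgroup.normalizer ((Q : Subgroup G) : Set G) : Subgroup G))) β b} : ℤ) - (Cfsg.blockRank p {ψ : Cfsg.IrrCharacter (((⨅ Q ∈ s, Subgroup.normalizer ((Q : Subgroup G) : Set G) : Subgroup G))) | ∃ β : Set (Cfsg.IrrCharacter (((⨅ Q ∈ s, Subgroup.normalizer ((Q : Subgroup G) : Set G) : Subgroup G)))), ψ ∈ β ∧ Cfsg.IsInducedBlock M (((⨅ Q ∈ s, Subgroup.normalizer ((Q : Subgroup G) : Set G) : Subgroup G))) β b} : ℤ)) := by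
  classical
  have := Fintype.ofFinite G
  have : Fintype (Finset (Subgroup G)) := Fintype.ofFinite _
  let W : Subgroup G → ℤ := fun H =>
    (Nat.card H : ℤ) * ((Nat.card (inducingChars M H b) : ℤ) - blockRank p (inducingChars M H b))
  have h0 : ∑ s ∈ Finset.univ.filter (fun s : Finset (Subgroup G) => NC p s),
      (-1) ^ s.card * W (NN s) = 0 := by
    simp only [W, hb.card_mul_sub_inducingChars hM, Finset.mul_sum]
    rw [Finset.sum_comm]
    refine Finset.sum_eq_zero fun u hu => ?_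
    obtain ⟨hu1, hu2⟩ := (Finset.mem_filter.1 hu).2
    simp only [mul_ite, mul_zero]
    rw [← Finset.sum_filter, Finset.filter_filter]
    convert sum_eq_zero hu1 (isPGroup_zpowers_of_orderOf hM.prime hu2)
      (fun K => (Nat.card K : ℤ) * blockRank p (inducingChars M K b))
  have h1 : Finset.univ.filter (fun s : Finset (Subgroup G) => NC p s) =
      insert ∅ (Finset.univ.filter (fun s : Finset (Subgroup G) => s.Nonempty ∧ NC p s)) := by
    ext s
    simp only [Finset.mem_filter, Finset.mem_univ, true_and, Finset.mem_insert]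
    rcases s.eq_empty_or_nonempty with rfl | hs
    · simp [NC]
    · simp [hs, hs.ne_empty]
  have h2 : NN (∅ : Finset (Subgroup G)) = ⊤ := by simp [NN]
  have h3 := hb.card_rank_inducingChars_top hM h2
  rw [h1, Finset.sum_insert (by simp)] at h0
  simp only [W] at h0
  rw [h3.1, h3.2, h2, Subgroup.card_top, Finset.card_empty, pow_zero, one_mul,
    add_eq_zero_iff_eq_neg, ← Finset.sum_neg_distrib] at h0
  rw [h0, finsum_mem_eq_finite_toFinset_sum _ (Set.toFinite _)]
  refine Finset.sum_congr ?_ fun s hs => ?_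
  · ext s
    rw [Finset.mem_filter, Set.Finite.mem_toFinset, Set.mem_ofPred_eq,
      and_iff_right (Finset.mem_univ _), NC]
    refine and_congr_right fun hs => and_congr_right fun hc => and_congr_right fun _ =>
      ⟨fun h => ⟨_, sup_mem_of_chain hc hs, fun Q hQ => ⟨Finset.le_sup (f := id) hQ,
        h Q hQ _ (sup_mem_of_chain hc hs)⟩⟩, ?_⟩
    rintro ⟨T, -, hT⟩ Q hQ R hR
    exact (hT R hR).1.trans (hT Q hQ).2
  · rw [Set.Finite.mem_toFinset] at hs
    obtain ⟨n, hn⟩ : ∃ n, s.card = n + 1 := ⟨s.card - 1, by have := hs.1.card_pos; omega⟩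
    rw [hn, Nat.add_sub_cancel, pow_succ, mul_assoc ((-1 : ℤ) ^ n) (_ : ℤ) (_ - _)]
    change _ = (-1) ^ n * W (NN s)
    simp only [W]; ring

end Cfsg.Agent.S4651
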