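import Cfsg.Statements.S4654
import Cfsg.Agent.Blk.PairReg

set_option autoImplicit false
open Cfsg

namespace Cfsg.Agent.S4654

/-- Fix a prime p and a maximal ideal M of the algebraic integers containing p. Let P be a normal p-subgroup of the finite group G, B a p-block of G and e a p-block of C_G(P) such that (P, e) is a Brauer pair of B (as P is normal, this says that e occurs in the idempotent of B, which is supported on C_G(P)). Let T be the stabilizer of e in G under conjugation. Then the idempotent of e is a block idempotent of T: some block E of T has, at every element of T, the same idempotent coefficient as e (zero off C_G(P)); and the idempotent of B is the sum of the distinct G-conjugates of the idempotent of e: its coefficient at g is the sum over all x in G of the coefficient of e at x⁻¹ g x, divided by the order of T. -/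
theorem result {G : Type*} [Group G] [Fintype G] (p : ℕ) [Fact p.Prime] (M : Ideal Cfsg.AlgInt) (hM : Cfsg.IsPModular p M) (P : Subgroup G) [P.Normal] (hP : IsPGroup p P) (B : Set (Cfsg.IrrCharacter G)) (e : Set (Cfsg.IrrCharacter (Subgroup.centralizer (P : Set G)))) (hBe : Cfsg.IsBrauerPairOf p M B P e) (T : Subgroup G) (hT : ∀ x : G, x ∈ T ↔ Cfsg.StabilizesBlock (Subgroup.centralizer (P : Set G)) e x) : (∃ E : Set (Cfsg.IrrCharacter T), Cfsg.IsPBlock M E ∧ ∀ t : T, Cfsg.blockCoeff E t = Cfsg.subgroupBlockCoeff (Subgroup.centralizer (P : Set G)) e (t : G)) ∧ ∀ g : G, Cfsg.blockCoeff B g = (Nat.card T : ℂ)⁻¹ * ∑ x : G, Cfsg.subgroupBlockCoeff (Subgroup.centralizer (P : Set G)) e (x⁻¹ * g * x) := by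
  haveI := hM.charP
  have he := hBe.1.2
  have hB := hBe.2.1
  have hpo := hBe.isPairOf hM
  have hp := hpo.pair
  have hcB := hB.isBlk_top hM
  have hT' : T = stabGA ⊤ (subIdem M _ e) := by
    ext x
    rw [hT, he.stabilizesBlock_iff hM, mem_stabGA]
    exact and_congr_left' (iff_of_true (le_normalizer_of_normal' ⊤ (Subgroup.mem_top x))
      (Subgroup.mem_top x))
  have hT'' : T = pairStab ⊤ P (subIdem M _ e) := by
    rw [hT', pairStab, norIn_top, Subgroup.normalizer_eq_top]
  constructor
  · obtain ⟨E, hE, -, h⟩ := he.exists_block_of_isBlk hM (hT'' ▸ hp.centralizer_le_pairStab)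
      (hT'' ▸ hp.isBlk_pairStab)
    exact ⟨E, hE, h⟩
  · intro g
    have h1 := hpo.br
    rw [brGA_eq_self_of_normal hP le_top le_rfl top_le_normalizer_of_normal hcB.mem hcB.idem] at h1
    have h2 := ((isBlk_iff_of_normal hP le_top le_top top_le_normalizer_of_normal).1 hcB).eq_orbSum
      le_top top_le_normalizer_of_normal (he.isBlk_subIdem hM) (by rw [h1]; exact hp.ne_zero)
    have h3 := (hB.isBlockUnion hM).idemC_eq_trGA hM he h2
    rw [← hT'] at h3
    have h4 : IsFixedGA T (subIdemC _ e) := by
      rw [← (he.isBlockUnion hM).toC_subIdemO hM, isFixedGA_toC_iff, hT']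
      exact he.isFixedGA_stabGA_subIdemO hM top_le_normalizer_of_normal
    have h5 := congrArg (fun a => a.coeff g) (card_smul_trGA_top h4)
    simp only [← h3, MonoidAlgebra.coeff_sum, Finsupp.finsetSum_apply, coeff_gaConj,
      coeff_subIdemC, MonoidAlgebra.coeff_smul, Finsupp.smul_apply, coeff_idemC] at h5
    rw [← h5, nsmul_eq_mul, inv_mul_cancel_left₀ (Nat.cast_ne_zero.2 Nat.card_pos.ne')]

end Cfsg.Agent.S4654
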