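import Cfsg.Statements.S4661
import Cfsg.Agent.Blk.PairBridge

set_option autoImplicit false
open Cfsg

namespace Cfsg.Agent.S4661

/-- Fix a prime p and a maximal ideal M of the algebraic integers containing p. Let (P, e) be a maximal Brauer pair of the p-block B of the finite group G, Q ≤ P, and f the p-block of C_G(Q) with (Q, f) ≤ (P, e). Then C_P(Q) is contained in a defect group of f (as a block of the group C_G(Q)); and for some x in G the conjugate pair (x Q x⁻¹, conjugate of f) again lies below (P, e) and C_P(x Q x⁻¹) is a defect group of the conjugate of f in C_G(x Q x⁻¹). -/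
theorem result {G : Type*} [Group G] [Fintype G] (p : ℕ) [Fact p.Prime] (M : Ideal Cfsg.AlgInt) (hM : Cfsg.IsPModular p M) (B : Set (Cfsg.IrrCharacter G)) (P Q : Subgroup G) (e : Set (Cfsg.IrrCharacter (Subgroup.centralizer (P : Set G)))) (f : Set (Cfsg.IrrCharacter (Subgroup.centralizer (Q : Set G)))) (hmax : Cfsg.IsMaximalBrauerPair p M B P e) (hQP : Q ≤ P) (hf : Cfsg.IsPBlock M f) (hle : Cfsg.SubpairLE p M Q f P e) : (∃ D : Subgroup (Subgroup.centralizer (Q : Set G)), Cfsg.IsDefectGroup p M f D ∧ (P ⊓ Subgroup.centralizer (Q : Set G)).subgroupOf (Subgroup.centralizer (Q : Set G)) ≤ D) ∧ ∃ x : G, Cfsg.SubpairLE p M (Q.map (MulAut.conj x).toMonoidHom) (Cfsg.conjBlock Q x f) P e ∧ Cfsg.IsDefectGroup p M (Cfsg.conjBlock Q x f) ((P ⊓ Subgroup.centralizer ((Q.map (MulAut.conj x).toMonoidHom) : Set G)).subgroupOf (Subgroup.centralizer ((Q.map (MulAut.conj x).toMonoidHom) : Set G))) := by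
  haveI := hM.charP
  have hm := hmax.isMaxPair hM
  have hl := hle.pairLE hM
  have hc := hmax.isPBlock.isBlk_top hM
  constructor
  · obtain ⟨D, hD, h⟩ := hl.exists_isDefGrp_ge hm.pairOf.pair (cenIn_top Q).le (le_normalizer_top _)
      (centralizer_le_normalizer' Q) (subIdem_mem f).2
    exact ⟨D.subgroupOf _, (hf.isDefectGroup_subgroupOf_iff hM hD.le).2 hD,
      Subgroup.comap_mono h⟩
  · obtain ⟨x, -, h1, h2⟩ := hm.exists_conj_isDefGrp le_rfl top_le_normalizer_top hc
      (hl.isPairOf_left le_rfl hc.mem hc.idem hm.pairOf) (cenIn_top Q).le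
      (le_inf le_top (centralizer_le_normalizer' Q)) (subIdem_mem f).2
    refine ⟨x, (hM.subpairLE_conj_iff hf hmax.isPBlock' x).2 h1, ?_⟩
    rw [(hf.conjBlock hM x).isDefectGroup_subgroupOf_iff hM inf_le_right, hf.subIdem_conjBlock hM,
      centralizer_conjSub]
    exact h2

end Cfsg.Agent.S4661
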