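import Cfsg.Statements.S4662
import Cfsg.Agent.Blk.PairNilp

set_option autoImplicit false
open Cfsg

namespace Cfsg.Agent.S4662

/-- Fix a prime p and a maximal ideal M of the algebraic integers containing p. Let (P, e) be a maximal Brauer pair of the p-block B of the finite group G, Q ≤ P, and f the p-block of C_G(Q) with (Q, f) ≤ (P, e). Let T be the stabilizer of f in N_G(Q). Then the idempotent of f is a block idempotent of T, and N_P(Q) is contained in a defect group of that block of T; moreover for some x in G the conjugate pair (x Q x⁻¹, conjugate of f) again lies below (P, e) and, with T' the stabilizer of the conjugate of f in N_G(x Q x⁻¹), N_P(x Q x⁻¹) is a defect group of the block of T' whose idempotent is that of the conjugate of f. -/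
theorem result {G : Type*} [Group G] [Fintype G] (p : ℕ) [Fact p.Prime] (M : Ideal Cfsg.AlgInt) (hM : Cfsg.IsPModular p M) (B : Set (Cfsg.IrrCharacter G)) (P Q : Subgroup G) (e : Set (Cfsg.IrrCharacter (Subgroup.centralizer (P : Set G)))) (f : Set (Cfsg.IrrCharacter (Subgroup.centralizer (Q : Set G)))) (hmax : Cfsg.IsMaximalBrauerPair p M B P e) (hQP : Q ≤ P) (hf : Cfsg.IsPBlock M f) (hle : Cfsg.SubpairLE p M Q f P e) (T : Subgroup G) (hT : ∀ y : G, y ∈ T ↔ y ∈ Subgroup.normalizer (Q : Set G) ∧ Cfsg.StabilizesBlock (Subgroup.centralizer (Q : Set G)) f y) : (∃ F : Set (Cfsg.IrrCharacter T), Cfsg.IsPBlock M F ∧ (∀ t : T, Cfsg.blockCoeff F t = Cfsg.subgroupBlockCoeff (Subgroup.centralizer (Q : Set G)) f (t : G)) ∧ ∃ D : Subgroup T, Cfsg.IsDefectGroup p M F D ∧ (P ⊓ Subgroup.normalizer (Q : Set G)).subgroupOf T ≤ D) ∧ ∃ x : G, Cfsg.SubpairLE p M (Q.map (MulAut.conj x).toMonoidHom) (Cfsg.conjBlock Q x f) P e ∧ ∀ (T' : Subgroup G), (∀ y : G, y ∈ T' ↔ y ∈ Subgroup.normalizer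 ((Q.map (MulAut.conj x).toMonoidHom) : Set G) ∧ Cfsg.StabilizesBlock (Subgroup.centralizer ((Q.map (MulAut.conj x).toMonoidHom) : Set G)) (Cfsg.conjBlock Q x f) y) → ∃ F' : Set (Cfsg.IrrCharacter T'), Cfsg.IsPBlock M F' ∧ (∀ t : T', Cfsg.blockCoeff F' t = Cfsg.subgroupBlockCoeff (Subgroup.centralizer ((Q.map (MulAut.conj x).toMonoidHom) : Set G)) (Cfsg.conjBlock Q x f) (t : G)) ∧ Cfsg.IsDefectGroup p M F' ((P ⊓ Subgroup.normalizer ((Q.map (MulAut.conj x).toMonoidHom) : Set G)).subgroupOf T') := by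
  haveI := hM.charP
  have hm := hmax.isMaxPair hM
  have hl := hle.pairLE hM
  have hc := hmax.isPBlock.isBlk_top hM
  have hp := hl.isPair_left hm.pairOf.pair
  obtain rfl : T = pairStab ⊤ Q (subIdem M _ f) := hf.eq_stabGA hM hT
  constructor
  · obtain ⟨F, hF, h1, h2⟩ := hf.exists_block_of_isBlk hM hp.centralizer_le_pairStab
      hp.isBlk_pairStab
    obtain ⟨D, hD, h⟩ := hl.exists_isDefGrp_ge hm.pairOf.pair (hp.cenIn_le_pairStab le_rfl)
      (le_normalizer_top _) (pairStab_le_normalizer ⊤ _ _) (isFixedGA_pairStab _ _ _)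
    refine ⟨F, hF, h2, D.subgroupOf _, (hF.isDefectGroup_subgroupOf_iff hM hD.le).2 (by rwa [h1]),
      fun x hx => h ⟨hx.1, x.2⟩⟩
  · obtain ⟨x, hx, h1, h2⟩ := hm.exists_conj_isDefGrp le_rfl top_le_normalizer_top hc
      (hl.isPairOf_left le_rfl hc.mem hc.idem hm.pairOf) (hp.cenIn_le_pairStab le_rfl)
      (pairStab_le_norIn _ _ _) (isFixedGA_pairStab _ _ _)
    refine ⟨x, (hM.subpairLE_conj_iff hf hmax.isPBlock' x).2 h1, fun T' hT' => ?_⟩
    have hf' := hf.conjBlock hM x
    rw [conjSub_pairStab_of_mem _ _ hx, ← hf.subIdem_conjBlock hM] at h2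
    rw [← hf.subIdem_conjBlock hM] at h1
    obtain rfl : T' = pairStab ⊤ _ (subIdem M _ (conjBlock Q x f)) := hf'.eq_stabGA hM hT'
    have hp' := h1.isPair_left hm.pairOf.pair
    obtain ⟨F, hF, h3, h4⟩ := hf'.exists_block_of_isBlk hM hp'.centralizer_le_pairStab
      hp'.isBlk_pairStab
    refine ⟨F, hF, h4, ?_⟩
    have h5 := h1.inf_pairStab hm.pairOf.pair le_top
    rw [hF.isDefectGroup_subgroupOf_iff hM (h5.ge.trans inf_le_right), h3]
    rwa [h5] at h2

end Cfsg.Agent.S4662
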