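import Cfsg.Statements.S4664
import Cfsg.Agent.Blk.Orth
import Cfsg.Agent.CT.Galois

set_option autoImplicit false
open Cfsg

namespace Cfsg.Agent.S4664

/-- Fix a prime p and a maximal ideal M of the algebraic integers containing p, and let B be a p-block of the finite group G. Let m be the p'-part of the order of G and η = exp(2πi/m). Then every coefficient of the idempotent of B lies in the cyclotomic field ℚ(η). -/
theorem result {G : Type*} [Group G] [Fintype G] (p : ℕ) [Fact p.Prime] (M : Ideal Cfsg.AlgInt) (hM : Cfsg.IsPModular p M) (B : Set (Cfsg.IrrCharacter G)) (hB : Cfsg.IsPBlock M B) (g : G) : Cfsg.blockCoeff B g ∈ IntermediateField.adjoin ℚ ({Complex.exp (2 * Real.pi * Complex.I / ((Nat.card G / p ^ (Nat.card G).factorization p : ℕ) : ℂ))} : Set ℂ) := by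
  by_cases hg : p ∣ orderOf g
  · rw [hB.blockCoeff_eq_zero hM hg]; exact zero_mem _
  have hp : p.Prime := Fact.out
  have hn : Nat.card G / p ^ (Nat.card G).factorization p ≠ 0 :=
    (Nat.ordCompl_pos p Nat.card_pos.ne').ne'
  have hg' : g⁻¹ ^ (Nat.card G / p ^ (Nat.card G).factorization p) = 1 := by
    rw [inv_pow, inv_eq_one, ← orderOf_dvd_iff_pow_eq_one]
    have h1 : orderOf g ∣ p ^ (Nat.card G).factorization p *
        (Nat.card G / p ^ (Nat.card G).factorization p) := by
      rw [Nat.ordProj_mul_ordCompl_eq_self]; exact orderOf_dvd_natCard g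
    exact (((Nat.Prime.coprime_iff_not_dvd hp).2 hg).symm.pow_right _).dvd_of_dvd_mul_left h1
  rw [blockCoeff_eq]
  refine mul_mem (inv_mem (natCast_mem _ _)) (sum_mem fun χ _ => mul_mem ?_ ?_)
  · rw [χ.one_eq_charDegree]; exact natCast_mem _ _
  · rw [← χ.apply_inv]
    exact χ.isCharacter.mem_cycField hn hg'

end Cfsg.Agent.S4664
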