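import Cfsg.Statements.S4665
import Cfsg.Agent.CT.PRegular

set_option autoImplicit false
open Cfsg

namespace Cfsg.Agent.S4665

/-- Fix a prime p, a maximal ideal M of the algebraic integers containing p, and a p-block B of the finite group G, and let p^a be the p-part of the order of G. Let χ be an integer combination of the irreducible characters in B. If the function that agrees with χ on p-regular elements and vanishes on p-singular elements is again an integer combination of the irreducible characters in B, then p^a divides χ(1). -/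
theorem result {G : Type*} [Group G] [Fintype G] (p : ℕ) [Fact p.Prime] (M : Ideal Cfsg.AlgInt) (hM : Cfsg.IsPModular p M) (B : Set (Cfsg.IrrCharacter G)) (hB : Cfsg.IsPBlock M B) (χ : G → ℂ) (hχ : (∃ n : Cfsg.IrrCharacter G → ℤ, ∀ g : G, χ g = ∑ᶠ ψ ∈ B, (n ψ : ℂ) * (ψ : G → ℂ) g)) (h0 : (∃ n : Cfsg.IrrCharacter G → ℤ, ∀ g : G, Cfsg.pRegularPart p χ g = ∑ᶠ ψ ∈ B, (n ψ : ℂ) * (ψ : G → ℂ) g)) : ∃ k : ℤ, χ 1 = (p ^ (Nat.card G).factorization p : ℂ) * k := by
  have hp : p.Prime := Fact.out
  obtain ⟨n, hn⟩ := h0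
  have h1 : IsGeneralizedCharacter G (pRegularPart p χ) := by
    have : pRegularPart p χ = ∑ ψ ∈ irrFinset B, fun g => (n ψ : ℂ) * ψ.1 g := by
      funext g; rw [hn, finsum_mem_irr, Finset.sum_apply]
    rw [this]
    exact IsGeneralizedCharacter.sum _ fun ψ _ => ψ.isCharacter.isGeneralizedCharacter.zsmul _
  obtain ⟨k, hk⟩ := h1.exists_one_eq_of_vanish (p := p) (fun g hg ⟨k, hk⟩ =>
    pRegularPart_of_dvd (by
      rw [hk]
      refine dvd_pow_self p ?_
      rintro rfl
      exact hg (orderOf_eq_one_iff.1 (by simpa using hk))))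
  rw [pRegularPart_one hp] at hk
  exact ⟨k, by simpa using hk⟩

end Cfsg.Agent.S4665
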