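import Cfsg.Statements.S4668
import Cfsg.Agent.Blk.PairReg

set_option autoImplicit false
open Cfsg

namespace Cfsg.Agent.S4668

/-- Fix a prime p and a maximal ideal M of the algebraic integers containing p. Let Q₀ < Q₁ < ⋯ < Q_m be a strictly increasing chain of p-subgroups of the finite group G and N the intersection of their normalizers. Then every block idempotent of N is supported on C_G(Q_m): for every p-block E of N, the idempotent coefficient of E vanishes at every element of N outside C_G(Q_m). -/
theorem result {G : Type*} [Group G] [Fintype G] (p : ℕ) [Fact p.Prime] (M : Ideal Cfsg.AlgInt) (hM : Cfsg.IsPModular p M) (m : ℕ) (Q : Fin (m + 1) → Subgroup G) (hQ : StrictMono Q) (hQp : ∀ i, IsPGroup p (Q i)) (N : Subgroup G) (hN : ∀ g : G, g ∈ N ↔ ∀ i, g ∈ Subgroup.normalizer (Q i : Set G)) (E : Set (Cfsg.IrrCharacter N)) (hE : Cfsg.IsPBlock M E) (n : N) (hn : (n : G) ∉ Subgroup.centralizer (Q (Fin.last m) : Set G)) : Cfsg.blockCoeff E n = 0 := by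
  by_cases hreg : p ∣ orderOf n
  · exact hE.blockCoeff_eq_zero hM hreg
  have hNQ : ∀ i, N ≤ Subgroup.normalizer (Q i : Set G) := fun i g hg => (hN g).1 hg i
  haveI : ((Q (Fin.last m)).subgroupOf N).Normal :=
    Subgroup.normal_subgroupOf_of_le_normalizer (hNQ _)
  refine (hE.isBlockUnion hM).blockCoeff_eq_zero_of_normal hM
    (isPGroup_subgroupOf (hQp (Fin.last m)) N) fun hc => hn ?_
  have key : ∀ j : ℕ, ∀ i : Fin (m + 1), (i : ℕ) = j →
      (n : G) ∈ Subgroup.centralizer (Q i : Set G) := by
    intro j
    induction j using Nat.strong_induction_on with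
    | _ j ih =>
    intro i hi
    refine le_centralizer_of_isNilpotent_of_centralizer_centralizer_le
      (A := Subgroup.zpowers (n : G)) (Subgroup.zpowers_le.2 (hNQ i n.2))
      (coprime_card_of_isPGroup (hQp i) (by rwa [Nat.card_zpowers, Subgroup.orderOf_coe]))
      (hQp i).isNilpotent (fun y hy => ?_) (Subgroup.mem_zpowers _)
    have hyN : y ∈ N := (hN y).2 fun l => by
      rcases lt_or_ge l i with h | h
      · refine centralizer_le_normalizer' _ (Subgroup.centralizer_le ?_ hy.2)
        refine SetLike.coe_subset_coe.2 (le_inf (hQ.monotone h.le) ?_)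
        rw [centralizer_zpowers, le_centralizer_singleton_iff]
        exact ih l (hi ▸ h) l rfl
      · exact Subgroup.le_normalizer (hQ.monotone h hy.1)
    rw [centralizer_zpowers, Subgroup.mem_centralizer_singleton_iff]
    exact congrArg Subtype.val (hc ⟨y, hyN⟩ (hQ.monotone (Fin.le_last i) hy.1))
  exact key _ _ rfl

end Cfsg.Agent.S4668
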