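import Cfsg.Statements.S4670
import Cfsg.Agent.Blk.PairMisc

set_option autoImplicit false
open Cfsg

namespace Cfsg.Agent.S4670

/-- Fix a prime p and a maximal ideal M of the algebraic integers containing p. Let P be a p-subgroup of the finite group G and H a subgroup containing N_G(P). For every p-block B of G with defect group P there is exactly one p-block c of H with defect group P whose idempotent agrees with that of B, modulo the local ideal at M, at every element of C_G(P) (their Brauer-map images at P coincide); and every p-block c of H with defect group P arises in this way from exactly one such B. This is the Brauer correspondence over H. -/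
theorem result {G : Type*} [Group G] [Fintype G] (p : ℕ) [Fact p.Prime] (M : Ideal Cfsg.AlgInt) (hM : Cfsg.IsPModular p M) (P H : Subgroup G) (hP : IsPGroup p P) (hH : Subgroup.normalizer (P : Set G) ≤ H) : (∀ B : Set (Cfsg.IrrCharacter G), Cfsg.IsPBlock M B → Cfsg.IsDefectGroup p M B P → ∃! c : Set (Cfsg.IrrCharacter H), Cfsg.IsPBlock M c ∧ Cfsg.IsDefectGroup p M c (P.subgroupOf H) ∧ ∀ x : G, x ∈ Subgroup.centralizer (P : Set G) → Cfsg.MemLocalIdeal M (Cfsg.blockCoeff B x - Cfsg.subgroupBlockCoeff H c x)) ∧ (∀ c : Set (Cfsg.IrrCharacter H), Cfsg.IsPBlock M c → Cfsg.IsDefectGroup p M c (P.subgroupOf H) → ∃! B : Set (Cfsg.IrrCharacter G), Cfsg.IsPBlock M B ∧ Cfsg.IsDefectGroup p M B P ∧ ∀ x : G, x ∈ Subgroup.centralizer (P : Set G) → Cfsg.MemLocalIdeal M (Cfsg.blockCoeff B x - Cfsg.subgroupBlockCoeff H c x)) := by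
  haveI := hM.charP
  have hPH : P ≤ H := Subgroup.le_normalizer.trans hH
  have key : ∀ (B : Set (IrrCharacter G)) (c : Set (IrrCharacter H)), IsPBlock M B → IsPBlock M c →
      IsDefectGroup p M c (P.subgroupOf H) →
      ((∀ x : G, x ∈ Subgroup.centralizer (P : Set G) →
        MemLocalIdeal M (blockCoeff B x - subgroupBlockCoeff H c x)) ↔ IsInducedBlock M H c B) := by
    intro B c hB hc hD
    rw [hM.isInducedBlock_iff_indBlk hc hB, ((hc.isDefectGroup_subgroupOf_iff hM hPH).1
      hD).indBlk_iff_brGA_eq le_top (hc.isBlk_subIdem hM) (hB.isBlk_top hM) (inf_le_right.trans hH),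
      brGA_def, brGA_def, gaCut_eq_gaCut_iff]
    exact forall₂_congr fun x _ =>
      (hB.isBlockUnion hM).memLocalIdeal_coeff_iff hM (hc.isBlockUnion hM) x
  constructor
  · intro B hB hD
    obtain ⟨c, hc, hcD⟩ := hD.exists_isInducedBlock_of_normalizer_le hM hB hH
    refine ⟨c, ⟨hc.1, hcD, (key B c hB hc.1 hcD).2 hc⟩, fun c' ⟨h1, h2, h3⟩ => ?_⟩
    exact ((key B c' hB h1 h2).1 h3).eq_of_normalizer_le hM hc h2 hcD hH
  · intro c hc hD
    obtain ⟨B, hB⟩ := hc.inducedBlockDefined_of_isDefectGroup hM hD (by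
      rw [Subgroup.map_subgroupOf_eq_of_le hPH]
      exact (centralizer_le_normalizer' P).trans hH)
    refine ⟨B, ⟨hB.2.1, hB.isDefectGroup_of_normalizer_le hM hD hH, (key B c hB.2.1 hc hD).2 hB⟩,
      fun B' ⟨h1, _, h3⟩ => ((key B' c h1 hc hD).1 h3).unique hM hB⟩

end Cfsg.Agent.S4670
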