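import Cfsg.Statements.S4671
import Cfsg.Agent.Blk.PairReg

set_option autoImplicit false
open Cfsg

namespace Cfsg.Agent.S4671

/-- Fix a prime p and a maximal ideal M of the algebraic integers containing p. Let N be a normal subgroup of the finite group G, B a p-block of G and P a defect group of B. Then there is a p-block c of N, stable under conjugation by P and covered by B (some member of B has a constituent in c on restriction to N), such that P ∩ N is a defect group of c. -/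
theorem result {G : Type*} [Group G] [Fintype G] (p : ℕ) [Fact p.Prime] (M : Ideal Cfsg.AlgInt) (hM : Cfsg.IsPModular p M) (N : Subgroup G) [N.Normal] [Fintype N] (B : Set (Cfsg.IrrCharacter G)) (hB : Cfsg.IsPBlock M B) (P : Subgroup G) (hP : Cfsg.IsDefectGroup p M B P) : ∃ c : Set (Cfsg.IrrCharacter N), Cfsg.IsPBlock M c ∧ (∀ x ∈ P, Cfsg.StabilizesBlock N c x) ∧ (∃ χ ∈ B, ∃ θ ∈ c, Cfsg.classInner (fun n : N => (χ : G → ℂ) n) (θ : N → ℂ) ≠ 0) ∧ Cfsg.IsDefectGroup p M c ((P ⊓ N).subgroupOf N) := by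
  haveI := hM.charP
  have hcB := hB.isBlk_top hM
  rw [hB.isDefectGroup_iff hM] at hP
  obtain ⟨a, ha, hfix, h1⟩ := exists_isBlk_stable_brGA (N := N) hP.pgrp
    (le_normalizer_of_normal' P) hP.br_ne
  obtain ⟨c, hc, rfl⟩ := ha.exists_eq_subIdem hM
  have hcov : idemK M B * subIdem M N c ≠ 0 := fun h0 => h1 (by
    rw [← brGA_mul hP.pgrp hfix (hcB.fixed.mono le_top),
      ← (commute_of_mem_suppGA (mem_suppGA_top _) hcB.fixed).symm.eq, h0, map_zero])
  refine ⟨c, hc, fun x hx => (hc.stabilizesBlock_iff hM).2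
    ⟨le_normalizer_of_normal' P hx, hfix x hx⟩, (hB.covers_iff hM hc).2 hcov, ?_⟩
  rw [hc.isDefectGroup_subgroupOf_iff hM inf_le_right]
  obtain ⟨Q, hQ, hle⟩ := ha.exists_isDefGrp_ge Subgroup.le_normalizer
    (hP.pgrp.to_inf_left (K := N)) inf_le_right
    (brGA_ne_zero_of_le inf_le_left (left_ne_zero_of_mul h1))
  have h3 := ha.brGA_ne_zero_of_mul_eq hQ.pgrp hQ.le hQ.br_ne
    ⟨suppGA_mono top_le_normalizer_of_normal hcB.supp, hcB.fixed.mono le_top⟩ hcB.idem hcov
  obtain ⟨x, -, hx⟩ := hP.max Q hQ.pgrp le_top h3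
  have h4 : Q ≤ conjSub (P ⊓ N) x := by
    rw [conjSub_inf, ← conjSub_normal (N := N)]; exact le_inf hx hQ.le
  have h5 := Subgroup.card_le_of_le h4
  rw [card_conjSub] at h5
  rwa [Subgroup.eq_of_le_of_card_ge hle h5]

end Cfsg.Agent.S4671
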