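import Cfsg.Statements.S4672
import Cfsg.Agent.Blk.PairReg

set_option autoImplicit false
open Cfsg

namespace Cfsg.Agent.S4672

/-- Fix a prime p and a maximal ideal M of the algebraic integers containing p. Let N be a normal subgroup of the finite group G of p-power index and c a p-block of N stable under conjugation by G. Then the idempotent of c is a block idempotent of G: there is a p-block B of G whose idempotent coefficients agree with those of c on N and vanish off N; and for every defect group P of such a block B, G = NP and P ∩ N is a defect group of c. -/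
theorem result {G : Type*} [Group G] [Fintype G] (p : ℕ) [Fact p.Prime] (M : Ideal Cfsg.AlgInt) (hM : Cfsg.IsPModular p M) (N : Subgroup G) [N.Normal] (hN : ∃ k : ℕ, N.index = p ^ k) (c : Set (Cfsg.IrrCharacter N)) (hc : Cfsg.IsPBlock M c) (hst : ∀ x : G, Cfsg.StabilizesBlock N c x) : (∃ B : Set (Cfsg.IrrCharacter G), Cfsg.IsPBlock M B ∧ ∀ g : G, Cfsg.blockCoeff B g = Cfsg.subgroupBlockCoeff N c g) ∧ ∀ B : Set (Cfsg.IrrCharacter G), Cfsg.IsPBlock M B → (∀ g : G, Cfsg.blockCoeff B g = Cfsg.subgroupBlockCoeff N c g) → ∀ P : Subgroup G, Cfsg.IsDefectGroup p M B P → N ⊔ P = ⊤ ∧ Cfsg.IsDefectGroup p M c ((P ⊓ N).subgroupOf N) := by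
  haveI := hM.charP
  obtain ⟨k, hk⟩ := hN
  have he := hc.isBlk_subIdem hM
  have hfix : IsFixedGA ⊤ (subIdem M N c) := fun x _ => ((hc.stabilizesBlock_iff hM).1 (hst x)).2
  constructor
  · obtain ⟨B, hB, h⟩ := (he.isBlk_of_regular hM le_top hfix fun x hx hreg =>
      mem_of_isPRegular_of_relIndex_eq_pow top_le_normalizer_of_normal
        (by rw [Subgroup.relIndex_top_right, hk]) hx hreg).exists_idemK_eq hM
    exact ⟨B, hB, ((hB.isBlockUnion hM).idemK_eq_subIdem_iff hM (hc.isBlockUnion hM)).1 h⟩
  · intro B hB h P hP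
    rw [hB.isDefectGroup_iff hM,
      ((hB.isBlockUnion hM).idemK_eq_subIdem_iff hM (hc.isBlockUnion hM)).2 h] at hP
    refine ⟨?_, (hc.isDefectGroup_subgroupOf_iff hM inf_le_right).2
      (hP.inf_of_normal he le_top top_le_normalizer_of_normal hfix)⟩
    have h1 := he.not_dvd_relIndex le_top top_le_normalizer_of_normal hfix hP
    rw [Subgroup.relIndex_top_right] at h1
    obtain ⟨j, -, hj⟩ := (Nat.dvd_prime_pow hM.prime).1
      (hk ▸ Subgroup.index_dvd_of_le (le_sup_left : N ≤ N ⊔ P))
    rw [← Subgroup.index_eq_one, hj]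
    rcases j with _ | j
    · rfl
    · exact absurd (hj ▸ dvd_pow_self p j.succ_ne_zero) h1

end Cfsg.Agent.S4672
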