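import Cfsg.Statements.S4673
import Cfsg.Agent.Blk.PairReg

set_option autoImplicit false
open Cfsg

namespace Cfsg.Agent.S4673

/-- Fix a prime p and a maximal ideal M of the algebraic integers containing p. Let N ≤ L be normal subgroups of the finite group G with L/N a p-group, let B be a p-block of G covering the p-block c of N (some member of B has a constituent in c on restriction to N), and suppose that N contains a defect group of B. Then the stabilizer T of c in G satisfies T ∩ L = N. -/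
theorem result {G : Type*} [Group G] [Fintype G] (p : ℕ) [Fact p.Prime] (M : Ideal Cfsg.AlgInt) (hM : Cfsg.IsPModular p M) (N L : Subgroup G) [N.Normal] [L.Normal] [Fintype N] (hNL : N ≤ L) (hLN : ∃ k : ℕ, (N.subgroupOf L).index = p ^ k) (B : Set (Cfsg.IrrCharacter G)) (hB : Cfsg.IsPBlock M B) (c : Set (Cfsg.IrrCharacter N)) (hc : Cfsg.IsPBlock M c) (hcov : (∃ χ ∈ B, ∃ θ ∈ c, Cfsg.classInner (fun n : N => (χ : G → ℂ) n) (θ : N → ℂ) ≠ 0)) (hD : ∃ D : Subgroup G, Cfsg.IsDefectGroup p M B D ∧ D ≤ N) (T : Subgroup G) (hT : ∀ x : G, x ∈ T ↔ Cfsg.StabilizesBlock N c x) : T ⊓ L = N := by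
  haveI := hM.charP
  obtain ⟨k, hk⟩ := hLN
  obtain ⟨D, hD, hDN⟩ := hD
  have he := hc.isBlk_subIdem hM
  have hcB := hB.isBlk_top hM
  rw [hB.isDefectGroup_iff hM] at hD
  rw [hB.covers_iff hM hc] at hcov
  have hfix : IsFixedGA (T ⊓ L) (subIdem M N c) := fun x hx =>
    ((hc.stabilizesBlock_iff hM).1 ((hT x).1 hx.1)).2
  have hNT : N ≤ T ⊓ L := le_inf (fun x hx => (hT x).2 ((hc.stabilizesBlock_iff hM).2
    ⟨Subgroup.le_normalizer hx, he.fixed x hx⟩)) hNL
  refine le_antisymm ?_ hNT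
  obtain ⟨R, hR⟩ := (he.isPrimIdem_of_isFixed hNT hfix).exists_isDefGrp p
    (le_normalizer_of_normal' _)
  have hd := he.isBlk_orbSum_of_regular hM hNL (le_normalizer_of_normal' L) fun x hx hreg =>
    mem_of_isPRegular_of_relIndex_eq_pow (le_normalizer_of_normal' L) hk hx hreg
  have h1 := he.orbSum_mul_self (le_normalizer_of_normal' (N := N) L)
  have hRL := hR.le.trans inf_le_right
  have h2 : brGA (resK M) R (orbSum L (subIdem M N c)) ≠ 0 := fun h0 => hR.br_ne (by
    rw [← h1, brGA_mul hR.pgrp (hd.fixed.mono hRL) (hfix.mono hR.le), h0, zero_mul])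
  have h3 := hd.brGA_ne_zero_of_mul_eq hR.pgrp hRL h2
    (fixSuppGA_mono (top_le_normalizer_of_normal (N := L)) le_top hcB.mem) hcB.idem
    (fun h0 => hcov (by rw [← h1, ← mul_assoc, h0, zero_mul]))
  obtain ⟨x, -, hx⟩ := hD.max R hR.pgrp le_top h3
  have hRN : R ≤ N := hx.trans ((conjSub_mono hDN x).trans (conjSub_normal x).ge)
  have h4 := he.not_dvd_relIndex hNT (le_normalizer_of_normal' _) hfix hR
  rw [sup_eq_left.2 hRN] at h4
  have h5 := relIndex_dvd_of_le_normalizer (le_normalizer_of_normal' (N := N) L)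
    (inf_le_right : T ⊓ L ≤ L)
  rw [show N.relIndex L = p ^ k from hk] at h5
  obtain ⟨j, -, hj⟩ := (Nat.dvd_prime_pow hM.prime).1 h5
  rw [← Subgroup.relIndex_eq_one, hj]
  rcases j with _ | j
  · rfl
  · exact absurd (hj ▸ dvd_pow_self p j.succ_ne_zero) h4

end Cfsg.Agent.S4673
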