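import Cfsg.Statements.S4674
import Cfsg.Agent.Blk.Cover
import Cfsg.Agent.Blk.Induced

set_option autoImplicit false
open Cfsg

namespace Cfsg.Agent.S4674

/-- Fix a prime p and a maximal ideal M of the algebraic integers containing p. Let N be a normal subgroup of the finite group G, Q a p-subgroup of N, H = N_G(Q) and L = H ∩ N = N_N(Q). Let d be a p-block of N with defect group Q and e the p-block of L with defect group Q that induces d inside N (its Brauer correspondent). Then block induction from H to G is a bijection from the p-blocks of H covering e onto the p-blocks of G covering d: every block of H covering e induces exactly one block of G, and that block covers d; and every block of G covering d is induced by exactly one block of H covering e. -/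
theorem result {G : Type*} [Group G] [Fintype G] (p : ℕ) [Fact p.Prime] (M : Ideal Cfsg.AlgInt) (hM : Cfsg.IsPModular p M) (N : Subgroup G) [N.Normal] [Fintype N] (Q : Subgroup G) (hQ : IsPGroup p Q) (hQN : Q ≤ N) [Fintype ↥(Subgroup.normalizer (Q : Set G) ⊓ N)] (d : Set (Cfsg.IrrCharacter N)) (hd : Cfsg.IsPBlock M d) (hdQ : Cfsg.IsDefectGroup p M d (Q.subgroupOf N)) (e : Set (Cfsg.IrrCharacter ↥(Subgroup.normalizer (Q : Set G) ⊓ N))) (he : Cfsg.IsPBlock M e) (heQ : Cfsg.IsDefectGroup p M e (Q.subgroupOf (Subgroup.normalizer (Q : Set G) ⊓ N))) (hed : Cfsg.IsInducedBlockIn M N (Subgroup.normalizer (Q : Set G) ⊓ N) e d) : (∀ c : Set (Cfsg.IrrCharacter ↥(Subgroup.normalizer (Q : Set G))), Cfsg.IsPBlock M c → (∃ ψ ∈ c, ∃ ξ ∈ e, Cfsg.classInner (fun l : ↥(Subgroup.normalizer (Q : Set G) ⊓ N) => (ψ : ↥(Subgroup.normalizer (Q : Set G)) → ℂ) (Subgroup.inclusion inf_le_left l)) (ξ : ↥(Subgroup.normalizer (Q : Set G) ⊓ N) → ℂ) ≠ 0)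 → ∃! B : Set (Cfsg.IrrCharacter G), Cfsg.IsInducedBlock M (Subgroup.normalizer (Q : Set G)) c B ∧ (∃ χ ∈ B, ∃ θ ∈ d, Cfsg.classInner (fun n : N => (χ : G → ℂ) n) (θ : N → ℂ) ≠ 0)) ∧ (∀ B : Set (Cfsg.IrrCharacter G), Cfsg.IsPBlock M B → (∃ χ ∈ B, ∃ θ ∈ d, Cfsg.classInner (fun n : N => (χ : G → ℂ) n) (θ : N → ℂ) ≠ 0) → ∃! c : Set (Cfsg.IrrCharacter ↥(Subgroup.normalizer (Q : Set G))), (Cfsg.IsPBlock M c ∧ ∃ ψ ∈ c, ∃ ξ ∈ e, Cfsg.classInner (fun l : ↥(Subgroup.normalizer (Q : Set G) ⊓ N) => (ψ : ↥(Subgroup.normalizer (Q : Set G)) → ℂ) (Subgroup.inclusion inf_le_left l)) (ξ : ↥(Subgroup.normalizer (Q : Set G) ⊓ N) → ℂ) ≠ 0) ∧ Cfsg.IsInducedBlock M (Subgroup.normalizer (Q : Set G)) c B) := by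
  have := hM.charP
  have hc0 := hd.isBlk_subIdem hM
  have hQ' := (hd.isDefectGroup_subgroupOf_iff hM hQN).1 hdQ
  have hL : Subgroup.normalizer (Q : Set G) ⊓ N = norIn N Q := inf_comm _ _
  have he0 : subIdem M _ e = brGA (resK M) Q (subIdem M N d) := by
    have h1 := hed.indBlk hM inf_le_right
    have h2 := he.isBlk_subIdem hM
    generalize subIdem M _ e = a at h1 h2 ⊢
    rw [hL] at h1 h2
    exact (hQ'.indBlk_norIn_iff hc0 h2).1 h1
  have hn : (⊤ : Subgroup G) ≤ Subgroup.normalizer (N : Set G) := top_le_normalizer_of_normal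
  have hcov : ∀ c : Set (Cfsg.IrrCharacter ↥(Subgroup.normalizer (Q : Set G))), Cfsg.IsPBlock M c →
      ((∃ ψ ∈ c, ∃ ξ ∈ e, Cfsg.classInner (fun l : ↥(Subgroup.normalizer (Q : Set G) ⊓ N) =>
        (ψ : ↥(Subgroup.normalizer (Q : Set G)) → ℂ) (Subgroup.inclusion inf_le_left l))
        (ξ : ↥(Subgroup.normalizer (Q : Set G) ⊓ N) → ℂ) ≠ 0) ↔
        subIdem M _ c * brGA (resK M) Q (subIdem M N d) ≠ 0) := fun c hc => by
    rw [← he0]
    exact hc.covers_sub_iff hM inf_le_left he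
  have hind : ∀ c : Set (Cfsg.IrrCharacter ↥(Subgroup.normalizer (Q : Set G))), Cfsg.IsPBlock M c →
      ∀ B : Set (IrrCharacter G), IsPBlock M B →
      (IsInducedBlock M _ c B ↔ brGA (resK M) Q (idemK M B) * subIdem M _ c = subIdem M _ c) :=
    fun c hc B hB => hM.isInducedBlock_iff_of_normal hc hB hQ Subgroup.le_normalizer
      (centralizer_le_normalizer' Q) le_rfl
  have hblk : ∀ c : Set (Cfsg.IrrCharacter ↥(Subgroup.normalizer (Q : Set G))), Cfsg.IsPBlock M c →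
      IsBlk (resK M) (norIn ⊤ Q) (subIdem M _ c) := fun c hc => by
    rw [norIn_top]; exact hc.isBlk_subIdem hM
  refine ⟨fun c hc h => ?_, fun B hB h => ?_⟩
  · obtain ⟨B, hB⟩ := hc.inducedBlockDefined_of_normal hM hQ Subgroup.le_normalizer
      (centralizer_le_normalizer' Q) le_rfl
    refine ⟨B, ⟨hB, (hB.2.1.covers_iff hM hd).2 ?_⟩, fun B' hB' => hB'.1.unique hM hB⟩
    exact hk_mul_ne_zero le_top hc0 hQ' (hB.2.1.isBlk_top hM) (hblk c hc)
      ((hind c hc B hB.2.1).1 hB) ((hcov c hc).1 h)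
  · obtain ⟨ε, h1, h2, h3⟩ := hk_exists le_top hn hc0 hQ' (hB.isBlk_top hM)
      ((hB.covers_iff hM hd).1 h)
    have h1' := h1
    rw [norIn_top] at h1'
    obtain ⟨c, hc, rfl⟩ := h1'.exists_eq_subIdem hM
    refine ⟨c, ⟨⟨hc, (hcov c hc).2 h3⟩, (hind c hc B hB).2 h2⟩, fun c' hc' => ?_⟩
    exact hc'.1.1.eq_of_subIdem_eq hM hc (hk_unique le_top hn hc0 hQ' (hB.isBlk_top hM)
      (hblk c' hc'.1.1) ((hind c' hc'.1.1 B hB).1 hc'.2) ((hcov c' hc'.1.1).1 hc'.1.2) h1 h2 h3)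

end Cfsg.Agent.S4674
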