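import Cfsg.Statements.S4675
import Cfsg.Agent.Blk.Cartan
import Cfsg.Agent.Blk.Defect

set_option autoImplicit false
open Cfsg

namespace Cfsg.Agent.S4675

/-- Fix a prime p and a maximal ideal M of the algebraic integers containing p. Let B be a p-block of the finite group G with defect group P and p-regular rank one (a single irreducible Brauer character). Then there are a function φ on G that is, on the p-regular elements, an integer combination of the members of B, and natural numbers d_χ (χ ∈ B), such that every χ ∈ B agrees with d_χ·φ on the p-regular elements and Σ_{χ ∈ B} d_χ² equals the order of P (the single Cartan invariant of B is the order of P). -/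
theorem result {G : Type*} [Group G] [Fintype G] (p : ℕ) [Fact p.Prime] (M : Ideal Cfsg.AlgInt) (hM : Cfsg.IsPModular p M) (B : Set (Cfsg.IrrCharacter G)) (hB : Cfsg.IsPBlock M B) (P : Subgroup G) (hP : Cfsg.IsDefectGroup p M B P) (hl : Cfsg.blockRank p B = 1) : ∃ φ : G → ℂ, ∃ d : Cfsg.IrrCharacter G → ℕ, (∃ n : Cfsg.IrrCharacter G → ℤ, ∀ x : G, Cfsg.IsPRegular p x → φ x = ∑ᶠ ψ ∈ B, (n ψ : ℂ) * (ψ : G → ℂ) x) ∧ (∀ χ ∈ B, ∀ x : G, Cfsg.IsPRegular p x → (χ : G → ℂ) x = (d χ : ℂ) * φ x) ∧ ∑ᶠ χ ∈ B, d χ ^ 2 = Nat.card P := by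
  obtain ⟨φ, d, h, hpos, hreg, -, hsum⟩ := (hB.isBlockUnion hM).exists_of_blockRank_eq_one hM hl
  refine ⟨φ (), fun χ => (d χ ()).toNat, ?_, ?_, ?_⟩
  · obtain ⟨a, ha⟩ := h.span ()
    refine ⟨a, fun x hx => ?_⟩
    rw [finsum_mem_irr, ha, Finset.sum_apply]
    refine Finset.sum_congr rfl fun ψ _ => ?_
    rw [Pi.smul_apply, smul_eq_mul, pRegularPart_of_not_dvd hx]
  · intro χ hχ x hx
    have := congrFun (hreg χ hχ) x
    rw [pRegularPart_of_not_dvd hx, Pi.smul_apply, smul_eq_mul] at this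
    rw [this]
    congr 1
    exact_mod_cast (Int.toNat_of_nonneg (hpos χ hχ).le).symm
  · rw [finsum_mem_irr, hP.card_eq hM hB]
    have : ((∑ χ ∈ irrFinset B, (d χ ()).toNat ^ 2 : ℕ) : ℤ) = ((p ^ blockDefect p B : ℕ) : ℤ) := by
      push_cast
      rw [← hsum]
      exact Finset.sum_congr rfl fun χ hχ => by
        rw [Int.toNat_of_nonneg (hpos χ (mem_irrFinset.1 hχ)).le]
    exact_mod_cast this

end Cfsg.Agent.S4675
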