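import Cfsg.Statements.S4679
import Cfsg.Agent.Blk.PairNilp

set_option autoImplicit false
open Cfsg

namespace Cfsg.Agent.S4679

/-- Fix a prime p and a maximal ideal M of the algebraic integers containing p, a p-block B of the finite group G with maximal Brauer pair (P, e), its fusion system F on P, a Brauer pair (Q, f) ≤ (P, e), and let T be the stabilizer of f in N_G(Q). Then Q is fully normalized in F if and only if N_P(Q) is a defect group of the block of T whose idempotent is that of f. -/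
theorem result {G : Type*} [Group G] [Fintype G] (p : ℕ) [Fact p.Prime] (M : Ideal Cfsg.AlgInt) (hM : Cfsg.IsPModular p M) (B : Set (Cfsg.IrrCharacter G)) (P : Subgroup G) (e : Set (Cfsg.IrrCharacter (Subgroup.centralizer (P : Set G)))) (hmax : Cfsg.IsMaximalBrauerPair p M B P e) (F : Cfsg.FusionSystem P) (hF : Cfsg.IsBlockFusionSystemOn p M B P e F) (Q : Subgroup G) (f : Set (Cfsg.IrrCharacter (Subgroup.centralizer (Q : Set G)))) (hQP : Q ≤ P) (hf : Cfsg.IsPBlock M f) (hle : Cfsg.SubpairLE p M Q f P e) (T : Subgroup G) (hT : ∀ y : G, y ∈ T ↔ y ∈ Subgroup.normalizer (Q : Set G) ∧ Cfsg.StabilizesBlock (Subgroup.centralizer (Q : Set G)) f y) : F.IsFullyNormalized Q ↔ ∃ F' : Set (Cfsg.IrrCharacter T), Cfsg.IsPBlock M F' ∧ (∀ t : T, Cfsg.blockCoeff F' t = Cfsg.subgroupBlockCoeff (Subgroup.centralizer (Q : Set G)) f (t : G)) ∧ Cfsg.IsDefectGroup p M F' ((P ⊓ Subgroup.normalizer (Q : Set G)).subgroupOf T) := by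
  haveI := hM.charP
  have hm := hmax.isMaxPair hM
  have hl := hle.pairLE hM
  have he := hm.pairOf.pair
  have hp := hl.isPair_left he
  obtain rfl : T = pairStab ⊤ Q (subIdem M _ f) := hf.eq_stabGA hM hT
  have h5 := hl.inf_pairStab he le_top
  have key : F.IsFullyNormalized Q ↔
      IsDefGrp p (pairStab ⊤ Q (subIdem M _ f)) (subIdem M _ f) (norIn P Q) := by
    rw [← h5, hm.isDefGrp_iff_card le_rfl top_le_normalizer_top (hmax.isPBlock.isBlk_top hM) hl
      (hp.cenIn_le_pairStab le_rfl) (pairStab_le_norIn _ _ _) (isFixedGA_pairStab _ _ _), h5]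
    constructor
    · rintro ⟨-, h⟩ x hx' hx
      rw [conjSub_pairStab_of_mem _ _ hx', hx.inf_pairStab he le_top]
      exact h _ ((hF.isConj_iff hM hl _).2 ⟨x, rfl, hx⟩)
    · intro h
      refine ⟨hQP, fun R hR => ?_⟩
      obtain ⟨x, rfl, hx⟩ := (hF.isConj_iff hM hl _).1 hR
      have := h x trivial hx
      rwa [conjSub_pairStab_of_mem _ _ (Subgroup.mem_top x), hx.inf_pairStab he le_top] at this
  rw [key]
  constructor
  · intro h
    obtain ⟨F', hF', h1, h2⟩ := hf.exists_block_of_isBlk hM hp.centralizer_le_pairStab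
      hp.isBlk_pairStab
    exact ⟨F', hF', h2, (hF'.isDefectGroup_subgroupOf_iff hM h.le).2 (by rwa [h1])⟩
  · rintro ⟨F', hF', h1, h2⟩
    rwa [hF'.isDefectGroup_subgroupOf_iff hM (h5.ge.trans inf_le_right),
      ((hF'.isBlockUnion hM).subIdem_eq_iff hM hp.centralizer_le_pairStab
        (hf.isBlockUnion hM)).2 h1] at h2

end Cfsg.Agent.S4679
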