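import Cfsg.Statements.S4680
import Cfsg.Agent.Blk.PairNilp

set_option autoImplicit false
open Cfsg

namespace Cfsg.Agent.S4680

/-- Fix a prime p and a maximal ideal M of the algebraic integers containing p, a p-block B of the finite group G with maximal Brauer pair (P, e), its fusion system F on P, and a Brauer pair (Q, f) ≤ (P, e). Then Q is centric in F if and only if Z(Q) is a defect group of f as a block of C_G(Q). -/
theorem result {G : Type*} [Group G] [Fintype G] (p : ℕ) [Fact p.Prime] (M : Ideal Cfsg.AlgInt) (hM : Cfsg.IsPModular p M) (B : Set (Cfsg.IrrCharacter G)) (P : Subgroup G) (e : Set (Cfsg.IrrCharacter (Subgroup.centralizer (P : Set G)))) (hmax : Cfsg.IsMaximalBrauerPair p M B P e) (F : Cfsg.FusionSystem P) (hF : Cfsg.IsBlockFusionSystemOn p M B P e F) (Q : Subgroup G) (f : Set (Cfsg.IrrCharacter (Subgroup.centralizer (Q : Set G)))) (hQP : Q ≤ P) (hf : Cfsg.IsPBlock M f) (hle : Cfsg.SubpairLE p M Q f P e) : F.IsCentric Q ↔ Cfsg.IsDefectGroup p M f ((Q ⊓ Subgroup.centralizer (Q : Set G)).subgroupOf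 (Subgroup.centralizer (Q : Set G))) := by
  haveI := hM.charP
  have hm := hmax.isMaxPair hM
  have hl := hle.pairLE hM
  have he := hm.pairOf.pair
  have hc := hmax.isPBlock.isBlk_top hM
  rw [hf.isDefectGroup_subgroupOf_iff hM inf_le_right]
  constructor
  · rintro ⟨-, h⟩
    obtain ⟨x, -, h1, h2⟩ := hm.exists_conj_isDefGrp le_rfl top_le_normalizer_top hc
      (hl.isPairOf_left le_rfl hc.mem hc.idem hm.pairOf) (cenIn_top Q).le
      (le_inf le_top (centralizer_le_normalizer' Q)) (subIdem_mem f).2
    have h3 : P ⊓ conjSub (Subgroup.centralizer (Q : Set G)) x =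
        conjSub (Q ⊓ Subgroup.centralizer (Q : Set G)) x := by
      rw [conjSub_inf, ← centralizer_conjSub]
      exact le_antisymm (le_inf (h _ ((hF.isConj_iff hM hl _).2 ⟨x, rfl, h1⟩)) inf_le_right)
        (inf_le_inf_right _ h1.le)
    have := h2.conj x⁻¹
    rwa [h3, conjSub_conjSub_inv, conjSub_conjSub_inv, gaConj_inv_gaConj] at this
  · intro h
    refine ⟨hQP, fun R hR => ?_⟩
    obtain ⟨x, rfl, hx⟩ := (hF.isConj_iff hM hl _).1 hR
    have h1 := h.conj x
    rw [conjSub_inf, ← centralizer_conjSub] at h1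
    have := h1.eq_of_le (he.pgrp.to_le inf_le_left) inf_le_right
      (hx.brGA_ne_zero he (inf_le_inf_left P (centralizer_le_normalizer' _)))
      (inf_le_inf_right _ hx.le)
    exact this.le.trans inf_le_left

end Cfsg.Agent.S4680
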