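import Cfsg.Statements.S4681
import Cfsg.Agent.Blk.PairNilp

set_option autoImplicit false
open Cfsg

namespace Cfsg.Agent.S4681

/-- Fix a prime p and a maximal ideal M of the algebraic integers containing p. Let B₀ be the principal p-block of the finite group G, P a Sylow p-subgroup and e₀ the principal p-block of C_G(P). Then (P, e₀) is a maximal Brauer pair of B₀, and the fusion system of B₀ on (P, e₀) is the fusion system of G on P: its maps from each subgroup of P are exactly the conjugation maps into P by elements of G. -/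
theorem result {G : Type*} [Group G] [Fintype G] (p : ℕ) [Fact p.Prime] (M : Ideal Cfsg.AlgInt) (hM : Cfsg.IsPModular p M) (S : Sylow p G) : Cfsg.IsMaximalBrauerPair p M (Cfsg.principalBlock M G) (S : Subgroup G) (Cfsg.principalBlock M (Subgroup.centralizer ((S : Subgroup G) : Set G))) ∧ ∀ F : Cfsg.FusionSystem (S : Subgroup G), Cfsg.IsBlockFusionSystemOn p M (Cfsg.principalBlock M G) (S : Subgroup G) (Cfsg.principalBlock M (Subgroup.centralizer ((S : Subgroup G) : Set G))) F → ∀ Q : Subgroup G, F.Hom Q = (Cfsg.groupFusionSystem (S : Subgroup G)).Hom Q := by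
  haveI := hM.charP
  have hB := isPBlock_principalBlock (M := M) (G := G)
  have he := isPBlock_principalBlock (M := M) (G := Subgroup.centralizer ((S : Subgroup G) : Set G))
  have hc := hB.isBlk_top hM
  have hp := he.isPair hM S.isPGroup'
  have h1 := hM.augGA_subIdem_principal (Subgroup.centralizer ((S : Subgroup G) : Set G))
  refine ⟨hM.isMaximalBrauerPair_iff_isDefectGroup.2 ⟨(hM.isBrauerPairOf_iff hB he).2
    (hp.isPairOf_of_augGA le_rfl hc.mem hc.idem le_top hM.augGA_idemK_principal h1),
    (hM.isDefectGroup_principalBlock_iff _).2 ⟨S, rfl⟩⟩, fun F hF Q => ?_⟩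
  ext φ
  constructor
  · intro h
    obtain ⟨h2, h3⟩ := F.le_of_mem h
    obtain ⟨-, g, hg, -⟩ := (hF.2 Q φ).1 h
    exact ⟨h2, h3, g, hg⟩
  · rintro ⟨h2, h3, g, hg⟩
    obtain ⟨a, ha⟩ := exists_pairLE hp h2
    refine (hF.mem_hom_iff hM ha φ).2 ⟨g, hg, pairLE_of_augGA
      ((ha.isPair_left hp).conj_of_normalizer (mem_normalizer_top g)) hp ?_
      (by rw [augGA_gaConj]; exact ha.augGA_left h1) h1⟩
    rw [← range_eq_conjSub hg]
    rintro _ ⟨x, rfl⟩
    exact h3 x

end Cfsg.Agent.S4681
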