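import Cfsg.Statements.S4682
import Cfsg.Agent.Blk.PairNilp

set_option autoImplicit false
open Cfsg

namespace Cfsg.Agent.S4682

/-- Fix a prime p and a maximal ideal M of the algebraic integers containing p, a p-block B of the finite group G with maximal Brauer pair (P, e), P abelian, and a Brauer pair (Q, f) ≤ (P, e). Let T_Q be the stabilizer of f in N_G(Q) and T_P the stabilizer of e in N_G(P). Then every element of T_Q is a product of an element of T_P and an element of C_G(Q); and the index of C_G(Q) in T_Q equals the index of T_P ∩ C_G(Q) in T_P ∩ N_G(Q). -/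
theorem result {G : Type*} [Group G] [Fintype G] (p : ℕ) [Fact p.Prime] (M : Ideal Cfsg.AlgInt) (hM : Cfsg.IsPModular p M) (B : Set (Cfsg.IrrCharacter G)) (P : Subgroup G) (e : Set (Cfsg.IrrCharacter (Subgroup.centralizer (P : Set G)))) (hmax : Cfsg.IsMaximalBrauerPair p M B P e) (hab : ∀ x ∈ P, ∀ y ∈ P, x * y = y * x) (Q : Subgroup G) (f : Set (Cfsg.IrrCharacter (Subgroup.centralizer (Q : Set G)))) (hQP : Q ≤ P) (hf : Cfsg.IsPBlock M f) (hle : Cfsg.SubpairLE p M Q f P e) (TQ : Subgroup G) (hTQ : ∀ y : G, y ∈ TQ ↔ y ∈ Subgroup.normalizer (Q : Set G) ∧ Cfsg.StabilizesBlock (Subgroup.centralizer (Q : Set G)) f y) (TP : Subgroup G) (hTP : ∀ y : G, y ∈ TP ↔ y ∈ Subgroup.normalizer (P : Set G) ∧ Cfsg.StabilizesBlock (Subgroup.centralizer (P : Set G)) e y) : (∀ x ∈ TQ, ∃ y ∈ TP, ∃ c ∈ Subgroup.centralizer (Q : Set G), x = y * c) ∧ ((Subgroup.centralizer (Q : Set G)).subgroupOf TQ).index = ((TP ⊓ Subgroup.centralizer (Q : Set G)).subgroupOf (TP ⊓ Subgroup.normalizer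 (Q : Set G))).index := by
  haveI := hM.charP
  have hm := hmax.isMaxPair hM
  have hl := hle.pairLE hM
  have he := hm.pairOf.pair
  have hc := hmax.isPBlock.isBlk_top hM
  obtain rfl : TQ = pairStab ⊤ Q (subIdem M _ f) := hf.eq_stabGA hM hTQ
  obtain rfl : TP = pairStab ⊤ P (subIdem M _ e) := hmax.isPBlock'.eq_stabGA hM hTP
  have hPQ : P ≤ Subgroup.centralizer (Q : Set G) := fun x hx =>
    Subgroup.mem_centralizer_iff.2 fun q hq => hab q (hQP hq) x hx
  have key : ∀ x ∈ pairStab ⊤ Q (subIdem M _ f), ∃ y ∈ pairStab ⊤ P (subIdem M _ e),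
      ∃ c ∈ Subgroup.centralizer (Q : Set G), x = y * c := by
    intro x hx
    obtain ⟨y, hy, h1, h2⟩ := hm.exists_stab_mul le_rfl top_le_normalizer_top hc hl hPQ hx.1 hx.2
    refine ⟨y * x, ⟨h1, h2⟩, x⁻¹ * y⁻¹ * x, ?_, by group⟩
    exact (Subgroup.mem_normalizer_iff''.1 (normalizer_le_normalizer_centralizer Q hx.1.2) _).1
      (Subgroup.inv_mem _ hy.2)
  refine ⟨key, ?_⟩
  have hn : pairStab ⊤ P (subIdem M _ e) ⊓ Subgroup.normalizer (Q : Set G) ≤
      Subgroup.normalizer (Subgroup.centralizer (Q : Set G) : Set G) :=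
    inf_le_right.trans (normalizer_le_normalizer_centralizer Q)
  have h1 : pairStab ⊤ Q (subIdem M _ f) = Subgroup.centralizer (Q : Set G) ⊔
      (pairStab ⊤ P (subIdem M _ e) ⊓ Subgroup.normalizer (Q : Set G)) := by
    refine le_antisymm (fun x hx => ?_) (sup_le (hl.isPair_left he).centralizer_le_pairStab
      fun y hy => ⟨⟨trivial, hy.2⟩, hl.gaConj_eq he (mem_normalizer_top y) hy.1.1.2 hy.1.2 hy.2⟩)
    obtain ⟨y, hy, c, hc, rfl⟩ := key x hx
    refine (mem_sup_of_le_normalizer' hn).2 ⟨y, ⟨hy, ?_⟩, c, hc, rfl⟩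
    exact (Subgroup.mul_mem_cancel_right _ (centralizer_le_normalizer' Q hc)).1 hx.1.2
  change Subgroup.relIndex _ _ = Subgroup.relIndex _ _
  rw [h1, relIndex_sup_of_le_normalizer hn, ← Subgroup.inf_relIndex_right,
    ← Subgroup.inf_relIndex_right (pairStab ⊤ P (subIdem M _ e) ⊓ _)]
  congr 1
  exact le_antisymm (le_inf (le_inf (inf_le_right.trans inf_le_left) inf_le_left) inf_le_right)
    (le_inf (inf_le_left.trans inf_le_right) inf_le_right)

end Cfsg.Agent.S4682
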