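import Cfsg.Statements.S4683
import Cfsg.Agent.Blk.GenDec

set_option autoImplicit false
open Cfsg

namespace Cfsg.Agent.S4683

/-- Fix a prime p and a maximal ideal M of the algebraic integers containing p, a p-block B of the finite group G, a p-element u and a p-block e of C = C_G(u) such that (⟨u⟩, e) is a Brauer pair of B (a Brauer element of B). For χ ∈ B let χ_u be the e-part of the class function c ↦ χ(u c) on C and χ_u' the e-part of c ↦ χ(u⁻¹ c). Then the sum over χ ∈ B and over the p-regular elements s of C of χ_u(s)·χ_u'(s⁻¹) equals the order of C times the p-regular rank of e (the number of irreducible Brauer characters of e). -/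
theorem result {G : Type*} [Group G] [Fintype G] (p : ℕ) [Fact p.Prime] (M : Ideal Cfsg.AlgInt) (hM : Cfsg.IsPModular p M) (B : Set (Cfsg.IrrCharacter G)) (u : G) (hu : ∃ k : ℕ, orderOf u = p ^ k) (e : Set (Cfsg.IrrCharacter (Subgroup.centralizer (Subgroup.zpowers u : Set G)))) (hBe : Cfsg.IsBrauerPairOf p M B (Subgroup.zpowers u) e) : ∑ᶠ χ ∈ B, ∑ᶠ s : Subgroup.centralizer (Subgroup.zpowers u : Set G), Cfsg.pRegularPart p (Cfsg.blockPart e (fun c : Subgroup.centralizer (Subgroup.zpowers u : Set G) => (χ : G → ℂ) (u * c))) s * Cfsg.blockPart e (fun c : Subgroup.centralizer (Subgroup.zpowers u : Set G) => (χ : G → ℂ) (u⁻¹ * c)) s⁻¹ = (Nat.card (Subgroup.centralizer (Subgroup.zpowers u : Set G)) : ℂ) * (Cfsg.blockRank p e : ℂ) := by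
  classical
  obtain ⟨-, he⟩ := hM.isBrauerPairOf_iff_isInducedBlock.1 hBe
  have hC := centralizer_zpowers_eq_singleton u
  clear hBe
  generalize Subgroup.centralizer (Subgroup.zpowers u : Set G) = C at e he hC ⊢
  have := Fintype.ofFinite C
  have hV := he.1.isBlockUnion hM
  have h0 : (Nat.card C : ℂ) ≠ 0 := Nat.cast_ne_zero.2 Nat.card_pos.ne'
  rw [← he.2.1.sum_classInner_secProj hM hu hC hV he.subset_inducingChars, finsum_mem_irr,
    Finset.mul_sum]
  refine Finset.sum_congr rfl fun χ _ => ?_
  have h1 : ∀ f : C → ℂ, classInner (pRegularPart p (blockPart e f)) f =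
      classInner (pRegularPart p (blockPart e f)) (blockPart e f) := fun f => by
    rw [← classInner_blockPart_left, hV.blockPart_pRegularPart' hM, blockPart_idem]
  rw [classInner_secProj _ χ.isClassFunction, h1, classInner_def, mul_inv_cancel_left₀ h0,
    finsum_eq_sum_of_fintype]
  refine Finset.sum_congr rfl fun s _ => ?_
  congr 1
  rw [blockPart_eq_sum, blockPart_eq_sum, map_sum]
  refine Finset.sum_congr rfl fun ψ _ => ?_
  rw [map_mul, ψ.apply_inv]
  congr 1
  have hC' : C = Subgroup.centralizer {u⁻¹} := by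
    rw [hC, ← centralizer_zpowers_eq_singleton, ← centralizer_zpowers_eq_singleton,
      Subgroup.zpowers_inv]
  obtain ⟨n, hn⟩ := (χ.isCharacter.res C).exists_classInner_eq_nat ψ.isCharacter
  rw [classInner_secRes_irr hC, classInner_secRes_irr hC', hn, map_mul, map_natCast, map_div₀,
    ← ψ.apply_inv, ← ψ.apply_inv, inv_one]
  rfl

end Cfsg.Agent.S4683
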