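import Cfsg.Statements.S4686
import Cfsg.Agent.Blk.PairNilp

set_option autoImplicit false
open Cfsg

namespace Cfsg.Agent.S4686

/-- Fix a prime p and a maximal ideal M of the algebraic integers containing p, a p-block B of the finite group G with maximal Brauer pair (P, e) and fusion system F on P. Then B is nilpotent (for every Brauer pair (Q, f) of B the stabilizer of f in N_G(Q) is C_G(Q) extended by a p-group) if and only if F is the inner fusion system of P: its maps from each subgroup of P are exactly the conjugations by elements of P. -/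
theorem result {G : Type*} [Group G] [Fintype G] (p : ℕ) [Fact p.Prime] (M : Ideal Cfsg.AlgInt) (hM : Cfsg.IsPModular p M) (B : Set (Cfsg.IrrCharacter G)) (P : Subgroup G) (e : Set (Cfsg.IrrCharacter (Subgroup.centralizer (P : Set G)))) (hmax : Cfsg.IsMaximalBrauerPair p M B P e) (F : Cfsg.FusionSystem P) (hF : Cfsg.IsBlockFusionSystemOn p M B P e F) : Cfsg.IsNilpotentBlock p M B ↔ ∀ Q : Subgroup G, F.Hom Q = (Cfsg.innerFusionSystem P).Hom Q := by
  haveI := hM.charP
  have hm := hmax.isMaxPair hM
  have he := hm.pairOf.pair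
  rw [hmax.isPBlock.isNilpotentBlock_iff hM,
    hm.isNilpGA_iff le_rfl top_le_normalizer_top (hmax.isPBlock.isBlk_top hM)]
  constructor
  · intro h Q
    ext φ
    constructor
    · intro hφ
      obtain ⟨a, ha⟩ := exists_pairLE he (F.le_of_mem hφ).1
      obtain ⟨g, h1, h2⟩ := (hF.mem_hom_iff hM ha φ).1 hφ
      obtain ⟨u, hu, h3⟩ := h Q a ha g trivial h2
      exact ⟨ha.le, u, hu, fun x => by rw [h1, h3 x x.2]⟩
    · rintro ⟨h1, u, hu, h2⟩
      obtain ⟨a, ha⟩ := exists_pairLE he h1
      exact (hF.mem_hom_iff hM ha φ).2 ⟨u, h2, ha.conj_of_mem he hu⟩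
  · intro h Q a ha x _ hx
    have := (hF.mem_hom_iff hM ha (conjHom Q x)).2 ⟨x, fun _ => rfl, hx⟩
    rw [h] at this
    obtain ⟨-, u, hu, h1⟩ := this
    exact ⟨u, hu, fun q hq => h1 ⟨q, hq⟩⟩

end Cfsg.Agent.S4686
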