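import Cfsg.Statements.S4688
import Cfsg.Agent.Blk.PairNilp

set_option autoImplicit false
open Cfsg

namespace Cfsg.Agent.S4688

/-- Fix a prime p and a maximal ideal M of the algebraic integers containing p, and a nilpotent p-block B of the finite group G with maximal Brauer pair (P, e). Then for every Brauer pair (Q, f) of B, f is a nilpotent block of C_G(Q); and if moreover (Q, f) ≤ (P, e), then C_P(Q) is a defect group of f as a block of C_G(Q). -/
theorem result {G : Type*} [Group G] [Fintype G] (p : ℕ) [Fact p.Prime] (M : Ideal Cfsg.AlgInt) (hM : Cfsg.IsPModular p M) (B : Set (Cfsg.IrrCharacter G)) (P : Subgroup G) (e : Set (Cfsg.IrrCharacter (Subgroup.centralizer (P : Set G)))) (hmax : Cfsg.IsMaximalBrauerPair p M B P e) (hnil : Cfsg.IsNilpotentBlock p M B) (Q : Subgroup G) (f : Set (Cfsg.IrrCharacter (Subgroup.centralizer (Q : Set G)))) (hQf : Cfsg.IsBrauerPairOf p M B Q f) : Cfsg.IsNilpotentBlock p M f ∧ (Cfsg.SubpairLE p M Q f P e → Cfsg.IsDefectGroup p M f ((P ⊓ Subgroup.centralizer (Q : Set G)).subgroupOf (Subgroup.centralizer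 (Q : Set G)))) := by
  haveI := hM.charP
  have hm := hmax.isMaxPair hM
  have hc := hmax.isPBlock.isBlk_top hM
  have hn := (hmax.isPBlock.isNilpotentBlock_iff hM).1 hnil
  have hf := hQf.1.2
  constructor
  · rw [hf.isNilpotentBlock_iff_sub hM]
    have := hn.cenIn le_rfl top_le_normalizer_top hc.mem hc.idem (hQf.isPairOf hM)
      (le_inf le_top (centralizer_le_normalizer' Q)) (subIdem_mem f).2
    rwa [cenIn_top] at this
  · intro hle
    rw [hf.isDefectGroup_subgroupOf_iff hM inf_le_right]
    have := hn.isDefGrp_cenIn le_rfl top_le_normalizer_top hc hm (hle.pairLE hM)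
    rwa [cenIn_top] at this

end Cfsg.Agent.S4688
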