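import Cfsg.Statements.S4689
import Cfsg.Agent.Blk.StarBridge

set_option autoImplicit false
open Cfsg

namespace Cfsg.Agent.S4689

/-- Fix a prime p and a maximal ideal M of the algebraic integers containing p, and a nilpotent p-block B of the finite group G. Then B has p-regular rank one (a single irreducible Brauer character), and some χ₀ ∈ B restricts to that Brauer character: every χ ∈ B agrees on the p-regular elements with a natural-number multiple of χ₀. -/
theorem result {G : Type*} [Group G] [Fintype G] (p : ℕ) [Fact p.Prime] (M : Ideal Cfsg.AlgInt) (hM : Cfsg.IsPModular p M) (B : Set (Cfsg.IrrCharacter G)) (hnil : Cfsg.IsNilpotentBlock p M B) : Cfsg.blockRank p B = 1 ∧ ∃ χ₀ ∈ B, ∀ χ ∈ B, ∃ d : ℕ, ∀ x : G, Cfsg.pRegularPart p (χ : G → ℂ) x = (d : ℂ) * Cfsg.pRegularPart p (χ₀ : G → ℂ) x := by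
  obtain ⟨P, hP⟩ := hnil.1.exists_isDefectGroup hM
  obtain ⟨e, S⟩ := hP.exists_starSetup hM hnil.1
  have hfus := S.isConj_of_nilpotent hnil
  obtain ⟨χ₀, h1, h0⟩ := exists_blockHeight_eq_zero (hnil.1.nonempty hM) p
  refine ⟨S.blockRank_eq_one hfus, χ₀, h1, fun χ hχ => ?_⟩
  obtain ⟨d, hd⟩ := S.exists_pRegularPart_eq hfus h1 h0 hχ
  exact ⟨d, fun x => congrFun hd x⟩

end Cfsg.Agent.S4689
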