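import Cfsg.Statements.S4691
import Cfsg.Agent.Blk.PairMisc
import Cfsg.Agent.Grp.NormalComplement

set_option autoImplicit false
open Cfsg

namespace Cfsg.Agent.S4691

/-- Fix a prime p and a maximal ideal M of the algebraic integers containing p. A finite group G has a normal p-complement if and only if its principal p-block is nilpotent. -/
theorem result {G : Type*} [Group G] [Fintype G] (p : ℕ) [Fact p.Prime] (M : Ideal Cfsg.AlgInt) (hM : Cfsg.IsPModular p M) : Cfsg.HasNormalPComplement p G ↔ Cfsg.IsNilpotentBlock p M (Cfsg.principalBlock M G) := by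
  haveI := hM.charP
  rw [isPBlock_principalBlock.isNilpotentBlock_iff hM]
  have hc := (isPBlock_principalBlock (M := M) (G := G)).isBlk_top hM
  constructor
  · intro h Q f hf x _ hx _ hreg
    exact h.mem_centralizer hf.pair.pgrp hx hreg
  · intro h
    refine hasNormalPComplement_of_forall_mem_centralizer fun Q hQ x hx hreg => ?_
    obtain ⟨f, hf, h1⟩ := exists_isPrimIdem_augGA (resK M) (cenIn ⊤ Q) (cenIn ⊤ Q)
    have hp : IsPair p ⊤ Q f := ⟨hQ, le_normalizer_top Q, hf⟩
    refine h Q f (hp.isPairOf_of_augGA le_rfl hc.mem hc.idem le_top hM.augGA_idemK_principal h1) x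
      (Subgroup.mem_top x) hx ?_ hreg
    refine (IsBlk.conj_of_normalizer hf (le_normalizer_cenIn (le_normalizer_top _) le_rfl hx)).eq_of_augGA
      le_rfl hf (by rw [augGA_gaConj, h1]) h1

end Cfsg.Agent.S4691
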