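import Cfsg.Statements.S4692
import Cfsg.Agent.Blk.PairReg

set_option autoImplicit false
open Cfsg

namespace Cfsg.Agent.S4692

/-- Fix a prime p and a maximal ideal M of the algebraic integers containing p. Let N be a normal subgroup of p-power index in the finite group G and c a p-block of N stable under conjugation by G, and let B be the p-block of G whose idempotent is that of c (it exists and is unique). Then c is nilpotent as a block of N if and only if B is nilpotent as a block of G. -/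
theorem result {G : Type*} [Group G] [Fintype G] (p : ℕ) [Fact p.Prime] (M : Ideal Cfsg.AlgInt) (hM : Cfsg.IsPModular p M) (N : Subgroup G) [N.Normal] (hN : ∃ k : ℕ, N.index = p ^ k) (c : Set (Cfsg.IrrCharacter N)) (hc : Cfsg.IsPBlock M c) (hst : ∀ x : G, Cfsg.StabilizesBlock N c x) (B : Set (Cfsg.IrrCharacter G)) (hB : Cfsg.IsPBlock M B) (hBc : ∀ g : G, Cfsg.blockCoeff B g = Cfsg.subgroupBlockCoeff N c g) : Cfsg.IsNilpotentBlock p M c ↔ Cfsg.IsNilpotentBlock p M B := by
  haveI := hM.charP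
  obtain ⟨k, hk⟩ := hN
  have he := hc.isBlk_subIdem hM
  have heq := ((hB.isBlockUnion hM).idemK_eq_subIdem_iff hM (hc.isBlockUnion hM)).2 hBc
  have hfix : IsFixedGA ⊤ (subIdem M N c) := fun x _ => ((hc.stabilizesBlock_iff hM).1 (hst x)).2
  have hreg : ∀ x : G, IsPRegular p x → x ∈ N := fun x hx =>
    mem_of_isPRegular_of_relIndex_eq_pow top_le_normalizer_of_normal
      (by rw [Subgroup.relIndex_top_right, hk]) (Subgroup.mem_top x) hx
  have hcB := hB.isBlk_top hM
  rw [hc.isNilpotentBlock_iff_sub hM, hB.isNilpotentBlock_iff hM, heq] at *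
  have hn : ∀ Q : Subgroup G, cenIn ⊤ Q ≤ Subgroup.normalizer (cenIn N Q : Set G) := fun Q =>
    le_normalizer_cenIn (le_normalizer_of_normal' _) (cenIn_le_normalizer _ _)
  have hle : ∀ Q : Subgroup G, cenIn N Q ≤ cenIn ⊤ Q := fun Q => inf_le_inf_right _ le_top
  have hr : ∀ Q : Subgroup G, ∀ x ∈ cenIn ⊤ Q, IsPRegular p x → x ∈ cenIn N Q :=
    fun Q x hx h => ⟨hreg x h, hx.2⟩
  constructor
  · intro h Q f hf x _ hx hxf hxr
    obtain ⟨a, ha⟩ := exists_pairLE hf.pair (inf_le_left : Q ⊓ N ≤ Q)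
    have hx0 : x ∈ Subgroup.normalizer ((Q ⊓ N : Subgroup G) : Set G) :=
      le_normalizer_inf' le_rfl (le_normalizer_of_normal' _) hx
    have h1 := ha.gaConj_eq hf.pair (mem_normalizer_top x) hx hxf hx0
    have h2 := ha.isPairOf_left le_rfl hcB.mem hcB.idem hf
    have h3 := h2.pair.blk.isPrimIdem_of_regular hM (hle _) (hr _)
    obtain ⟨b, hb, h4, -⟩ := h3.exists_eq_orbSum (hle _) (hn _)
    have hx1 : x ∈ Subgroup.normalizer (cenIn N (Q ⊓ N) : Set G) :=
      le_normalizer_cenIn (le_normalizer_of_normal' _) le_rfl hx0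
    obtain ⟨y, hy, h5⟩ := h3.exists_conj_of_mul_ne_zero (hle _) (hn _) (hb.conj_of_normalizer hx1)
      hb (by rw [← h1, ← map_mul, h4]; simpa using hb.ne_zero) (by rw [h4]; exact hb.ne_zero)
    have h6 : IsPairOf p N N (subIdem M N c) (Q ⊓ N) b :=
      ⟨⟨h2.pair.pgrp, le_normalizer_of_normal' _, hb⟩, inf_le_right,
        by rw [← h4, ← mul_assoc, h2.br]⟩
    have hyx : y * x ∈ pairStab ⊤ (Q ⊓ N) b := mem_pairStab.2 ⟨trivial,
      Subgroup.mul_mem _ (cenIn_le_normalizer _ _ hy) hx0, by rw [gaConj_mul, h5]⟩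
    obtain ⟨-, h7, h8⟩ := mem_pairStab.1 (pRegPart_mem p hyx)
    have h9 := h _ _ h6 _ (hreg _ (isPRegular_pRegPart _)) h7 h8 (isPRegular_pRegPart _)
    have h10 : x ∈ Subgroup.centralizer ((Q ⊓ N : Subgroup G) : Set G) := by
      refine mem_centralizer_of_isPRegular hxr (exists_orderOf_pPart (y * x)) (fun q hq => ?_) hx0
      have h11 := hy.2 _ ((Subgroup.mem_normalizer_iff.1 hx0 q).1 hq)
      have h12 : x * q * x⁻¹ = (y * x) * q * (y * x)⁻¹ := by
        rw [mul_inv_rev, ← mul_assoc, mul_assoc y, mul_assoc y, ← h11]; group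
      rw [h12]
      conv_lhs => rw [← pPart_mul_pRegPart p (y * x)]
      rw [mul_assoc (pPart p (y * x)), ← h9 q hq]; group
    refine le_centralizer_of_commutator_le_of_coprime (A := Subgroup.zpowers x) (K := Q ⊓ N)
      (coprime_card_of_isPGroup h2.pair.pgrp (by rwa [Nat.card_zpowers])) (le_inf ?_ ?_)
      (Subgroup.zpowers_le.2 h10) (Subgroup.mem_zpowers x)
    · rw [Subgroup.commutator_le]
      intro q hq z hz
      rw [commutatorElement_def, mul_assoc, mul_assoc]
      refine Q.mul_mem hq ?_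
      rw [← mul_assoc]
      exact (Subgroup.mem_normalizer_iff.1 (Subgroup.zpowers_le.2 hx hz) _).1 (Q.inv_mem hq)
    · exact (Subgroup.commutator_mono le_top (Subgroup.zpowers_le.2 (hreg x hxr))).trans
        (Subgroup.commutator_le_right _ _)
  · intro h Q f hf x _ hx hxf hxr
    have h1 := hf.pair.blk.isBlk_orbSum_of_regular hM (hle Q) (hn Q) (hr Q)
    refine h Q _ ⟨⟨hf.pair.pgrp, le_normalizer_top Q, h1⟩, le_top, mul_orbSum_eq
      ((hfix.mono le_top).brGA (cenIn_le_normalizer _ _)) hf.br⟩ x trivial hx ?_ hxr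
    rw [gaConj_orbSum, hxf, conjSub_eq_self_iff.2
      (le_normalizer_cenIn (le_normalizer_top _) le_rfl hx)]

end Cfsg.Agent.S4692
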