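import Cfsg.Statements.S4693
import Cfsg.Agent.Blk.PairReg

set_option autoImplicit false
open Cfsg

namespace Cfsg.Agent.S4693

/-- Fix a prime p and a maximal ideal M of the algebraic integers containing p, a p-block B of the finite group G with maximal Brauer pair (P, e) and fusion system F on P, and a Brauer pair (Q, f) ≤ (P, e) with Q centric in F. Suppose every element of G normalizes Q and stabilizes f. Then the idempotent of B agrees with that of f modulo M at every element of G, and f is the idempotent of a nilpotent block of Q·C_G(Q): some p-block of Q·C_G(Q) has the idempotent coefficients of f and is nilpotent. -/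
theorem result {G : Type*} [Group G] [Fintype G] (p : ℕ) [Fact p.Prime] (M : Ideal Cfsg.AlgInt) (hM : Cfsg.IsPModular p M) (B : Set (Cfsg.IrrCharacter G)) (P : Subgroup G) (e : Set (Cfsg.IrrCharacter (Subgroup.centralizer (P : Set G)))) (hmax : Cfsg.IsMaximalBrauerPair p M B P e) (F : Cfsg.FusionSystem P) (hF : Cfsg.IsBlockFusionSystemOn p M B P e F) (Q : Subgroup G) (f : Set (Cfsg.IrrCharacter (Subgroup.centralizer (Q : Set G)))) (hQP : Q ≤ P) (hf : Cfsg.IsPBlock M f) (hle : Cfsg.SubpairLE p M Q f P e) (hcen : F.IsCentric Q) (hG : ∀ x : G, x ∈ Subgroup.normalizer (Q : Set G) ∧ Cfsg.StabilizesBlock (Subgroup.centralizer (Q : Set G)) f x) : (∀ g : G, Cfsg.MemLocalIdeal M (Cfsg.blockCoeff B g - Cfsg.subgroupBlockCoeff (Subgroup.centralizer (Q : Set G)) f g)) ∧ ∃ F' : Set (Cfsg.IrrCharacter ↥(Q ⊔ Subgroup.centralizer (Q : Set G))), Cfsg.IsPBlock M F' ∧ (∀ t : ↥(Q ⊔ Subgroup.centralizer (Q : Set G)), Cfsg.blockCoeff F' t = Cfsg.subgroupBlockCoeff (Subgroup.centralizer (Q : Set G))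 f (t : G)) ∧ Cfsg.IsNilpotentBlock p M F' := by
  haveI := hM.charP
  have hm := hmax.isMaxPair hM
  have hl := hle.pairLE hM
  have he := hm.pairOf.pair
  have hp := hl.isPair_left he
  have hcB := hmax.isPBlock.isBlk_top hM
  have hn : (⊤ : Subgroup G) ≤ Subgroup.normalizer (Q : Set G) := fun x _ => (hG x).1
  have hfix : IsFixedGA ⊤ (subIdem M _ f) := fun x _ => ((hf.stabilizesBlock_iff hM).1 (hG x).2).2
  have h1 := (hf.isBlk_subIdem hM).isBlk_of_normal hp.pgrp le_top le_top hn hfix
  have h2 := (hl.isPairOf_left le_rfl hcB.mem hcB.idem hm.pairOf).br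
  rw [brGA_eq_self_of_normal hp.pgrp le_top le_rfl hn hcB.mem hcB.idem] at h2
  have h3 := hcB.eq_of_mul_eq h1 h2
  constructor
  · intro g
    rw [(hmax.isPBlock.isBlockUnion hM).memLocalIdeal_coeff_iff hM (hf.isBlockUnion hM), h3]
  · obtain ⟨F', hF', h4, h5⟩ := hf.exists_block_of_isBlk hM le_sup_right hp.isBlk_sup
    refine ⟨F', hF', h5, ?_⟩
    rw [hF'.isNilpotentBlock_iff_sub hM, h4]
    have h6 := hm.isDefGrp le_rfl top_le_normalizer_top hcB
    rw [h3] at h6
    have h7 := (h6.inf_cenIn hp le_top (le_normalizer_cenIn top_le_normalizer_top hn)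
      hfix).sup_of_cenIn hp
    have h8 : P ⊓ Subgroup.centralizer (Q : Set G) ≤ Q :=
      hcen.2 Q ((hF.isConj_iff hM hl Q).2 ⟨1, conjSub_one Q, by rwa [conjSub_one, gaConj_one]⟩)
    rw [cenIn_top, sup_eq_left.2 h8] at h7
    exact h7.isNilpGA_of_regular hp.isBlk_sup fun x hx hreg =>
      mem_centralizer_of_isPRegular_of_mem_sup hp.pgrp hx hreg

end Cfsg.Agent.S4693
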