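import Cfsg.Statements.S4694
import Cfsg.Agent.Blk.PairReg
import Cfsg.Agent.Blk.Contrib
import Cfsg.Agent.CT.Extension

set_option autoImplicit false
open Cfsg

namespace Cfsg.Agent.S4694

theorem exists_under_defectZero {X : Type*} [Group X] [Finite X] {K : Type*} [Group K] [Fintype K]
    {p : ℕ} (hp : p.Prime) (f : K →* X) [f.range.Normal] (χ : IrrCharacter X)
    (hχ : (charDegree χ.1).factorization p = (Nat.card X).factorization p) :
    ∃ θ : IrrCharacter K, classInner (fun k => χ.1 (f k)) θ.1 ≠ 0 ∧ f.ker ≤ charKer θ.1 ∧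
      (charDegree θ.1).factorization p + (Nat.card f.ker).factorization p =
        (Nat.card K).factorization p := by
  haveI : Fintype f.range := Fintype.ofFinite _
  obtain ⟨θ, hθ⟩ := χ.exists_under f.range
  refine ⟨θ.comap f.rangeRestrict f.rangeRestrict_surjective, ?_, ?_, ?_⟩
  · rw [← classInner_comp_surjective f.rangeRestrict f.rangeRestrict_surjective] at hθ
    exact hθ
  · have := ker_le_charKer_comp θ.1 f.rangeRestrict
    rwa [MonoidHom.ker_rangeRestrict] at this
  · obtain ⟨e, he, hd⟩ := exists_charDegree_eq_mul_dvd_index χ hθ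
    have he0 : e ≠ 0 := by
      rintro rfl
      exact χ.charDegree_pos.ne' (by rw [he, zero_mul])
    have h1 : e.factorization p ≤ f.range.index.factorization p :=
      (Nat.factorization_le_iff_dvd he0 Subgroup.index_ne_zero_of_finite).2 hd p
    have h2 : (charDegree θ.1).factorization p ≤ (Nat.card f.range).factorization p :=
      (Nat.factorization_le_iff_dvd θ.charDegree_pos.ne' Nat.card_pos.ne').2
        θ.charDegree_dvd_card p
    rw [he, Nat.factorization_mul he0 θ.charDegree_pos.ne', ← f.range.card_mul_index,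
      Nat.factorization_mul Nat.card_pos.ne' Subgroup.index_ne_zero_of_finite] at hχ
    rw [← f.ker.card_mul_index, Subgroup.index_ker,
      Nat.factorization_mul Nat.card_pos.ne' Nat.card_pos.ne', IrrCharacter.charDegree_comap]
    simp only [Finsupp.add_apply] at hχ ⊢
    omega

/-- Fix a prime p and a maximal ideal M of the algebraic integers containing p, a p-block B of the finite group G and a Brauer pair (Q, e) of B. Let T be the stabilizer of e in N_G(Q) and suppose that (Q, e) carries a weight: the block of T whose idempotent is that of e contains an irreducible character χ that is constant on the cosets of Q and whose degree has p-part equal to the p-part of the index of Q in T. Then Z(Q) is a defect group of e as a block of C_G(Q), and Q is the largest normal p-subgroup of T: every p-subgroup of T normalized by T lies in Q. -/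
theorem result {G : Type*} [Group G] [Fintype G] (p : ℕ) [Fact p.Prime] (M : Ideal Cfsg.AlgInt) (hM : Cfsg.IsPModular p M) (B : Set (Cfsg.IrrCharacter G)) (Q : Subgroup G) (e : Set (Cfsg.IrrCharacter (Subgroup.centralizer (Q : Set G)))) (hQe : Cfsg.IsBrauerPairOf p M B Q e) (T : Subgroup G) (hT : ∀ y : G, y ∈ T ↔ y ∈ Subgroup.normalizer (Q : Set G) ∧ Cfsg.StabilizesBlock (Subgroup.centralizer (Q : Set G)) e y) (F' : Set (Cfsg.IrrCharacter T)) (hF' : Cfsg.IsPBlock M F') (hF'e : ∀ t : T, Cfsg.blockCoeff F' t = Cfsg.subgroupBlockCoeff (Subgroup.centralizer (Q : Set G)) e (t : G)) (χ : Cfsg.IrrCharacter T) (hχ : χ ∈ F') (hχQ : ∀ q : G, q ∈ Q → ∀ t : T, ∀ t' : T, (t' : G) = q * (t : G) → (χ : T → ℂ) t' = (χ : T → ℂ) t) (hdeg : (Cfsg.charDegree (χ : T → ℂ)).factorization p + (Nat.card Q).factorization p = (Nat.card T).factorization p) : Cfsg.IsDefectGroup p M e ((Q ⊓ Subgroup.centralizer (Q : Set G)).subgroupOf (Subgroup.centralizer (Q : Set G))) ∧ ∀ R : Subgroup G, R ≤ T → IsPGroup p R → (∀ t ∈ T, t ∈ Subgroup.normalizer (R : Set G))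 → R ≤ Q := by
  classical
  haveI := hM.charP
  have hp := hM.prime
  have hQ : IsPGroup p Q := hQe.1.1
  have he : IsPBlock M e := hQe.1.2
  have hTN : T ≤ Subgroup.normalizer (Q : Set G) := fun y hy => ((hT y).1 hy).1
  have hstab : ∀ y ∈ Q ⊔ Subgroup.centralizer (Q : Set G), y ∈ T := by
    intro y hy
    have hy' : y ∈ Subgroup.normalizer (Q : Set G) :=
      (sup_le Subgroup.le_normalizer (Subgroup.centralizer_le_normalizer _)) hy
    refine (hT y).2 ⟨hy', (he.stabilizesBlock_centralizer_iff hM hy').2 ?_⟩
    exact (he.isPair hM hQ).isBlk_sup.mem.2 y hy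
  have hQT : Q ≤ T := fun y hy => hstab y (Subgroup.mem_sup_left hy)
  have hCT : Subgroup.centralizer (Q : Set G) ≤ T := fun y hy => hstab y (Subgroup.mem_sup_right hy)
  haveI hQn : (Q.subgroupOf T).Normal := Subgroup.normal_subgroupOf_of_le_normalizer hTN
  have hk : Q.subgroupOf T ≤ charKer χ.1 := fun q hq =>
    mem_charKer_def.2 fun t => hχQ q hq t _ rfl
  have hcard : Nat.card (Q.subgroupOf T) = Nat.card Q :=
    Nat.card_congr (Subgroup.subgroupOfEquivOfLe hQT).toEquiv
  have hdeg' : (charDegree (χ.deflate _ hk).1).factorization p =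
      (Nat.card (T ⧸ Q.subgroupOf T)).factorization p := by
    rw [IrrCharacter.charDegree_deflate]
    rw [← (Q.subgroupOf T).card_mul_index, hcard,
      Nat.factorization_mul Nat.card_pos.ne' Subgroup.index_ne_zero_of_finite,
      Finsupp.add_apply] at hdeg
    rw [← Subgroup.index_eq_card]
    omega
  constructor
  · haveI : Fintype (Subgroup.centralizer (Q : Set G)) := Fintype.ofFinite _
    let f : Subgroup.centralizer (Q : Set G) →* T ⧸ Q.subgroupOf T :=
      (QuotientGroup.mk' _).comp (Subgroup.inclusion hCT)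
    haveI : f.range.Normal := by
      rw [MonoidHom.range_comp]
      have h0 := le_normalizer_cenIn (N := ⊤) (le_normalizer_top T) hTN
      rw [cenIn_top] at h0
      exact (range_inclusion_normal hCT h0).map _ (QuotientGroup.mk'_surjective _)
    obtain ⟨θ, h1, h2, h3⟩ := exists_under_defectZero hp f _ hdeg'
    have hker : f.ker = (Q ⊓ Subgroup.centralizer (Q : Set G)).subgroupOf
        (Subgroup.centralizer (Q : Set G)) := by
      ext x
      simp only [f, MonoidHom.mem_ker, MonoidHom.comp_apply, QuotientGroup.mk'_apply,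
        QuotientGroup.eq_one_iff, Subgroup.mem_subgroupOf, Subgroup.coe_inclusion,
        Subgroup.mem_inf, x.2, and_true]
    have hθ : θ ∈ e := by
      have h4 := (hF'.covers_sub_iff hM hCT (isPBlock_blockOf θ)).1
        ⟨χ, hχ, θ, hM.mem_blockOf_self θ, by
          simp only [f, MonoidHom.comp_apply, QuotientGroup.mk'_apply,
            IrrCharacter.deflate_apply] at h1
          exact h1⟩
      rw [((hF'.isBlockUnion hM).subIdem_eq_iff hM hCT (he.isBlockUnion hM)).2 hF'e] at h4
      have h5 := (he.isBlk_subIdem hM).eq_of_mul_ne_zero'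
        ((isPBlock_blockOf θ).isBlk_subIdem hM) h4
      rw [he.eq_of_subIdem_eq hM (isPBlock_blockOf θ) h5]
      exact hM.mem_blockOf_self θ
    rw [← hker]
    refine (he.isDefectGroup_iff_of_central_quotient hM ?_ ?_).2 ⟨θ, hθ, h2, h3⟩
    · rw [hker]
      exact (hQ.to_le inf_le_left).comap_subtype
    · intro g _
      rw [Subgroup.mem_centralizer_iff]
      intro z hz
      rw [hker] at hz
      exact Subtype.ext (g.2 z hz.1)
  · intro R hRT hR hRn
    haveI : (R.subgroupOf T).Normal := Subgroup.normal_subgroupOf_of_le_normalizer hRn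
    haveI : ((R.subgroupOf T).map (QuotientGroup.mk' (Q.subgroupOf T))).Normal :=
      Subgroup.Normal.map inferInstance _ (QuotientGroup.mk'_surjective _)
    have hb := isPBlock_blockOf (M := M) (χ.deflate _ hk)
    obtain ⟨D, hD⟩ := hb.exists_isDefectGroup hM
    have h0 := (hb.blockDefect_eq_zero_iff_dvd hM (hM.mem_blockOf_self _)).2
      (by rw [← hdeg']; exact Nat.ordProj_dvd _ _)
    have hD1 : D = ⊥ := by
      rw [← Subgroup.card_eq_one, hD.card_eq hM hb, h0, pow_zero]
    have := hD.le_of_normal hM hb (P := (R.subgroupOf T).map (QuotientGroup.mk' (Q.subgroupOf T)))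
      (hR.comap_subtype.map (QuotientGroup.mk' (Q.subgroupOf T)))
    rw [hD1, le_bot_iff, Subgroup.map_eq_bot_iff, QuotientGroup.ker_mk'] at this
    intro x hx
    exact this (show (⟨x, hRT hx⟩ : T) ∈ R.subgroupOf T from hx)

end Cfsg.Agent.S4694
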