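import Cfsg.Statements.S4697
import Cfsg.Agent.Blk.CycMin

set_option autoImplicit false
open Cfsg

namespace Cfsg.Agent.S4697

theorem two_gen {G : Type*} [Group G] [Finite G] {p : ℕ} {M : Ideal Cfsg.AlgInt}
    (hM : Cfsg.IsPModular p M) {B : Set (Cfsg.IrrCharacter G)} (hB : Cfsg.IsPBlock M B)
    {D : Subgroup G} (hBD : Cfsg.IsDefectGroup p M B D) (hab : ∀ x ∈ D, ∀ y ∈ D, x * y = y * x)
    {x y : G} (hx : x ∈ D) (hy : y ∈ D) (h : D ≤ Subgroup.zpowers x ⊔ Subgroup.zpowers y) :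
    Nat.card B ≤ Nat.card D :=
  hBD.card_le_of_cyclic_quotient hM hB hy
    (fun z hz => Subgroup.mem_centralizer_singleton_iff.2 (hab z hz y hy)) hx h

theorem three_gen {G : Type*} [Group G] [Finite G] {p : ℕ} {M : Ideal Cfsg.AlgInt}
    (hM : Cfsg.IsPModular p M) {B : Set (Cfsg.IrrCharacter G)} (hB : Cfsg.IsPBlock M B)
    {D : Subgroup G} (hBD : Cfsg.IsDefectGroup p M B D) (hab : ∀ x ∈ D, ∀ y ∈ D, x * y = y * x)
    {x y u : G} (hx : x ∈ D) (hy : y ∈ D) (hu : u ∈ D)
    (h : D ≤ Subgroup.zpowers x ⊔ Subgroup.zpowers y ⊔ Subgroup.zpowers u) :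
    Nat.card B * orderOf u ≤ Nat.card D ^ 2 := by
  have := hM.fact_prime
  have hc : ∀ v ∈ D, D ≤ Subgroup.centralizer {v} := fun v hv z hz =>
    Subgroup.mem_centralizer_singleton_iff.2 (hab z hz v hv)
  obtain ⟨b, hb, hbd, H, _, _, f, b', hb', hl, hD', hc', hf⟩ :=
    hBD.exists_dominated_of_central hM hB hu (hc u hu)
  have hu' : ∃ k : ℕ, orderOf u = p ^ k := by
    obtain ⟨k, hk⟩ := IsPGroup.iff_orderOf.1 hBD.isPGroup ⟨u, hu⟩
    exact ⟨k, by rw [← hk, Subgroup.orderOf_mk]⟩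
  have h1 := hB.card_le_pow_mul_blockRank hM hu' rfl (hb.1.isBlockUnion hM) hb.subset_inducingChars
    (irrFinset B) le_rfl fun χ hχ => hb.secProj_ne_zero_of_major hM hu' rfl hbd (mem_irrFinset.1 hχ)
  rw [card_irrFinset, hbd, ← hBD.card_eq hM hB, ← hl] at h1
  have h2 := two_gen hM hb' hD' (x := f ⟨x, hc u hu hx⟩) (y := f ⟨y, hc u hu hy⟩) (by
      rintro _ ⟨a, ha, rfl⟩ _ ⟨c, hc, rfl⟩
      rw [← map_mul, ← map_mul]
      exact congrArg f (Subtype.ext (hab _ ha _ hc))) ⟨_, hx, rfl⟩ ⟨_, hy, rfl⟩ (by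
      have h3 : D.subgroupOf (Subgroup.centralizer {u}) ≤
          Subgroup.zpowers ⟨x, hc u hu hx⟩ ⊔ Subgroup.zpowers ⟨y, hc u hu hy⟩ ⊔
            Subgroup.zpowers ⟨u, hc u hu hu⟩ := by
        rw [← Subgroup.map_le_map_iff_of_injective (Subgroup.subtype_injective _), Subgroup.map_sup,
          Subgroup.map_sup, MonoidHom.map_zpowers, MonoidHom.map_zpowers, MonoidHom.map_zpowers,
          Subgroup.subgroupOf_map_subtype]
        exact inf_le_left.trans h
      refine (Subgroup.map_mono h3).trans ?_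
      rw [Subgroup.map_sup, Subgroup.map_sup, MonoidHom.map_zpowers, MonoidHom.map_zpowers,
        MonoidHom.map_zpowers, hf ⟨u, _⟩ rfl]
      simp)
  have h3 := (blockRank_le_card (p := p) b').trans h2
  calc Nat.card B * orderOf u ≤ Nat.card D * Nat.card ((D.subgroupOf _).map f) * orderOf u :=
        Nat.mul_le_mul_right _ (h1.trans (Nat.mul_le_mul_left _ h3))
    _ = Nat.card D ^ 2 := by rw [mul_assoc, hc', sq]

theorem card_sup_le {A : Type*} [CommGroup A] [Finite A] (H K : Subgroup A) :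
    Nat.card ↥(H ⊔ K) ≤ Nat.card H * Nat.card K := by
  rw [← Nat.card_prod]
  refine Nat.card_le_card_of_surjective
    (fun x : H × K => (⟨x.1 * x.2, Subgroup.mul_mem_sup x.1.2 x.2.2⟩ : ↥(H ⊔ K))) ?_
  rintro ⟨z, hz⟩
  obtain ⟨a, ha, c, hc, rfl⟩ := Subgroup.mem_sup.1 hz
  exact ⟨(⟨a, ha⟩, ⟨c, hc⟩), rfl⟩

/-- Let p be a prime, M a maximal ideal of the algebraic integers containing p, and B a p-block of the finite group G with an abelian defect group D of order p^d. If D has rank 2 (its least number of generators is 2) then B contains at most p^d irreducible characters; if D has rank 3 then the number k of irreducible characters in B satisfies k^3 ≤ p^(5d). -/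
theorem result {G : Type*} [Group G] [Finite G] (p : ℕ) [Fact p.Prime] (M : Ideal Cfsg.AlgInt) (hM : Cfsg.IsPModular p M) (B : Set (Cfsg.IrrCharacter G)) (hB : Cfsg.IsPBlock M B) (D : Subgroup G) (hBD : Cfsg.IsDefectGroup p M B D) (hab : IsMulCommutative D) (d : ℕ) (hDd : Nat.card D = p ^ d) : (Group.rank D = 2 → Nat.card B ≤ p ^ d) ∧ (Group.rank D = 3 → Nat.card B ^ 3 ≤ p ^ (5 * d)) := by
  classical
  have hab' : ∀ x ∈ D, ∀ y ∈ D, x * y = y * x := fun x hx y hy =>
    congrArg Subtype.val (mul_comm' (⟨x, hx⟩ : D) ⟨y, hy⟩)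
  obtain ⟨S, hS, hS'⟩ := Group.rank_spec D
  have hmap : ∀ K : Subgroup D, K = ⊤ → D ≤ K.map D.subtype := by
    rintro _ rfl
    rw [← MonoidHom.range_eq_map, Subgroup.range_subtype]
  refine ⟨fun h => ?_, fun h => ?_⟩
  · obtain ⟨x, y, -, rfl⟩ := Finset.card_eq_two.1 (hS.trans h)
    rw [← hDd]
    refine two_gen hM hB hBD hab' x.2 y.2 ((hmap _ hS').trans ?_)
    rw [Finset.coe_pair, Set.insert_eq, Subgroup.closure_union, ← Subgroup.zpowers_eq_closure,
      ← Subgroup.zpowers_eq_closure, Subgroup.map_sup, MonoidHom.map_zpowers, MonoidHom.map_zpowers]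
    rfl
  · obtain ⟨x, y, z, -, -, -, rfl⟩ := Finset.card_eq_three.1 (hS.trans h)
    have h1 : Subgroup.zpowers x ⊔ Subgroup.zpowers y ⊔ Subgroup.zpowers z = ⊤ := by
      rw [← hS', Finset.coe_insert, Finset.coe_pair, Set.insert_eq, Set.insert_eq,
        Subgroup.closure_union, Subgroup.closure_union, ← Subgroup.zpowers_eq_closure,
        ← Subgroup.zpowers_eq_closure, ← Subgroup.zpowers_eq_closure, sup_assoc]
    have key : ∀ a b c : D, Subgroup.zpowers a ⊔ Subgroup.zpowers b ⊔ Subgroup.zpowers c = ⊤ →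
        Nat.card B * orderOf c ≤ Nat.card D ^ 2 := by
      intro a b c h
      rw [← Subgroup.orderOf_coe]
      refine three_gen hM hB hBD hab' a.2 b.2 c.2 ((hmap _ h).trans ?_)
      rw [Subgroup.map_sup, Subgroup.map_sup, MonoidHom.map_zpowers, MonoidHom.map_zpowers,
        MonoidHom.map_zpowers]
      rfl
    have k1 := key x y z h1
    have k2 := key x z y (by rw [← h1]; ac_rfl)
    have k3 := key y z x (by rw [← h1]; ac_rfl)
    have h2 : Nat.card D ≤ orderOf x * orderOf y * orderOf z := by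
      letI : CommGroup D := { (inferInstance : Group D) with mul_comm := mul_comm' }
      have h3 := (card_sup_le (Subgroup.zpowers x ⊔ Subgroup.zpowers y) (Subgroup.zpowers z)).trans
        (Nat.mul_le_mul_right _ (card_sup_le _ _))
      simp only [Nat.card_zpowers] at h3
      rwa [h1, Subgroup.card_top] at h3
    have h3 : Nat.card B ^ 3 * Nat.card D ≤ Nat.card D ^ 5 * Nat.card D :=
      calc Nat.card B ^ 3 * Nat.card D ≤ Nat.card B ^ 3 * (orderOf x * orderOf y * orderOf z) :=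
            Nat.mul_le_mul_left _ h2
        _ = (Nat.card B * orderOf x) * (Nat.card B * orderOf y) * (Nat.card B * orderOf z) := by ring
        _ ≤ Nat.card D ^ 2 * Nat.card D ^ 2 * Nat.card D ^ 2 :=
            Nat.mul_le_mul (Nat.mul_le_mul k3 k2) k1
        _ = _ := by ring
    have h4 := Nat.le_of_mul_le_mul_right h3 Nat.card_pos
    rwa [hDd, ← pow_mul, mul_comm] at h4

end Cfsg.Agent.S4697
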