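import Cfsg.Statements.S4699
import Cfsg.Agent.CT.Rep
import Cfsg.Agent.CT.Induction
import Cfsg.Agent.Grp.Basic

set_option autoImplicit false
open Cfsg

namespace Cfsg.Agent.S4699

theorem geom_sum_eq_sub_one_pow {F A : Type*} [Field F] [Ring A] [Algebra F A] (p n : ℕ)
    [hp : Fact p.Prime] [CharP F p] (T : A) :
    ∑ i ∈ Finset.range (p ^ n), T ^ i = (T - 1) ^ (p ^ n - 1) := by
  have h : ∑ i ∈ Finset.range (p ^ n), (Polynomial.X : Polynomial F) ^ i =
      (Polynomial.X - 1) ^ (p ^ n - 1) := by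
    have h0 : (Polynomial.X - 1 : Polynomial F) ≠ 0 := by
      simpa using Polynomial.X_sub_C_ne_zero (1 : F)
    refine mul_left_cancel₀ h0 ?_
    rw [mul_geom_sum, ← pow_succ', Nat.sub_add_cancel (Nat.one_le_pow _ _ hp.out.pos),
      sub_pow_char_pow, one_pow]
  have := congrArg (Polynomial.aeval T) h
  simpa using this

theorem pow_mul_trace_eq_zero {F A : Type*} [Field F] [Ring A] [Algebra F A] (p n : ℕ)
    [hp : Fact p.Prime] [CharP F p] (U U' : A) (hU : U' * U = 1) (hU' : U * U' = 1) {m j : ℕ}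
    (hm : (U - 1) ^ m = 0) (hj : 2 * m ≤ j + p ^ n) (ψ : A) :
    (U - 1) ^ j * ∑ i ∈ Finset.range (p ^ n), U ^ i * ψ * U' ^ i = 0 := by
  set L : Module.End F A := LinearMap.mulLeft F (U - 1) with hL
  set R : Module.End F A := LinearMap.mulRight F (U - 1) with hR
  set R' : Module.End F A := LinearMap.mulRight F U' with hR'
  set T : Module.End F A := LinearMap.mulLeft F U * R' with hT
  have hTi : ∀ i (x : A), (T ^ i) x = U ^ i * x * U' ^ i := by
    intro i
    induction i with
    | zero => simp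
    | succ i ih =>
      intro x
      rw [pow_succ, Module.End.mul_apply, ih]
      simp only [hT, hR', Module.End.mul_apply, LinearMap.mulLeft_apply, LinearMap.mulRight_apply]
      rw [pow_succ, pow_succ']
      simp only [mul_assoc]
  have hT1 : T - 1 = (L + -R) * R' := by
    ext x
    simp only [hT, hR', hL, hR, Module.End.mul_apply, LinearMap.mulLeft_apply,
      LinearMap.mulRight_apply, LinearMap.sub_apply, LinearMap.add_apply, LinearMap.neg_apply,
      Module.End.one_apply]
    rw [mul_sub, mul_assoc x, hU]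
    noncomm_ring
  have hLR : Commute L (-R) := by
    ext x
    simp [hL, hR, mul_assoc]
  have hc : Commute (L + -R) R' := by
    ext x
    simp only [hR', hL, hR, Module.End.mul_apply, LinearMap.mulLeft_apply,
      LinearMap.mulRight_apply, LinearMap.add_apply, LinearMap.neg_apply]
    have : U' * (U - 1) = (U - 1) * U' := by rw [mul_sub, sub_mul, hU, hU']; simp
    rw [mul_assoc x, this]
    noncomm_ring
  have hLi : ∀ i (x : A), (L ^ i) x = (U - 1) ^ i * x := by
    intro i x
    rw [hL, LinearMap.pow_mulLeft, LinearMap.mulLeft_apply]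
  have hLm : L ^ m = 0 := by
    ext x
    rw [hLi, hm]; simp
  have hRm : (-R) ^ m = 0 := by
    have : R ^ m = 0 := by rw [hR, LinearMap.pow_mulRight, hm]; simp
    rw [neg_pow R, this, mul_zero]
  have key : L ^ j * (L + -R) ^ (p ^ n - 1) = 0 := by
    rw [hLR.add_pow, Finset.mul_sum]
    refine Finset.sum_eq_zero fun i hi => ?_
    rw [Finset.mem_range] at hi
    have h1 := Nat.one_le_pow n p hp.out.pos
    by_cases h : m ≤ j + i
    · rw [← mul_assoc, ← mul_assoc, ← pow_add, pow_eq_zero_of_le h hLm]; simp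
    · rw [pow_eq_zero_of_le (by omega) hRm]; simp
  have h2 := geom_sum_eq_sub_one_pow (F := F) p n T
  have h3 := congrArg (fun f : Module.End F A => (L ^ j * f) ψ) h2
  rw [hT1, hc.mul_pow, ← mul_assoc, key, Module.End.mul_apply, hLi, LinearMap.sum_apply] at h3
  simpa [hTi] using h3

theorem sum_eq_zero_of_free {G M : Type*} [Group G] [AddCommGroup M] (P : Subgroup G) [Fintype P]
    (f : G → M) (S : Finset G) (hS : ∀ a ∈ P, ∀ v ∈ S, a * v * a⁻¹ ∈ S)
    (hfree : ∀ v ∈ S, ∀ a ∈ P, a * v * a⁻¹ = v → a = 1)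
    (h : ∀ v ∈ S, ∑ a : P, f (a * v * (a : G)⁻¹) = 0) : ∑ v ∈ S, f v = 0 := by
  classical
  induction S using Finset.strongInduction with
  | H S ih =>
    rcases S.eq_empty_or_nonempty with rfl | ⟨v, hv⟩
    · simp
    set O : Finset G := Finset.univ.image fun a : P => (a : G) * v * (a : G)⁻¹ with hO
    have hOS : O ⊆ S := by
      intro x hx
      obtain ⟨a, -, rfl⟩ := Finset.mem_image.1 hx
      exact hS a a.2 v hv
    have hvO : v ∈ O := Finset.mem_image.2 ⟨1, Finset.mem_univ _, by simp⟩
    rw [← Finset.sum_sdiff hOS, ih (S \ O) (Finset.sdiff_ssubset hOS ⟨v, hvO⟩), zero_add, hO,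
      Finset.sum_image, h v hv]
    · intro a _ b _ hab
      have h1 := hfree v hv ((b : G)⁻¹ * a) (P.mul_mem (P.inv_mem b.2) a.2) (by
        simp only at hab
        calc (b : G)⁻¹ * a * v * ((b : G)⁻¹ * a)⁻¹ = (b : G)⁻¹ * (a * v * (a : G)⁻¹) * b := by group
          _ = v := by rw [hab]; group)
      exact Subtype.ext (inv_mul_eq_one.1 h1).symm
    · intro a ha w hw
      rw [Finset.mem_sdiff] at hw ⊢
      refine ⟨hS a ha w hw.1, fun h1 => hw.2 ?_⟩
      obtain ⟨b, -, hb⟩ := Finset.mem_image.1 h1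
      refine Finset.mem_image.2 ⟨⟨a⁻¹ * b, P.mul_mem (P.inv_mem ha) b.2⟩, Finset.mem_univ _, ?_⟩
      calc a⁻¹ * b * v * (a⁻¹ * b)⁻¹ = a⁻¹ * (b * v * (b : G)⁻¹) * a := by group
        _ = w := by rw [hb]; group
    · exact fun w hw => hfree w (Finset.mem_sdiff.1 hw).1
    · exact fun w hw => h w (Finset.mem_sdiff.1 hw).1

theorem pow_mul_pow_sub_one {F A : Type*} [Field F] [Ring A] [Algebra F A] (p : ℕ)
    [hp : Fact p.Prime] [CharP F p] (U : A) {j k : ℕ} (hk : ¬ p ∣ k)
    (hm : (U - 1) ^ (j + p) = 0) :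
    (U - 1) ^ j * (U ^ k - 1) ^ (p - 1) = (U - 1) ^ (j + (p - 1)) := by
  set s := ∑ i ∈ Finset.range k, U ^ i with hs
  have hc : Commute (U - 1) s :=
    Commute.sum_right _ _ _ fun i _ => ((Commute.refl U).sub_left (Commute.one_left U)).pow_right i
  rw [← mul_geom_sum, hc.mul_pow, ← mul_assoc, ← pow_add]
  set z := (U - 1) ^ (j + (p - 1)) with hz
  have h1 : z * U = z := by
    have : z * (U - 1) = 0 := by
      rw [hz, ← pow_succ, add_assoc, Nat.sub_add_cancel hp.out.one_le, hm]
    rw [mul_sub, mul_one, sub_eq_zero] at this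
    exact this
  have h2 : ∀ i, z * U ^ i = z := by
    intro i
    induction i with
    | zero => simp
    | succ i ih => rw [pow_succ, ← mul_assoc, ih, h1]
  have h3 : z * s = (k : F) • z := by
    rw [hs, Finset.mul_sum, Finset.sum_congr rfl fun i _ => h2 i]
    simp [Nat.cast_smul_eq_nsmul]
  have h4 : ∀ i, z * s ^ i = (k : F) ^ i • z := by
    intro i
    induction i with
    | zero => simp
    | succ i ih => rw [pow_succ, ← mul_assoc, ih, smul_mul_assoc, h3, smul_smul, pow_succ]
  have h5 : (k : F) ^ (p - 1) = 1 := by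
    have h6 : k ^ (p - 1) ≡ 1 [MOD p] := by
      have := Nat.ModEq.pow_totient ((Nat.Prime.coprime_iff_not_dvd hp.out).2 hk).symm
      rwa [Nat.totient_prime hp.out] at this
    have := (CharP.natCast_eq_natCast F p).2 h6
    simpa using this
  rw [h4, h5, one_smul]

/-- Let p be a prime and G a finite group whose Sylow p-subgroup P is cyclic of order p^n with n ≥ 2 and meets every other Sylow p-subgroup trivially. Then every faithful irreducible representation of G on a finite-dimensional space over a finite field of characteristic p has dimension at least p^n − (p − 1). -/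
theorem result {G : Type*} [Group G] [Finite G] (p : ℕ) [Fact p.Prime] (P : Sylow p G) (hcyc : IsCyclic P) (n : ℕ) (hn : 2 ≤ n) (hPn : Nat.card P = p ^ n) (hTI : ∀ Q : Sylow p G, Q ≠ P → (P : Subgroup G) ⊓ (Q : Subgroup G) = ⊥) (F : Type*) [Field F] [Finite F] [CharP F p] (V : Type*) [AddCommGroup V] [Module F V] [FiniteDimensional F V] (ρ : Representation F G V) (hfaith : Function.Injective ρ) (hirr : ρ.IsIrreducible) : p ^ n - (p - 1) ≤ Module.finrank F V := by
  classical
  have hp : p.Prime := Fact.out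
  haveI := Fintype.ofFinite G
  obtain ⟨u, hu⟩ := IsCyclic.exists_generator (α := P)
  have hou : orderOf u = p ^ n := by rw [← hPn]; exact orderOf_eq_card_of_forall_mem_zpowers hu
  have hou' : orderOf (u : G) = p ^ n := by rw [Subgroup.orderOf_coe, hou]
  have hPu : (P : Subgroup G) = Subgroup.zpowers (u : G) := by
    symm
    refine Subgroup.eq_of_le_of_card_ge ((Subgroup.zpowers_le).2 u.2) ?_
    rw [Nat.card_zpowers, hou', hPn]
  set U : Module.End F V := ρ u with hU
  haveI : Nontrivial V := rep_nontrivial_of_isIrreducible hirr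
  haveI : CharP (Module.End F V) p := charP_of_injective_algebraMap
    (algebraMap F (Module.End F V)).injective p
  have hsub : ∀ k, (U - 1) ^ p ^ k = ρ ((u : G) ^ p ^ k) - 1 := fun k => by
    rw [sub_pow_char_pow_of_commute _ _ (Commute.one_right U), one_pow, map_pow]
  have hq : (U - 1) ^ p ^ n = 0 := by rw [hsub, ← hou', pow_orderOf_eq_one, map_one, sub_self]
  have hp0 : (U - 1) ^ p ≠ 0 := by
    intro h
    have h1 := hsub 1
    rw [pow_one, h, eq_comm, sub_eq_zero, ← map_one ρ] at h1
    have h2 := orderOf_dvd_of_pow_eq_one (hfaith h1)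
    rw [hou'] at h2
    have h3 := (Nat.pow_dvd_pow_iff_le_right hp.one_lt).1 (h2.trans (pow_one p).symm.dvd)
    omega
  have hex : ∃ m, (U - 1) ^ m = 0 := ⟨_, hq⟩
  have hm := Nat.find_spec hex
  set m := Nat.find hex with hmdef
  have hmd : m ≤ Module.finrank F V := by
    refine Nat.find_min' hex ?_
    have h1 := LinearMap.aeval_self_charpoly (U - 1)
    rwa [IsNilpotent.charpoly_eq_X_pow_finrank ⟨_, hq⟩, map_pow, Polynomial.aeval_X] at h1
  have hpm : p < m := by
    by_contra h
    exact hp0 (pow_eq_zero_of_le (not_lt.1 h) hm)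
  by_contra hlt
  have h1p := hp.one_lt
  have hmq : m + p ≤ p ^ n := by omega
  obtain ⟨j, hj⟩ : ∃ j, m = j + p := ⟨m - p, by omega⟩
  set K : Finset G := Finset.univ.filter fun v => IsConj (u : G) v with hK
  set y : Module.End F V := ∑ v ∈ K, (ρ v - 1) ^ (p - 1) with hy
  have hconj : ∀ a v : G, (ρ (a * v * a⁻¹) - 1) ^ (p - 1) = ρ a * (ρ v - 1) ^ (p - 1) * ρ a⁻¹ := by
    intro a v
    have h1 : ρ a⁻¹ * ρ a = 1 := by rw [← map_mul]; simp
    have h2 : ρ a * ρ a⁻¹ = 1 := by rw [← map_mul]; simp
    have h3 : ρ (a * v * a⁻¹) - 1 = ρ a * (ρ v - 1) * ρ a⁻¹ := by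
      rw [mul_sub, sub_mul, mul_one, h2, map_mul, map_mul]
    rw [h3]
    induction p - 1 with
    | zero => simp [h2]
    | succ i ih =>
      rw [pow_succ, ih, pow_succ]
      calc ρ a * (ρ v - 1) ^ i * ρ a⁻¹ * (ρ a * (ρ v - 1) * ρ a⁻¹)
          = ρ a * (ρ v - 1) ^ i * (ρ a⁻¹ * ρ a) * (ρ v - 1) * ρ a⁻¹ := by simp only [mul_assoc]
        _ = _ := by rw [h1, mul_one]; simp only [mul_assoc]
  have hycomm : ∀ a : G, y * ρ a = ρ a * y := by
    intro a
    have h1 : ρ a * y * ρ a⁻¹ = y := by
      rw [hy, Finset.mul_sum, Finset.sum_mul]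
      simp only [← hconj]
      refine Finset.sum_bijective (fun v => a * v * a⁻¹) (MulAut.conj a).bijective ?_
        fun _ _ => rfl
      intro v
      simp only [hK, Finset.mem_filter, Finset.mem_univ, true_and]
      have : IsConj v (a * v * a⁻¹) := isConj_iff.2 ⟨a, rfl⟩
      exact ⟨fun h => h.trans this, fun h => h.trans this.symm⟩
    conv_lhs => rw [← h1]
    rw [mul_assoc, ← map_mul]; simp
  have hoc : ∀ v : G, IsConj (u : G) v → orderOf (u : G) = orderOf v := by
    intro v hv
    obtain ⟨g, rfl⟩ := isConj_iff.1 hv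
    exact (MulEquiv.orderOf_eq (MulAut.conj g) (u : G)).symm
  set S := K.filter fun v => v ∉ (P : Subgroup G) with hS
  have hSinv : ∀ a ∈ (P : Subgroup G), ∀ v ∈ S, a * v * a⁻¹ ∈ S := by
    intro a ha v hv
    simp only [hS, hK, Finset.mem_filter, Finset.mem_univ, true_and] at hv ⊢
    refine ⟨hv.1.trans (isConj_iff.2 ⟨a, rfl⟩), fun h => hv.2 ?_⟩
    have := (P : Subgroup G).mul_mem ((P : Subgroup G).mul_mem ((P : Subgroup G).inv_mem ha) h) ha
    simpa [mul_assoc] using this
  have hfree : ∀ v ∈ S, ∀ a ∈ (P : Subgroup G), a * v * a⁻¹ = v → a = 1 := by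
    intro v hv a ha h
    simp only [hS, hK, Finset.mem_filter, Finset.mem_univ, true_and] at hv
    obtain ⟨g, hg⟩ := isConj_iff.1 hv.1
    have hvQ : v ∈ ((g • P : Sylow p G) : Subgroup G) := by
      rw [Sylow.coe_subgroup_smul, Subgroup.mem_pointwise_smul_iff_inv_smul_mem]
      simp [← hg, mul_assoc]
    have hQ : ((g • P : Sylow p G) : Subgroup G) = Subgroup.zpowers v := by
      symm
      refine Subgroup.eq_of_le_of_card_ge ((Subgroup.zpowers_le).2 hvQ) ?_
      rw [Nat.card_zpowers, ← hoc _ hv.1, hou', ← hPn, Sylow.card_eq_multiplicity,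
        Sylow.card_eq_multiplicity]
    have haN : a ∈ Subgroup.normalizer (((g • P : Sylow p G) : Subgroup G) : Set G) := by
      refine Subgroup.centralizer_le_normalizer _ ?_
      rw [hQ, Subgroup.mem_centralizer_iff]
      rintro _ ⟨k, rfl⟩
      have : Commute a v := by
        rw [mul_inv_eq_iff_eq_mul] at h
        exact h
      exact (this.zpow_right k).symm.eq
    have haQ : a ∈ ((g • P : Sylow p G) : Subgroup G) := by
      have h1 : IsPGroup p (Subgroup.zpowers a) :=
        P.isPGroup'.to_le ((Subgroup.zpowers_le).2 ha)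
      have h2 := h1.inf_normalizer_sylow (g • P)
      have h3 : a ∈ Subgroup.zpowers a ⊓ Subgroup.normalizer
          (((g • P : Sylow p G) : Subgroup G) : Set G) := ⟨Subgroup.mem_zpowers a, haN⟩
      exact (h2.le h3).2
    have hne : g • P ≠ P := fun h => hv.2 (h ▸ hvQ)
    have : a ∈ (P : Subgroup G) ⊓ (g • P : Sylow p G) := ⟨ha, haQ⟩
    rwa [hTI _ hne, Subgroup.mem_bot] at this
  have hout : ∀ i, j ≤ i → (U - 1) ^ i * ∑ v ∈ S, (ρ v - 1) ^ (p - 1) = 0 := by
    intro i hi
    rw [Finset.mul_sum]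
    refine sum_eq_zero_of_free P (fun v => (U - 1) ^ i * (ρ v - 1) ^ (p - 1)) S hSinv hfree
      fun v _ => ?_
    rw [← Finset.mul_sum, ← IsCyclic.image_range_orderOf hu,
      Finset.sum_image fun a ha b hb h => pow_injOn_Iio_orderOf (by simpa using ha)
        (by simpa using hb) h, hou]
    simp only [hconj]
    simp only [SubgroupClass.coe_pow, ← inv_pow, map_pow]
    exact pow_mul_trace_eq_zero (F := F) p n U (ρ (u : G)⁻¹) (by rw [hU, ← map_mul]; simp)
      (by rw [hU, ← map_mul]; simp) hm (j := i) (by omega) _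
  have hcardS : (S.card : F) = 0 := by
    have := sum_eq_zero_of_free P (fun _ => (1 : F)) S hSinv hfree fun v _ => by
      rw [Finset.sum_const, Finset.card_univ, ← Nat.card_eq_fintype_card, hPn]
      simp [show n ≠ 0 by omega]
    simpa using this
  have hcardK : (K.card : F) ≠ 0 := by
    rw [Ne, CharP.cast_eq_zero_iff F p]
    have h1 : K.card = (Subgroup.centralizer ({(u : G)} : Set G)).index := by
      have h2 := sum_conj_eq_card_centralizer_smul_filter (fun _ : G => 1) (u : G)
      simp only [Finset.sum_const, Finset.card_univ, smul_eq_mul, mul_one] at h2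
      rw [← Nat.card_eq_fintype_card, ← (Subgroup.centralizer ({(u : G)} : Set G)).card_mul_index]
        at h2
      have h3 := Nat.eq_of_mul_eq_mul_left Nat.card_pos h2
      rw [h3, hK]
    rw [h1]
    refine fun h => P.not_dvd_index (h.trans (Subgroup.index_dvd_of_le ?_))
    refine hPu.le.trans ?_
    rw [Subgroup.zpowers_le, Subgroup.mem_centralizer_singleton_iff]
  have hin : (U - 1) ^ j * ∑ v ∈ K.filter (· ∈ (P : Subgroup G)), (ρ v - 1) ^ (p - 1) =
      (K.card : F) • (U - 1) ^ (j + (p - 1)) := by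
    rw [Finset.mul_sum, Finset.sum_congr rfl (g := fun _ => (U - 1) ^ (j + (p - 1)))]
    · rw [Finset.sum_const, ← Finset.card_filter_add_card_filter_not (s := K)
        (· ∈ (P : Subgroup G)), Nat.cast_add, hcardS, add_zero, Nat.cast_smul_eq_nsmul]
    · intro v hv
      simp only [hK, Finset.mem_filter, Finset.mem_univ, true_and] at hv
      have h1 := hPu.le hv.2
      rw [← mem_powers_iff_mem_zpowers] at h1
      obtain ⟨k, rfl⟩ := h1
      have hk : ¬ p ∣ k := by
        rintro ⟨c, rfl⟩
        have h2 := hoc _ hv.1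
        have h3 : ((u : G) ^ (p * c)) ^ p ^ (n - 1) = 1 := by
          rw [← pow_mul, show p * c * p ^ (n - 1) = p ^ n * c by
            conv_rhs => rw [show n = (n - 1) + 1 by omega]
            ring, pow_mul, ← hou', pow_orderOf_eq_one, one_pow]
        have h4 := orderOf_dvd_of_pow_eq_one h3
        simp only at h2
        rw [← h2, hou', Nat.pow_dvd_pow_iff_le_right h1p] at h4
        omega
      simp only [map_pow]
      exact pow_mul_pow_sub_one (F := F) p U hk (hj ▸ hm)
  have hy1 : (U - 1) ^ j * y = (K.card : F) • (U - 1) ^ (j + (p - 1)) := by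
    rw [hy, ← Finset.sum_filter_add_sum_filter_not K (· ∈ (P : Subgroup G)), mul_add, hin,
      hout j le_rfl, add_zero]
  have hne : (U - 1) ^ (j + (p - 1)) ≠ 0 := Nat.find_min hex (by omega)
  have hy0 : y ≠ 0 := by
    intro h
    rw [h, mul_zero, eq_comm, smul_eq_zero] at hy1
    exact hy1.elim hcardK hne
  have hsurj : Function.Surjective y := by
    refine (Representation.IsIrreducible.surjective_or_eq_zero
      (⟨y, hycomm⟩ : Representation.IntertwiningMap ρ ρ)).resolve_right fun h => hy0 ?_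
    exact congrArg (·.toLinearMap) h
  have hy2 : (U - 1) ^ (j + 1) * y = 0 := by
    rw [pow_succ', mul_assoc, hy1, mul_smul_comm, ← pow_succ',
      show j + (p - 1) + 1 = m by omega, hm, smul_zero]
  refine Nat.find_min hex (show j + 1 < m by omega) ?_
  ext v
  obtain ⟨w, rfl⟩ := hsurj v
  exact congrArg (· w) hy2

end Cfsg.Agent.S4699
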