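import Cfsg.Statements.S4701
import Cfsg.Agent.Blk.PrinBrauer

set_option autoImplicit false
open Cfsg

namespace Cfsg.Agent.S4701

/-- Let G be a finite perfect group and p a prime dividing the order of G with p^3 larger than the order of G. Suppose a Sylow p-subgroup of G is not normal and G has no normal subgroup of order 2. Then p > 3 and G is isomorphic to PSL(2, p), or to SL(2, 2^m) with p = 2^m + 1. -/
theorem result {G : Type*} [Group G] [Finite G] (hperf : commutator G = ⊤) (p : ℕ) [Fact p.Prime] (hdvd : p ∣ Nat.card G) (hbig : Nat.card G < p ^ 3) (P : Sylow p G) (hP : ¬ (P : Subgroup G).Normal) (h2 : ∀ N : Subgroup G, N.Normal → Nat.card N ≠ 2) : (∃ (F : Type) (_ : Field F) (_ : Fintype F), Fintype.card F = p ∧ 3 < p ∧ Nonempty (G ≃* Matrix.ProjectiveSpecialLinearGroup (Fin 2) F)) ∨ (∃ (m : ℕ) (F : Type) (_ : Field F) (_ : Fintype F), Fintype.card F = 2 ^ m ∧ p = 2 ^ m + 1 ∧ 3 < p ∧ Nonempty (G ≃* Matrix.SpecialLinearGroup (Fin 2) F)) := by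
  have hp : p.Prime := Fact.out
  have hG := (P : Subgroup G).card_mul_index
  have hi := P.card_eq_index_normalizer
  have h1 := card_sylow_modEq_one p G
  obtain ⟨n, hn⟩ := (Nat.modEq_iff_dvd' Nat.card_pos).1 h1.symm
  have hn' : Nat.card (Sylow p G) = 1 + n * p := by
    have := Nat.card_pos (α := Sylow p G)
    rw [mul_comm] at hn
    omega
  have hn0 : 0 < n := Nat.pos_of_ne_zero fun h0 => hP (Subgroup.normalizer_eq_top_iff.1
    (Subgroup.index_eq_one.1 (hi.symm.trans (by rw [hn', h0]; simp))))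
  have hcard : Nat.card P = p := by
    obtain ⟨k, hk⟩ := IsPGroup.iff_card.1 P.isPGroup'
    have h3 := Nat.le_of_dvd (Nat.pos_of_ne_zero Subgroup.index_ne_zero_of_finite)
      P.card_dvd_index
    rcases k with _ | _ | k
    · rw [hk, pow_zero, one_mul] at hG
      exact (P.not_dvd_index (hG ▸ hdvd)).elim
    · exact hk.trans (pow_one p)
    · have h4 : p ^ 2 ≤ p ^ (k + 1 + 1) := Nat.pow_le_pow_right hp.pos (by omega)
      have h5 : p ^ 2 * p ≤ p ^ (k + 1 + 1) * (P : Subgroup G).index :=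
        Nat.mul_le_mul h4 (by nlinarith)
      rw [← hk, hG, ← pow_succ] at h5
      exact absurd hbig (not_lt.2 h5)
  have hrep : ¬ HasBrauerRep p n := by
    intro h
    have h3 := h.le
    have h4 := two_le_autIdx_of_perfect hperf P hcard
    have h5 : p * 2 ≤ Nat.card (sylN P) := by
      rw [← card_mul_relIndex (Subgroup.centralizer_le_normalizer _)]
      refine Nat.mul_le_mul ?_ h4
      exact hcard.ge.trans (Subgroup.card_le_of_le (le_centralizer_of_card_prime hcard))
    have h6 := (sylN P).card_mul_index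
    have h7 : (sylN P).index = 1 + n * p := hi.symm.trans hn'
    rw [h7] at h6
    have h8 : p * 2 * (1 + n * p) ≤ Nat.card G := h6 ▸ Nat.mul_le_mul_right _ h5
    have h9 : p * p * (p + 3) ≤ p * p * (2 * n) := Nat.mul_le_mul_left _ h3
    nlinarith
  have hq := Subgroup.card_eq_card_quotient_mul_card_subgroup (pPrimeCore p G)
  have hO : 3 * Nat.card (G ⧸ pPrimeCore p G) ≥ p ^ 3 → pPrimeCore p G = ⊥ := by
    intro h
    have h3 := h2 _ (inferInstance : (pPrimeCore p G).Normal)
    have h4 := Nat.card_pos (α := pPrimeCore p G)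
    rw [← Subgroup.card_eq_one]
    by_contra h5
    have h6 : Nat.card (G ⧸ pPrimeCore p G) * 3 ≤ Nat.card G :=
      hq ▸ Nat.mul_le_mul_left _ (by omega)
    omega
  have he : pPrimeCore p G = ⊥ → Nonempty (G ≃* G ⧸ pPrimeCore p G) := fun h =>
    ⟨((QuotientGroup.quotientMulEquivOfEq h).trans QuotientGroup.quotientBot).symm⟩
  rcases brauer_prime hperf P hcard hn' hrep with ⟨-, h3, h4, ⟨e⟩⟩ |
    ⟨-, h3, h4, m, F, _, _, h5, h6, ⟨e⟩⟩
  · obtain ⟨e'⟩ := he (hO (by
      obtain ⟨r, rfl⟩ : ∃ r, p = r + 4 := ⟨p - 4, by omega⟩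
      rw [show r + 4 - 1 = r + 3 from rfl] at h4
      nlinarith [Nat.zero_le (r ^ 3), Nat.zero_le (r ^ 2)]))
    exact Or.inl ⟨ZMod p, inferInstance, inferInstance, ZMod.card p, h3, ⟨e'.trans e⟩⟩
  · obtain ⟨e'⟩ := he (hO (by
      obtain ⟨r, rfl⟩ : ∃ r, p = r + 4 := ⟨p - 4, by omega⟩
      rw [h4, show r + 4 - 1 = r + 3 from rfl, show r + 4 - 2 = r + 2 from rfl]
      nlinarith [Nat.zero_le (r ^ 3), Nat.zero_le (r ^ 2)]))
    exact Or.inr ⟨m, F, inferInstance, inferInstance, h5, h6, h3, ⟨e'.trans e⟩⟩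

end Cfsg.Agent.S4701
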