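import Cfsg.Statements.S4706
import Cfsg.Agent.Blk.PrinTwo
import Cfsg.Agent.S4702

set_option autoImplicit false
open Cfsg

namespace Cfsg.Agent.S4706

/-- Let p > 2 be a prime and G a permutation group on p letters whose Sylow p-subgroup P has normalizer of order 2p. Then either P is normal in G, or p − 1 = 2^a for some a and G is isomorphic to SL(2, 2^a). -/
theorem result {α : Type*} [Fintype α] [DecidableEq α] {p : ℕ} [Fact p.Prime] (hp : 2 < p) (hα : Fintype.card α = p) (G : Subgroup (Equiv.Perm α)) (P : Sylow p G) (hN : Nat.card (Subgroup.normalizer ((P : Subgroup G) : Set G)) = 2 * p) : (P : Subgroup G).Normal ∨ ∃ (a : ℕ) (F : Type) (_ : Field F) (_ : Fintype F), p = 2 ^ a + 1 ∧ Fintype.card F = 2 ^ a ∧ Nonempty (G ≃* Matrix.SpecialLinearGroup (Fin 2) F) := by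
  classical
  have hp' : p.Prime := Fact.out
  by_cases hnn : (P : Subgroup G).Normal
  · exact Or.inl hnn
  right
  have := Fintype.ofFinite G
  have hα' : Nat.card α = p := by rw [Nat.card_eq_fintype_card, hα]
  have h5 : 5 ≤ p := by
    have h4 : p ≠ 4 := by rintro rfl; norm_num at hp'
    by_contra h
    obtain rfl : p = 3 := by omega
    have h1 : Nat.card G ≤ 6 := by
      have := Subgroup.card_le_card_group G
      rw [Nat.card_perm, hα'] at this
      exact this
    have h2 : Subgroup.normalizer ((P : Subgroup G) : Set G) = ⊤ :=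
      Subgroup.eq_top_of_le_card _ (by rw [hN]; exact h1)
    exact hnn (Subgroup.normalizer_eq_top_iff.1 h2)
  have hP : Nat.card (P : Subgroup G) = p := card_sylow_of_card_normalizer P (by omega) hN hnn
  obtain ⟨u, hu, hu1⟩ := exists_ne_one_of_card_prime hP
  have hPt : MulAction.IsPretransitive (P : Subgroup G) α := by
    obtain ⟨a, ha⟩ : ∃ a : α, u • a ≠ a := by
      by_contra! h
      exact hu1 (eq_of_smul_eq_smul (α := α) fun a => by rw [h, one_smul])
    obtain ⟨k, hk⟩ := P.isPGroup'.card_orbit a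
    have h1 : Nat.card (MulAction.orbit (P : Subgroup G) a) ≤ p :=
      (Nat.card_le_card_of_injective _ Subtype.val_injective).trans hα'.le
    have h2 : Nat.card (MulAction.orbit (P : Subgroup G) a) ≠ 1 := by
      intro h
      have h3 := (Nat.card_eq_one_iff_unique.1 h).1
      have := h3.elim ⟨_, MulAction.mem_orbit a (⟨u, hu⟩ : (P : Subgroup G))⟩
        ⟨a, MulAction.mem_orbit_self a⟩
      exact ha (congrArg Subtype.val this)
    have h3 : k = 1 := by
      rw [hk] at h1 h2
      rcases k with _ | _ | k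
      · simp at h2
      · rfl
      · have : p ^ 1 < p ^ (k + 1 + 1) := Nat.pow_lt_pow_right hp'.one_lt (by omega)
        rw [pow_one] at this
        omega
    rw [h3, pow_one] at hk
    have h4 : MulAction.orbit (P : Subgroup G) a = Set.univ :=
      Set.eq_of_subset_of_ncard_le (Set.subset_univ _)
        (by rw [Set.ncard_univ, hα']; exact le_of_eq hk.symm)
    exact (MulAction.isPretransitive_iff_orbit_eq_univ a).2 h4
  have hGt : MulAction.IsPretransitive G α :=
    ⟨fun x y => let ⟨g, hg⟩ := hPt.exists_smul_eq x y; ⟨g, hg⟩⟩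
  have hprim : MulAction.IsPreprimitive G α :=
    MulAction.IsPreprimitive.of_prime_card (by rw [hα']; exact hp')
  have hO : pPrimeCore p G = ⊥ := pPrimeCore_eq_bot_of_isPreprimitive (α := α) (by rw [hα'])
  have H := dihNorm_of_card_normalizer P (by omega) hN hO hnn
  obtain ⟨O, ζ, Q⟩ := H.exists_qTwo h5 hO hnn (α := α) (Or.inl hα')
  obtain ⟨β, _, _, K, hβ, ⟨e⟩, h3, hfix⟩ := Q.exists_perm
  obtain ⟨a, -, ha, F, _, _, hF, ⟨e'⟩⟩ := Cfsg.Agent.S4702.result (α := β) (by omega)
    (by rw [hβ]; exact hp'.odd_of_ne_two (by omega)) K h3 hfix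
  exact ⟨a, F, inferInstance, inferInstance, hβ.symm.trans ha, hF, ⟨e.trans e'⟩⟩

end Cfsg.Agent.S4706
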