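import Cfsg.Statements.S4707
import Cfsg.Agent.Blk.PrinTwo

set_option autoImplicit false
open Cfsg

namespace Cfsg.Agent.S4707

/-- Let p > 3 be a prime and G a primitive permutation group of degree 2p that is not doubly transitive. If a Sylow p-subgroup of G has normalizer of order 2p, then p = 5 and G is isomorphic to the alternating group of degree 5. -/
theorem result {α : Type*} [Fintype α] [DecidableEq α] {p : ℕ} [Fact p.Prime] (hp : 3 < p) (hα : Fintype.card α = 2 * p) (G : Subgroup (Equiv.Perm α)) (hprim : MulAction.IsPreprimitive G α) (hnot2 : ¬ MulAction.IsMultiplyPretransitive G α 2) (P : Sylow p G) (hN : Nat.card (Subgroup.normalizer ((P : Subgroup G) : Set G)) = 2 * p) : p = 5 ∧ Nonempty (G ≃* alternatingGroup (Fin 5)) := by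
  classical
  have hp' : p.Prime := Fact.out
  have h5 : 5 ≤ p := by
    have : p ≠ 4 := by rintro rfl; norm_num at hp'
    omega
  have := Fintype.ofFinite G
  have hα' : Nat.card α = 2 * p := by rw [Nat.card_eq_fintype_card, hα]
  have hO : pPrimeCore p G = ⊥ := pPrimeCore_eq_bot_of_isPreprimitive (α := α) (by rw [hα']; exact dvd_mul_left _ _)
  have hnn : ¬ (P : Subgroup G).Normal := by
    intro hn
    have h1 : Nat.card G = 2 * p := by
      rw [← hN, Subgroup.normalizer_eq_top_iff.2 hn, Subgroup.card_top]
    have h2 : Nat.card (P : Subgroup G) = p := by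
      rw [Sylow.card_eq_multiplicity, h1, Nat.factorization_mul (by norm_num) hp'.ne_zero,
        Finsupp.add_apply, hp'.factorization_self,
        Nat.factorization_eq_zero_of_lt (by omega)]
      simp
    by_cases h3 : MulAction.fixedPoints (P : Subgroup G) α = Set.univ
    · obtain ⟨u, hu, hu1⟩ := exists_ne_one_of_card_prime h2
      refine hu1 (eq_of_smul_eq_smul (α := α) fun a => ?_)
      rw [one_smul]
      exact (h3 ▸ Set.mem_univ a : a ∈ MulAction.fixedPoints (P : Subgroup G) α) ⟨u, hu⟩
    · have := MulAction.IsQuasiPreprimitive.isPretransitive_of_normal h3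
      obtain ⟨a, -⟩ := (Set.ne_univ_iff_exists_notMem _).1 h3
      have h4 := Subgroup.index_dvd_card (MulAction.stabilizer (P : Subgroup G) a)
      rw [MulAction.index_stabilizer_of_transitive, hα', h2] at h4
      have := Nat.le_of_dvd hp'.pos h4
      omega
  have H := dihNorm_of_card_normalizer P (by omega) hN hO hnn
  obtain ⟨O, ζ, Q⟩ := H.exists_qTwo h5 hO hnn (α := α) (Or.inr ⟨hα', hnot2⟩)
  obtain rfl : p = 5 := Q.eq_five hα'
  refine ⟨rfl, ?_⟩
  obtain ⟨β, _, _, K, hβ, ⟨e⟩, -, -⟩ := Q.exists_perm
  have h1 : K.index = 2 := by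
    have h2 := K.card_mul_index
    rw [← Nat.card_congr e.toEquiv, Q.card_eq, Nat.card_perm, Nat.card_eq_fintype_card,
      hβ] at h2
    norm_num [Nat.factorial] at h2
    omega
  obtain rfl := Equiv.Perm.eq_alternatingGroup_of_index_eq_two h1
  exact ⟨e.trans (Fintype.equivFinOfCardEq hβ).altCongrHom⟩

end Cfsg.Agent.S4707
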