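import Cfsg.Statements.S4708
import Cfsg.Agent.Blk.Cover

set_option autoImplicit false
open Cfsg

namespace Cfsg.Agent.S4708

/-- Let p be a prime, M a maximal ideal of the algebraic integers containing p, G a finite group and H a normal subgroup. Write λ(X) for the sum of the squares of the degrees of the irreducible characters in the principal p-block of a group X. Then λ(H) ≤ λ(G) ≤ [G : H]·λ(H). -/
theorem result {G : Type*} [Group G] [Finite G] (p : ℕ) [Fact p.Prime] (M : Ideal Cfsg.AlgInt) (hM : Cfsg.IsPModular p M) (H : Subgroup G) [H.Normal] : (∑ᶠ θ ∈ Cfsg.principalBlock M H, Cfsg.charDegree (θ : H → ℂ) ^ 2) ≤ (∑ᶠ χ ∈ Cfsg.principalBlock M G, Cfsg.charDegree (χ : G → ℂ) ^ 2) ∧ (∑ᶠ χ ∈ Cfsg.principalBlock M G, Cfsg.charDegree (χ : G → ℂ) ^ 2) ≤ H.index * ∑ᶠ θ ∈ Cfsg.principalBlock M H, Cfsg.charDegree (θ : H → ℂ) ^ 2 := by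
  classical
  haveI : Fintype H := Fintype.ofFinite _
  haveI : Fintype G := Fintype.ofFinite _
  choose m hm using fun (χ : IrrCharacter G) (θ : IrrCharacter H) =>
    (χ.isCharacter.res H).exists_classInner_eq_nat θ.isCharacter
  have hdeg : ∀ χ : IrrCharacter G, charDegree χ.1 = ∑ θ : IrrCharacter H, m χ θ * charDegree θ.1 := by
    intro χ
    have := (χ.isCharacter.res H).isClassFunction.eq_sum_irr 1
    simp only [hm, OneMemClass.coe_one, IrrCharacter.one_eq_charDegree] at this
    exact_mod_cast this
  have hind : ∀ θ : IrrCharacter H,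
      ∑ χ : IrrCharacter G, m χ θ * charDegree χ.1 = H.index * charDegree θ.1 := by
    intro θ
    have := indFun_eq_sum_irr H θ.1 1
    rw [indFun_one] at this
    simp only [fun χ : IrrCharacter G => θ.isCharacter.classInner_comm (χ.isCharacter.res H), hm,
      IrrCharacter.one_eq_charDegree] at this
    exact_mod_cast this.symm
  have hzero : ∀ χ ∈ principalBlock M G, ∀ θ ∉ principalBlock M H, m χ θ = 0 := by
    intro χ hχ θ hθ
    by_contra h
    exact hθ (hM.mem_principalBlock_of_over hχ (by rw [hm]; exact_mod_cast h))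
  have hdeg' : ∀ χ ∈ irrFinset (principalBlock M G), charDegree χ.1 =
      ∑ θ ∈ irrFinset (principalBlock M H), m χ θ * charDegree θ.1 := by
    intro χ hχ
    rw [hdeg χ]
    refine (Finset.sum_subset (Finset.subset_univ _) fun θ _ hθ => ?_).symm
    rw [hzero χ (mem_irrFinset.1 hχ) θ (fun h => hθ (mem_irrFinset.2 h)), zero_mul]
  rw [finsum_mem_irr, finsum_mem_irr]
  constructor
  · calc ∑ θ ∈ irrFinset (principalBlock M H), charDegree θ.1 ^ 2
        ≤ ∑ θ ∈ irrFinset (principalBlock M H), ∑ χ ∈ irrFinset (principalBlock M G),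
            (m χ θ * charDegree θ.1) ^ 2 := by
          refine Finset.sum_le_sum fun θ hθ => ?_
          obtain ⟨χ, hχ, h⟩ := hM.exists_principal_over (mem_irrFinset.1 hθ)
          have h1 : m χ θ ≠ 0 := by
            intro h0
            rw [hm, h0] at h
            exact h Nat.cast_zero
          refine le_trans ?_ (Finset.single_le_sum
            (f := fun χ => (m χ θ * charDegree θ.1) ^ 2) (fun _ _ => Nat.zero_le _)
            (mem_irrFinset.2 hχ))
          exact Nat.pow_le_pow_left (Nat.le_mul_of_pos_left _ (Nat.pos_of_ne_zero h1)) 2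
      _ = ∑ χ ∈ irrFinset (principalBlock M G), ∑ θ ∈ irrFinset (principalBlock M H),
            (m χ θ * charDegree θ.1) ^ 2 := Finset.sum_comm
      _ ≤ _ := by
          refine Finset.sum_le_sum fun χ hχ => ?_
          rw [hdeg' χ hχ]
          exact Finset.sum_sq_le_sq_sum_of_nonneg fun _ _ => Nat.zero_le _
  · calc ∑ χ ∈ irrFinset (principalBlock M G), charDegree χ.1 ^ 2
        = ∑ χ ∈ irrFinset (principalBlock M G), ∑ θ ∈ irrFinset (principalBlock M H),
            charDegree θ.1 * (m χ θ * charDegree χ.1) := by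
          refine Finset.sum_congr rfl fun χ hχ => ?_
          rw [sq]
          nth_rewrite 1 [hdeg' χ hχ]
          rw [Finset.sum_mul]
          exact Finset.sum_congr rfl fun θ _ => by ring
      _ = ∑ θ ∈ irrFinset (principalBlock M H), ∑ χ ∈ irrFinset (principalBlock M G),
            charDegree θ.1 * (m χ θ * charDegree χ.1) := Finset.sum_comm
      _ ≤ _ := by
          rw [Finset.mul_sum]
          refine Finset.sum_le_sum fun θ _ => ?_
          rw [← Finset.mul_sum]
          calc _ ≤ charDegree θ.1 * ∑ χ : IrrCharacter G, m χ θ * charDegree χ.1 :=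
                Nat.mul_le_mul_left _ (Finset.sum_le_sum_of_subset (Finset.subset_univ _))
            _ = _ := by rw [hind]; ring

end Cfsg.Agent.S4708
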