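import Cfsg.Statements.S4712
import Cfsg.Agent.Blk.AutTrace


set_option autoImplicit false
open Cfsg

namespace Cfsg.Agent.S4712

theorem exists_gen {p m a : ℕ} (hp : p.Prime) (hodd : p ≠ 2) (hm : ¬ p ∣ m) :
    ∃ k₀ : ℕ, k₀.Coprime (p ^ a * m) ∧ k₀ ≡ 1 [MOD m] ∧
      ∀ k : ℕ, k.Coprime (p ^ a * m) → k ≡ 1 [MOD m] → ∃ j : ℕ, k ≡ k₀ ^ j [MOD p ^ a * m] := by
  haveI : NeZero (p ^ a) := ⟨pow_ne_zero _ hp.ne_zero⟩
  have hcyc := ZMod.isCyclic_units_of_prime_pow p hp hodd a
  obtain ⟨g, hg⟩ := IsCyclic.exists_monoid_generator (α := (ZMod (p ^ a))ˣ)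
  have hcop : (p ^ a).Coprime m := ((Nat.Prime.coprime_iff_not_dvd hp).2 hm).pow_left a
  obtain ⟨k₀, h1, h2⟩ := Nat.chineseRemainder hcop (g : ZMod (p ^ a)).val 1
  refine ⟨k₀, ?_, h2, fun k hk hk1 => ?_⟩
  · refine Nat.Coprime.mul_right ?_ ?_
    · have := ZMod.val_coe_unit_coprime g
      unfold Nat.Coprime at this ⊢
      rw [h1.gcd_eq]; exact this
    · unfold Nat.Coprime
      rw [h2.gcd_eq]; simp
  · obtain ⟨j, hj⟩ := hg (ZMod.unitOfCoprime k (Nat.Coprime.coprime_mul_right_right hk))
    refine ⟨j, (Nat.modEq_and_modEq_iff_modEq_mul hcop).1 ⟨?_, ?_⟩⟩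
    · rw [← ZMod.natCast_eq_natCast_iff, Nat.cast_pow,
        (ZMod.natCast_eq_natCast_iff _ _ _).2 h1, ZMod.natCast_zmod_val]
      have := congrArg (Units.val) hj
      simpa using this.symm
    · exact hk1.trans (by simpa using (h2.pow j).symm)

/-- Let p be an odd prime, M a maximal ideal of the algebraic integers containing p, G a finite group of order n with p-part p^a, and B a p-block of G. Call an irreducible character χ p-rational when χ(g^k) = χ(g) for every g and every k coprime to n with k ≡ 1 modulo n/p^a (χ is fixed by the Galois automorphisms fixing the roots of unity of order prime to p). Then the number of p-rational irreducible characters in B is at least the p-regular rank of B (the number of irreducible Brauer characters in B). -/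
theorem result {G : Type*} [Group G] [Finite G] (p : ℕ) [Fact p.Prime] (hodd : p ≠ 2) (M : Ideal Cfsg.AlgInt) (hM : Cfsg.IsPModular p M) (B : Set (Cfsg.IrrCharacter G)) (hB : Cfsg.IsPBlock M B) : Cfsg.blockRank p B ≤ Nat.card {χ : Cfsg.IrrCharacter G // χ ∈ B ∧ ∀ k : ℕ, Nat.Coprime k (Nat.card G) → k ≡ 1 [MOD Nat.card G / p ^ (Nat.card G).factorization p] → ∀ g : G, (χ : G → ℂ) (g ^ k) = (χ : G → ℂ) g} := by
  have hp : p.Prime := Fact.out
  have hn : Nat.card G ≠ 0 := Nat.card_pos.ne'
  have hfac : p ^ (Nat.card G).factorization p * (Nat.card G / p ^ (Nat.card G).factorization p) =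
      Nat.card G := Nat.ordProj_mul_ordCompl_eq_self _ _
  obtain ⟨k₀, h1, h2, h3⟩ := exists_gen (a := (Nat.card G).factorization p) hp hodd
    (Nat.not_dvd_ordCompl hp hn)
  rw [hfac] at h1 h3
  have hreg : ∀ g : G, ¬ p ∣ orderOf g → g ^ k₀ = g := by
    intro g hg
    have hd : orderOf g ∣ Nat.card G / p ^ (Nat.card G).factorization p := by
      have h4 : orderOf g ∣ p ^ (Nat.card G).factorization p *
          (Nat.card G / p ^ (Nat.card G).factorization p) := by
        rw [hfac]; exact orderOf_dvd_natCard g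
      exact (((Nat.Prime.coprime_iff_not_dvd hp).2 hg).symm.pow_right _).dvd_of_dvd_mul_left h4
    have := (pow_eq_pow_iff_modEq (x := g)).2 (h2.of_dvd hd)
    simpa using this
  refine (hB.blockRank_le_card_pow_fixed hM h1 hreg).trans (le_of_eq ?_)
  refine Nat.card_congr (Equiv.subtypeEquivRight fun χ => and_congr_right fun _ => ⟨?_, ?_⟩)
  · intro h k hk hk1 g
    obtain ⟨j, hj⟩ := h3 k hk hk1
    rw [(pow_eq_pow_iff_modEq (x := g)).2 (hj.of_dvd (orderOf_dvd_natCard g))]
    clear hj
    induction j with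
    | zero => simp
    | succ j ih => rw [pow_succ, pow_mul, h, ih]
  · intro h g
    exact h k₀ h1 h2 g

end Cfsg.Agent.S4712
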