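import Cfsg.Statements.S4714
import Cfsg.Agent.Blk.PairReg

set_option autoImplicit false
open Cfsg

namespace Cfsg.Agent.S4714

/-- Let p be a prime, M a maximal ideal of the algebraic integers containing p, D a p-subgroup of the finite group G with G = D·C_G(D), and B a p-block with defect group D. Let χ be a member of B having D in its kernel (there is exactly one, the canonical character of B). Then the irreducible characters in B are exactly the functions θ on G for which there is an irreducible character ζ of D such that θ(yx) = ζ(y)χ(x) whenever y ∈ D, x has order prime to p and x commutes with y, and θ(z) = 0 whenever the p-part of z does not lie in D. -/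
theorem result {G : Type*} [Group G] [Finite G] (p : ℕ) [Fact p.Prime] (M : Ideal Cfsg.AlgInt) (hM : Cfsg.IsPModular p M) (D : Subgroup G) (hD : IsPGroup p D) (hG : D ⊔ Subgroup.centralizer (D : Set G) = ⊤) (B : Set (Cfsg.IrrCharacter G)) (hB : Cfsg.IsPBlock M B) (hBD : Cfsg.IsDefectGroup p M B D) (χ : Cfsg.IrrCharacter G) (hχ : χ ∈ B) (hχD : ∀ y ∈ D, (χ : G → ℂ) y = (χ : G → ℂ) 1) : (∀ θ : Cfsg.IrrCharacter G, θ ∈ B ↔ ∃ ζ : Cfsg.IrrCharacter D, (∀ (y : D) (x : G), ¬ p ∣ orderOf x → Commute (y : G) x → (θ : G → ℂ) ((y : G) * x) = (ζ : D → ℂ) y * (χ : G → ℂ) x) ∧ (∀ z : G, (∀ y : G, Cfsg.IsPPart p z y → y ∉ D) → (θ : G → ℂ) z = 0)) ∧ ∀ ζ : Cfsg.IrrCharacter D, ∃ θ ∈ B, (∀ (y : D) (x : G), ¬ p ∣ orderOf x → Commute (y : G) x → (θ : G → ℂ) ((y : G) * x) = (ζ : D → ℂ) y * (χ : G → ℂ) x) ∧ (∀ z : G, (∀ y : G, Cfsg.IsPPart p z y → y ∉ D) → (θ : G → ℂ) z = 0) := by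
  classical
  haveI : Fintype G := Fintype.ofFinite _
  have hdec : ∀ g : G, ∃ d ∈ D, ∃ c ∈ Subgroup.centralizer (D : Set G), g = d * c := by
    intro g
    have hg : g ∈ D ⊔ Subgroup.centralizer (D : Set G) := hG ▸ Subgroup.mem_top g
    rw [← SetLike.mem_coe, Subgroup.coe_mul_of_left_le_normalizer_right _ _
      (Subgroup.le_normalizer.trans (normalizer_le_normalizer_centralizer D))] at hg
    obtain ⟨d, hd, c, hc, h⟩ := hg
    exact ⟨d, hd, c, hc, h.symm⟩
  have hconj : ∀ x : G, ∀ u ∈ D, ∃ d ∈ D, x * u * x⁻¹ = d * u * d⁻¹ := by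
    intro x u hu
    obtain ⟨d, hd, c, hc, rfl⟩ := hdec x
    refine ⟨d, hd, ?_⟩
    have := hc u hu
    calc d * c * u * (d * c)⁻¹ = d * (c * u) * c⁻¹ * d⁻¹ := by group
      _ = d * u * d⁻¹ := by rw [← this]; group
  haveI hDn : D.Normal := ⟨fun u hu x => by
    obtain ⟨d, hd, h⟩ := hconj x u hu
    rw [h]
    exact D.mul_mem (D.mul_mem hd hu) (D.inv_mem hd)⟩
  have hnil : IsNilpotentBlock p M B := hBD.isNilpotentBlock_of_regular hM hB fun x hx =>
    mem_centralizer_of_isPRegular_of_mem_sup hD (hG ▸ Subgroup.mem_top x) hx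
  obtain ⟨e, S⟩ := hBD.exists_starSetup hM hB
  have hk : D ≤ charKer χ.1 := χ.le_charKer_iff.2 hχD
  have h0 : blockHeight p B χ.1 = 0 := by
    have h1 := factorization_charDegree_eq (p := p) hχ
    have h2 : (charDegree χ.1).factorization p ≤ D.index.factorization p :=
      (Nat.factorization_le_iff_dvd χ.charDegree_pos.ne' Subgroup.index_ne_zero_of_finite).2
        (χ.charDegree_dvd_index_of_le (hk.trans (charKer_le_charCenter _))) p
    rw [← D.card_mul_index, Nat.factorization_mul Nat.card_pos.ne'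
      Subgroup.index_ne_zero_of_finite, hBD.card_eq hM hB, Finsupp.add_apply,
      Nat.factorization_pow_self hM.prime] at h1
    omega
  obtain ⟨Φ, hΦ⟩ := S.exists_equiv_irr (S.isConj_of_nilpotent hnil) hχ h0
  have hval : ∀ ζ : IrrCharacter D,
      (∀ (y : D) (x : G), ¬ p ∣ orderOf x → Commute (y : G) x →
        (Φ ζ).1.1 ((y : G) * x) = ζ.1 y * χ.1 x) ∧
      (∀ z : G, (∀ y : G, IsPPart p z y → y ∉ D) → (Φ ζ).1.1 z = 0) := by
    intro ζ
    rw [(hΦ ζ).1]
    constructor
    · intro y x hx hc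
      have h1 := pPart_mul_of_commute hc (exists_orderOf_eq_pow_of_mem hD y.2) hx
      rw [← apply_mul_of_mem_charKer (hk y.2) x]
      conv_rhs => rw [← S.bstar_one_irr hχ]
      rw [bstar, bstar, starOp_apply, starOp_apply, h1, Finset.mul_sum]
      refine Finset.sum_congr rfl fun f _ => ?_
      rw [← mul_assoc]
      congr 1
      unfold etaExt
      split_ifs with h
      · obtain ⟨d, hd, h2⟩ := hconj (Classical.choose h) y y.2
        rw [Pi.one_apply, mul_one, ← ζ.isCharacter.isClassFunction y ⟨d, hd⟩]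
        exact congrArg ζ.1 (Subtype.ext h2)
      · rw [mul_zero]
    · intro z hz
      rw [bstar, starOp_apply]
      refine Finset.sum_eq_zero fun f _ => ?_
      rw [etaExt_of_not, zero_mul]
      intro x hx
      have h1 := (Subgroup.zpowers_le).1 hx.le
      have h2 := hDn.conj_mem _ h1 x⁻¹
      refine hz _ (isPPart_pPart z) ?_
      convert h2 using 1
      group
  refine ⟨fun θ => ⟨fun hθ => ?_, ?_⟩, fun ζ => ⟨(Φ ζ).1, (Φ ζ).2, hval ζ⟩⟩
  · obtain ⟨ζ, hζ⟩ := Φ.surjective ⟨θ, hθ⟩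
    have := hval ζ
    rw [hζ] at this
    exact ⟨ζ, this⟩
  · rintro ⟨ζ, h1, h2⟩
    have : θ = (Φ ζ).1 := by
      refine Subtype.ext (funext fun g => ?_)
      by_cases hg : pPart p g ∈ D
      · have h3 := h1 ⟨_, hg⟩ _ (not_dvd_orderOf_pRegPart g) (commute_pPart_pRegPart p g)
        have h4 := (hval ζ).1 ⟨_, hg⟩ _ (not_dvd_orderOf_pRegPart g) (commute_pPart_pRegPart p g)
        simp only [pPart_mul_pRegPart] at h3 h4
        rw [h3, h4]
      · have h3 : ∀ y : G, IsPPart p g y → y ∉ D := fun y hy => by rwa [hy.eq_pPart]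
        rw [h2 g h3, (hval ζ).2 g h3]
    rw [this]
    exact (Φ ζ).2

end Cfsg.Agent.S4714
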