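import Cfsg.Statements.S4717
import Cfsg.Agent.Blk.PairMisc

set_option autoImplicit false
open Cfsg

namespace Cfsg.Agent.S4717

/-- Let p be a prime, M a maximal ideal of the algebraic integers containing p, and r a natural number; say that a finite group X has deficiency class r when X has no non-principal p-block of defect ≥ r. If G has deficiency class r then so does the centralizer of every p-element of G; conversely, if r > 0 and the centralizer of every element of order p has deficiency class r, then G has deficiency class r. -/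
theorem result {G : Type*} [Group G] [Finite G] (p : ℕ) [Fact p.Prime] (M : Ideal Cfsg.AlgInt) (hM : Cfsg.IsPModular p M) (r : ℕ) : ((∀ B' : Set (Cfsg.IrrCharacter G), Cfsg.IsPBlock M B' → B' ≠ Cfsg.principalBlock M G → Cfsg.blockDefect p B' < r) → ∀ y : G, (∃ k : ℕ, orderOf y = p ^ k) → (∀ B' : Set (Cfsg.IrrCharacter ↥(Subgroup.centralizer ({y} : Set G))), Cfsg.IsPBlock M B' → B' ≠ Cfsg.principalBlock M ↥(Subgroup.centralizer ({y} : Set G)) → Cfsg.blockDefect p B' < r)) ∧ (0 < r → (∀ y : G, orderOf y = p → (∀ B' : Set (Cfsg.IrrCharacter ↥(Subgroup.centralizer ({y} : Set G))), Cfsg.IsPBlock M B' → B' ≠ Cfsg.principalBlock M ↥(Subgroup.centralizer ({y} : Set G)) → Cfsg.blockDefect p B' < r)) → (∀ B' : Set (Cfsg.IrrCharacter G), Cfsg.IsPBlock M B' → B' ≠ Cfsg.principalBlock M G → Cfsg.blockDefect p B' < r)) := by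
  haveI := hM.charP
  constructor
  · intro h y hy b hb hne
    have hQ : IsPGroup p (Subgroup.zpowers y) := isPGroup_zpowers_iff.2 hy
    have h1 : Subgroup.zpowers y ≤ Subgroup.centralizer ({y} : Set G) :=
      Subgroup.zpowers_le.2 (Subgroup.mem_centralizer_singleton_iff.2 rfl)
    have h2 := (centralizer_zpowers y).le
    have h3 : Subgroup.centralizer ({y} : Set G) ≤
        Subgroup.normalizer ((Subgroup.zpowers y : Subgroup G) : Set G) :=
      (centralizer_zpowers y).ge.trans (centralizer_le_normalizer' _)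
    obtain ⟨B, hB⟩ := hb.inducedBlockDefined_of_normal hM hQ h1 h2 h3
    exact (hB.blockDefect_le hM).trans_lt (h B hB.2.1 fun h0 =>
      hne ((hB.eq_principalBlock_iff_of_normal hM hQ h1 h2 h3).1 h0))
  · intro hr h B hB hne
    have hc := hB.isBlk_top hM
    obtain ⟨P, e, hm⟩ := hc.exists_isMaxPair p le_rfl top_le_normalizer_top
    have hD := hm.isDefGrp le_rfl top_le_normalizer_top hc
    by_cases hP : P = ⊥
    · have := hD.card_eq_blockDefect hM hB
      rw [hP, Subgroup.card_bot] at this
      rw [(Nat.pow_eq_one.1 this.symm).resolve_left hM.prime.ne_one]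
      exact hr
    obtain ⟨y, hy, hyp⟩ := exists_orderOf_eq_prime_of_dvd_card (dvd_card_of_isPGroup_of_ne_bot
      (hD.pgrp.to_inf_left (K := Subgroup.centralizer (P : Set G)))
      (inf_centralizer_ne_bot_of_isPGroup hD.pgrp hD.pgrp Subgroup.le_normalizer hP))
    obtain ⟨f, hf⟩ := exists_pairLE hm.pairOf.pair (Subgroup.zpowers_le.2 hy.1)
    have hp := hf.isPair_left hm.pairOf.pair
    have hC : cenIn ⊤ (Subgroup.zpowers y) = Subgroup.centralizer ({y} : Set G) := by
      rw [cenIn_top, centralizer_zpowers]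
    have h1 := hm.isDefGrp_of_le le_rfl top_le_normalizer_top hc hf le_rfl (cenIn_le_norIn le_rfl _)
      hp.fixed_cenIn (by rw [hC]; exact fun z hz => Subgroup.mem_centralizer_singleton_iff.2 (hy.2 z hz))
    have h2 := hp.blk
    rw [hC] at h1 h2
    obtain ⟨b, hb, rfl⟩ := h2.exists_eq_subIdem hM
    have h3 := h y hyp b hb fun h0 => hne (by
      rw [← hB.augGA_idemK_eq_one_iff hM,
        ← hm.pairOf.augGA_iff le_rfl top_le_normalizer_top hc, ← hf.augGA_iff hm.pairOf.pair,
        hb.augGA_subIdem_eq_one_iff hM, h0])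
    have h4 := (h1.card_eq_blockDefect_sub hM hb).symm.trans (hD.card_eq_blockDefect hM hB)
    rwa [← Nat.pow_right_injective hM.prime.two_le h4]

end Cfsg.Agent.S4717
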