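import Cfsg.Statements.S4719
import Cfsg.Agent.Grp.Landau
import Cfsg.Agent.Blk.Contrib
import Cfsg.Agent.Blk.Induced
import Cfsg.Agent.S4718


set_option autoImplicit false
universe u
open Cfsg

namespace Cfsg.Agent.S4719


/-- For every natural number a there is a bound N with the following property. Let G be a finite group with Sylow 2-subgroups of order 2^a and r ≥ 0 such that G has no non-principal 2-block (relative to a maximal ideal of the algebraic integers containing 2) of defect ≥ r, and suppose a Sylow 2-subgroup of G contains an elementary abelian subgroup of order 2^(r+1). Then the order of G is at most N. -/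
theorem result (a : ℕ) : ∃ N : ℕ, ∀ (G : Type u) [Group G] [Finite G] (M : Ideal Cfsg.AlgInt) (r : ℕ) (P : Sylow 2 G), Cfsg.IsPModular 2 M → Nat.card P = 2 ^ a → (∀ B : Set (Cfsg.IrrCharacter G), Cfsg.IsPBlock M B → B ≠ Cfsg.principalBlock M G → Cfsg.blockDefect 2 B < r) → (∃ E : Subgroup G, E ≤ (P : Subgroup G) ∧ IsMulCommutative E ∧ (∀ x ∈ E, x * x = 1) ∧ Nat.card E = 2 ^ (r + 1)) → Nat.card G ≤ N := by
  haveI := Fact.mk Nat.prime_two
  choose f hf using Cfsg.Agent.S4718.result.{u} 2
  choose g hg using Cfsg.exists_card_le_of_normalizer_le.{u}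
  refine ⟨(Finset.range (a + 1)).sup fun r => g r ((Finset.range (a + 1)).sup f),
    fun G _ _ M r P hM hP hB ⟨E, hEP, hE, hE2, hE3⟩ => ?_⟩
  have ha : (Nat.card G).factorization 2 = a := by
    rw [P.card_eq_multiplicity] at hP
    exact Nat.pow_right_injective le_rfl hP
  have hr : r ∈ Finset.range (a + 1) := by
    have := Subgroup.card_le_of_le hEP
    rw [hE3, hP, Nat.pow_le_pow_iff_right one_lt_two] at this
    exact Finset.mem_range.2 (by omega)
  refine le_trans (hg r _ G E hE hE2 hE3.ge fun Q hQ => ?_)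
    (Finset.le_sup (f := fun r => g r ((Finset.range (a + 1)).sup f)) hr)
  have hQp : IsPGroup 2 Q := IsPGroup.of_card hQ
  set K := Subgroup.normalizer (Q : Set G) with hK
  have hQK : Q ≤ K := Subgroup.le_normalizer
  have hCK : Subgroup.centralizer (Q : Set G) ≤ K := Subgroup.centralizer_le_normalizer _
  have hb : (Nat.card K).factorization 2 ∈ Finset.range (a + 1) := by
    rw [Finset.mem_range, Nat.lt_succ_iff, ← ha]
    exact (Nat.factorization_le_iff_dvd Nat.card_pos.ne' Nat.card_pos.ne').2
      (Subgroup.card_subgroup_dvd_card K) 2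
  refine le_trans (hf _ K M hM rfl fun b hb => ?_) (Finset.le_sup (f := f) hb)
  obtain ⟨B, hbB⟩ := hb.inducedBlockDefined_of_normal hM hQp hQK hCK le_rfl
  rw [← hbB.eq_principalBlock_iff_of_normal hM hQp hQK hCK le_rfl]
  by_contra h
  have h1 := hB B hbB.2.1 h
  obtain ⟨D, hD⟩ := hb.exists_isDefectGroup hM
  haveI : (Q.subgroupOf K).Normal := Subgroup.normal_in_normalizer
  have h2 := Subgroup.card_le_of_le (hD.le_of_normal hM hb (Cfsg.isPGroup_subgroupOf hQp K))
  rw [Cfsg.card_subgroupOf_of_le hQK, hQ, hD.card_eq hM hb,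
    Nat.pow_le_pow_iff_right one_lt_two] at h2
  have h3 := hbB.blockDefect_le hM
  omega

end Cfsg.Agent.S4719
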