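import Cfsg.Statements.S4720
import Cfsg.Agent.Blk.Principal

set_option autoImplicit false
open Cfsg

namespace Cfsg.Agent.S4720

open scoped ComplexConjugate

theorem card_fiber {G : Type*} [Group G] [Finite G] (N : Subgroup G) (y : G) {n : G} (hn : n ∈ N) :
    Nat.card {x : N // (x : G) * y * (x : G)⁻¹ = n * y * n⁻¹} =
      Nat.card ↥(N ⊓ Subgroup.centralizer ({y} : Set G)) := by
  refine Nat.card_congr
    { toFun := fun x => ⟨n⁻¹ * x.1, N.mul_mem (N.inv_mem hn) x.1.2, ?_⟩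
      invFun := fun c => ⟨⟨n * c, mul_mem hn c.2.1⟩, ?_⟩
      left_inv := fun x => by ext; simp
      right_inv := fun c => by ext; simp }
  · have := x.2
    change _ ∈ Subgroup.centralizer _
    rw [Subgroup.mem_centralizer_singleton_iff]
    calc n⁻¹ * x.1 * y = n⁻¹ * (x.1 * y * (x.1 : G)⁻¹) * x.1 := by group
      _ = y * (n⁻¹ * x.1) := by rw [this]; group
  · have h : (c : G) * y = y * c := Subgroup.mem_centralizer_singleton_iff.1 c.2.2
    change n * c * y * (n * c)⁻¹ = _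
    rw [mul_assoc n, h]; group

/-- Let p be a prime, M a maximal ideal of the algebraic integers containing p, P a p-subgroup of the finite group G, N a subgroup with P ≤ N ≤ N_G(P), and U a nonempty subset of P normalized by N such that an element of U and an element of P that are conjugate in G are already conjugate in N, and such that λ(C_G(y)) = w·#C_N(y) for every y ∈ U with one rational number w, where λ(X) denotes the sum of the squares of the degrees of the irreducible characters in the principal p-block of X. For a complex function θ on P and χ in the principal block of G put a_χ(θ) = #P⁻¹ Σ_{y ∈ P} χ(y) θ(y⁻¹). Then for generalized characters θ, η of P with θ vanishing outside U, Σ_χ a_χ(θ)·conj(a_χ(η)) = (w/#P²)·Σ_{y ∈ P} θ(y)·conj(Σ_{x ∈ N} η(x y x⁻¹)) (η extended by zero off P; the conjugates lie in P), the first sum over the principal p-block of G. -/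
theorem result {G : Type*} [Group G] [Finite G] (p : ℕ) [Fact p.Prime] (M : Ideal Cfsg.AlgInt) (hM : Cfsg.IsPModular p M) (P : Subgroup G) (hP : IsPGroup p P) (N : Subgroup G) (hPN : P ≤ N) (hNN : N ≤ Subgroup.normalizer (P : Set G)) (U : Set G) (hUne : U.Nonempty) (hUP : U ⊆ (P : Set G)) (hUN : ∀ n ∈ N, ∀ u ∈ U, n * u * n⁻¹ ∈ U) (hfus : ∀ u ∈ U, ∀ g : G, g * u * g⁻¹ ∈ (P : Set G) → ∃ n ∈ N, n * u * n⁻¹ = g * u * g⁻¹) (w : ℚ) (hw : ∀ y ∈ U, ((∑ᶠ ψ ∈ Cfsg.principalBlock M ↥(Subgroup.centralizer ({y} : Set G)), Cfsg.charDegree (ψ : ↥(Subgroup.centralizer ({y} : Set G)) → ℂ) ^ 2) : ℚ) = w * Nat.card ↥(N ⊓ Subgroup.centralizer ({y} : Set G))) (θ η : ↥P → ℂ) (hθ : Cfsg.IsGeneralizedCharacter ↥P θ) (hη : Cfsg.IsGeneralizedCharacter ↥P η) (hθU : ∀ y : ↥P, (y : G) ∉ U → θ y = 0) : ∑ᶠ χ ∈ Cfsg.principalBlock M G, ((Nat.card ↥P : ℂ)⁻¹ * ∑ᶠ y : ↥P, (χ : G → ℂ) (y : G) * θ y⁻¹) * (starRingEnd ℂ) ((Nat.card ↥P : ℂ)⁻¹ * ∑ᶠ y : ↥P, (χ : G → ℂ) (y : G) * η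 y⁻¹) = ((w : ℂ) / ((Nat.card ↥P : ℂ) ^ 2)) * ∑ᶠ y : ↥P, θ y * (starRingEnd ℂ) (∑ᶠ x : ↥N, Cfsg.extendByZero P η ((x : G) * (y : G) * (x : G)⁻¹)) := by
  classical
  have := Fintype.ofFinite G
  have hpe : ∀ y : P, ∃ k : ℕ, orderOf (y : G) = p ^ k := fun y => by
    rw [Subgroup.orderOf_coe]; exact IsPGroup.iff_orderOf.1 hP y
  have key : ∀ y z : P, (y : G) ∈ U →
      ∑ χ ∈ irrFinset (principalBlock M G), χ.1 z * conj (χ.1 y) =
        w * ∑ x : N, if (x : G) * y * (x : G)⁻¹ = z then (1 : ℂ) else 0 := by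
    intro y z hy
    by_cases hc : IsConj (y : G) z
    · obtain ⟨g, hg⟩ := isConj_iff.1 hc
      obtain ⟨n, hn, e⟩ := hfus y hy g (hg ▸ z.2)
      have h1 := hM.sum_principalBlock_mul_conj_pElement (hpe y) rfl
      have h2 := congrArg (Rat.cast : ℚ → ℂ) (hw y hy)
      rw [finsum_mem_irr] at h2
      push_cast at h1 h2
      rw [Finset.sum_boole, ← hg, ← e, ← Fintype.card_subtype, ← Nat.card_eq_fintype_card,
        card_fiber N y hn, ← h2, ← h1]
      exact Finset.sum_congr rfl fun χ _ => by rw [χ.isClassFunction]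
    · rw [isPBlock_principalBlock.sum_mul_conj_eq_zero hM (by
        rw [pPart_eq_self_iff.2 (hpe y), pPart_eq_self_iff.2 (hpe z)]
        exact fun h => hc h.symm), Finset.sum_eq_zero, mul_zero]
      exact fun x _ => if_neg fun h => hc (isConj_iff.2 ⟨x, h⟩)
  have hext : ∀ (y : P) (x : N), extendByZero P η ((x : G) * y * (x : G)⁻¹) =
      ∑ z : P, (if (x : G) * y * (x : G)⁻¹ = z then (1 : ℂ) else 0) * η z := by
    intro y x
    have hm : (x : G) * y * (x : G)⁻¹ ∈ P := ((Subgroup.mem_normalizer_iff.1 (hNN x.2)) y).1 y.2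
    rw [extendByZero_of_mem P η hm, Finset.sum_eq_single ⟨_, hm⟩, if_pos rfl, one_mul]
    · exact fun z _ hz => by rw [if_neg fun h => hz (Subtype.ext h.symm), zero_mul]
    · exact fun h => absurd (Finset.mem_univ _) h
  have hinv : ∀ (χ : IrrCharacter G) (f : P → ℂ), ∑ y : P, χ.1 y * f y⁻¹ =
      ∑ y : P, conj (χ.1 y) * f y := fun χ f => by
    rw [← Equiv.sum_comp (Equiv.inv P)]
    simp only [Equiv.inv_apply, inv_inv, Subgroup.coe_inv, IrrCharacter.apply_inv]
  rw [finsum_mem_irr]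
  simp only [finsum_eq_sum_of_fintype]
  simp only [hinv, hext, map_mul, map_sum, map_inv₀, map_natCast, Complex.conj_conj]
  have h3 : ∀ χ : IrrCharacter G, ((Nat.card P : ℂ)⁻¹ * ∑ y : P, conj (χ.1 y) * θ y) *
      ((Nat.card P : ℂ)⁻¹ * ∑ z : P, χ.1 z * conj (η z)) =
      ((Nat.card P : ℂ) ^ 2)⁻¹ * ∑ y : P, ∑ z : P, θ y * conj (η z) * (χ.1 z * conj (χ.1 y)) := by
    intro χ
    rw [mul_mul_mul_comm, Finset.sum_mul_sum, sq, mul_inv]
    congr 1
    exact Finset.sum_congr rfl fun y _ => Finset.sum_congr rfl fun z _ => by ring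
  simp only [h3]
  rw [← Finset.mul_sum, Finset.sum_comm, div_eq_mul_inv, mul_comm (w : ℂ), mul_assoc]
  congr 1
  rw [Finset.mul_sum]
  refine Finset.sum_congr rfl fun y _ => ?_
  by_cases hy : (y : G) ∈ U
  · rw [Finset.sum_comm, Finset.sum_comm (s := (Finset.univ : Finset N)), Finset.mul_sum,
      Finset.mul_sum]
    refine Finset.sum_congr rfl fun z _ => ?_
    rw [← Finset.mul_sum, key y z hy, ← Finset.sum_mul]
    simp only [apply_ite conj, map_one, map_zero]
    ring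
  · simp [hθU y hy]

end Cfsg.Agent.S4720
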