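import Cfsg.Statements.S4722
import Cfsg.Agent.Blk.RankQuot
import Cfsg.Agent.Blk.Invol

set_option autoImplicit false
open Cfsg

namespace Cfsg.Agent.S4722

/-- Let M be a maximal ideal of the algebraic integers containing 2, P a 2-subgroup of the finite group G, U a subset of P, and t an involution of G such that no element of U is inverted by any conjugate of t. Let θ be a generalized character of P vanishing outside U, and for χ in the principal 2-block B₀ put a_χ = #P⁻¹ Σ_{y ∈ P} χ(y) θ(y⁻¹). Then Σ_{χ ∈ B₀} a_χ χ(t)^2/χ(1) = 0, Σ_{χ ∈ B₀} a_χ χ(1) = 0 and Σ_{χ ∈ B₀} a_χ χ(t) = 0. If moreover #P⁻¹ Σ_{y ∈ P} θ(y) ≠ 0, then either at least two of the a_χ have positive real part and at least two have negative real part, or G has a proper normal subgroup containing O_2'(G) and t. -/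
theorem result {G : Type*} [Group G] [Finite G] (M : Ideal Cfsg.AlgInt) (hM : Cfsg.IsPModular 2 M) (P : Subgroup G) (hP : IsPGroup 2 P) (U : Set G) (hUP : U ⊆ (P : Set G)) (t : G) (ht : orderOf t = 2) (hinv : ∀ u ∈ U, ∀ g : G, (g * t * g⁻¹) * u * (g * t * g⁻¹)⁻¹ ≠ u⁻¹) (θ : ↥P → ℂ) (hθ : Cfsg.IsGeneralizedCharacter ↥P θ) (hθU : ∀ y : ↥P, (y : G) ∉ U → θ y = 0) : (∑ᶠ χ ∈ Cfsg.principalBlock M G, ((Nat.card ↥P : ℂ)⁻¹ * ∑ᶠ y : ↥P, (χ : G → ℂ) (y : G) * θ y⁻¹) * (χ : G → ℂ) t ^ 2 / (χ : G → ℂ) 1 = 0) ∧ (∑ᶠ χ ∈ Cfsg.principalBlock M G, ((Nat.card ↥P : ℂ)⁻¹ * ∑ᶠ y : ↥P, (χ : G → ℂ) (y : G) * θ y⁻¹) * (χ : G → ℂ) 1 = 0) ∧ (∑ᶠ χ ∈ Cfsg.principalBlock M G, ((Nat.card ↥P : ℂ)⁻¹ * ∑ᶠ y : ↥P, (χ : G → ℂ) (y : G) * θ y⁻¹) * (χ : G → ℂ) t = 0) ∧ ((Nat.card ↥P : ℂ)⁻¹ * ∑ᶠ y : ↥P, θ y ≠ 0 → (2 ≤ Nat.card {χ : Cfsg.IrrCharacter G // χ ∈ Cfsg.principalBlock M G ∧ 0 < (((Nat.card ↥P : ℂ)⁻¹ * ∑ᶠ y : ↥P, (χ : G → ℂ)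 (y : G) * θ y⁻¹)).re} ∧ 2 ≤ Nat.card {χ : Cfsg.IrrCharacter G // χ ∈ Cfsg.principalBlock M G ∧ (((Nat.card ↥P : ℂ)⁻¹ * ∑ᶠ y : ↥P, (χ : G → ℂ) (y : G) * θ y⁻¹)).re < 0}) ∨ ∃ K : Subgroup G, K.Normal ∧ K ≠ ⊤ ∧ Cfsg.pPrimeCore 2 G ≤ K ∧ t ∈ K) := by
  classical
  have : Fact (Nat.Prime 2) := ⟨Nat.prime_two⟩
  have := Fintype.ofFinite P
  have hB := (isPBlock_principalBlock (M := M) (G := G)).isBlockUnion hM
  have ht2 : t * t = 1 := by rw [← sq, ← ht, pow_orderOf_eq_one]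
  have hyP : ∀ y : P, ∃ k : ℕ, orderOf (y : G) = 2 ^ k := fun y => by
    simpa using IsPGroup.iff_orderOf.1 hP y
  have hinv' : ∀ y : P, θ y⁻¹ ≠ 0 →
      ∀ g : G, g * t * g⁻¹ * (y : G) * (g * t * g⁻¹)⁻¹ ≠ (y : G)⁻¹ := fun y hy g h => by
    refine hinv (y⁻¹ : P) (by_contra fun h0 => hy (hθU _ h0)) g ?_
    rw [Subgroup.coe_inv, ← conj_inv, h]
  have key : ∀ c : IrrCharacter G → ℂ, (∀ y : P, θ y⁻¹ ≠ 0 →
      ∑ χ ∈ irrFinset (principalBlock M G), c χ * χ.1 y = 0) →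
      ∑ χ ∈ irrFinset (principalBlock M G),
        ((Nat.card P : ℂ)⁻¹ * ∑ᶠ y : P, χ.1 (y : G) * θ y⁻¹) * c χ = 0 := fun c hc => by
    simp only [finsum_eq_sum_of_fintype, Finset.mul_sum, Finset.sum_mul]
    rw [Finset.sum_comm]
    refine Finset.sum_eq_zero fun y _ => ?_
    by_cases hy : θ y⁻¹ = 0
    · simp [hy]
    · rw [← mul_zero ((Nat.card P : ℂ)⁻¹ * θ y⁻¹), ← hc y hy, Finset.mul_sum]
      exact Finset.sum_congr rfl fun χ _ => by ring
  have h1 := key (fun χ => χ.1 t * χ.1 t / χ.1 1) fun y hy =>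
    hB.sum_involution_eq_zero hM ht2 ht2 (by rw [pPart_eq_self_iff.2 (hyP y)]; exact hinv' y hy)
  have h2 := key (fun χ => χ.1 1) fun y hy => hB.sum_one_mul_eq_zero hM (by
    obtain ⟨k, hk⟩ := hyP y
    rw [hk]
    refine dvd_pow_self 2 fun h0 => hinv' y hy 1 ?_
    rw [h0, pow_zero, orderOf_eq_one_iff] at hk
    rw [hk]; group)
  have h3 := key (fun χ => χ.1 t) fun y hy => by
    rw [← hB.sum_mul_conj_eq_zero hM (g := y) (h := t) (by
      rw [pPart_eq_self_iff.2 (hyP y), pPart_eq_self_iff.2 ⟨1, by rw [ht, pow_one]⟩]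
      intro h
      obtain ⟨c, hc⟩ := isConj_iff.1 h.symm
      refine hinv' y hy c ?_
      rw [hc, mul_inv_cancel_right, eq_inv_iff_mul_eq_one, ← hc]
      exact conj_mul_self_eq_one ht2 c)]
    exact Finset.sum_congr rfl fun χ _ => by rw [χ.conj_apply_of_mul_self ht2, mul_comm]
  simp only [finsum_mem_irr]
  refine ⟨by rw [← h1]; exact Finset.sum_congr rfl fun χ _ => by ring, h2, h3, fun h0 => ?_⟩
  have ha : ∀ χ : IrrCharacter G, ∃ n : ℤ,
      (Nat.card P : ℂ)⁻¹ * ∑ᶠ y : P, χ.1 (y : G) * θ y⁻¹ = n := fun χ => by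
    obtain ⟨n, hn⟩ := (χ.isCharacter.res P).isGeneralizedCharacter.exists_classInner_eq_int hθ
    refine ⟨n, ?_⟩
    rw [← hn, classInner_def, finsum_eq_sum_of_fintype]
    simp only [hθ.apply_inv]
  choose a ha using ha
  choose x hx using fun χ : IrrCharacter G => χ.exists_int_apply_of_mul_self ht2
  have ha1 : a (IrrCharacter.triv G) ≠ 0 := fun h => h0 (by
    have := ha (IrrCharacter.triv G)
    rw [h, Int.cast_zero, finsum_eq_sum_of_fintype] at this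
    rw [← this, finsum_eq_sum_of_fintype, ← Equiv.sum_comp (Equiv.inv P)]
    simp)
  simp only [ha, fun χ => (hx χ).1, IrrCharacter.one_eq_charDegree, Complex.intCast_re] at h1 h2 h3 ⊢
  have h1' : ∑ χ ∈ irrFinset (principalBlock M G),
      (a χ : ℝ) * (x χ : ℝ) ^ 2 / (charDegree χ.1 : ℝ) = 0 := by
    apply Complex.ofReal_injective
    rw [Complex.ofReal_zero, ← h1]; push_cast
    exact Finset.sum_congr rfl fun χ _ => by ring
  have h2' : ∑ χ ∈ irrFinset (principalBlock M G), (a χ : ℝ) * (charDegree χ.1 : ℝ) = 0 := by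
    exact_mod_cast h2
  have h3' : ∑ χ ∈ irrFinset (principalBlock M G), (a χ : ℝ) * (x χ : ℝ) = 0 := by
    exact_mod_cast h3
  have hd : ∀ χ ∈ irrFinset (principalBlock M G), (0 : ℝ) < charDegree χ.1 := fun χ _ => by
    exact_mod_cast χ.charDegree_pos
  have htriv := mem_irrFinset.2 (hM.triv_mem_principalBlock (G := G))
  by_contra hcon
  rw [not_or, not_and_or] at hcon
  have hratio : ∃ c : ℝ, ∀ χ ∈ irrFinset (principalBlock M G), (a χ : ℝ) ≠ 0 →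
      (x χ : ℝ) = c * charDegree χ.1 := by
    rcases hcon.1 with h | h
    · refine exists_ratio_of_card_pos_le_one _ _ _ _ hd h1' h2' h3' fun i hi j hj hi0 hj0 => ?_
      rw [not_le, Nat.lt_succ_iff, Finite.card_le_one_iff_subsingleton] at h
      exact congrArg Subtype.val (h.elim ⟨i, mem_irrFinset.1 hi, hi0⟩ ⟨j, mem_irrFinset.1 hj, hj0⟩)
    · obtain ⟨c, hc⟩ := exists_ratio_of_card_pos_le_one _ (fun χ => -(a χ : ℝ)) (fun χ => x χ) _ hd
        (by simp only [neg_mul, neg_div, Finset.sum_neg_distrib, h1', neg_zero])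
        (by simp only [neg_mul, Finset.sum_neg_distrib, h2', neg_zero])
        (by simp only [neg_mul, Finset.sum_neg_distrib, h3', neg_zero])
        fun i hi j hj hi0 hj0 => by
          rw [not_le, Nat.lt_succ_iff, Finite.card_le_one_iff_subsingleton] at h
          exact congrArg Subtype.val (h.elim ⟨i, mem_irrFinset.1 hi, neg_pos.1 hi0⟩
            ⟨j, mem_irrFinset.1 hj, neg_pos.1 hj0⟩)
      exact ⟨c, fun χ hχ h0 => hc χ hχ (neg_ne_zero.2 h0)⟩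
  obtain ⟨c, hc⟩ := hratio
  have hc1 : c = 1 := by
    have h4 := hc _ htriv (by exact_mod_cast ha1)
    have h5 : x (IrrCharacter.triv G) = 1 := by
      have h6 := (hx (IrrCharacter.triv G)).1.symm
      rw [IrrCharacter.triv_apply] at h6
      exact_mod_cast h6
    rw [h5, IrrCharacter.charDegree_triv] at h4
    simpa using h4.symm
  obtain ⟨χ, hχ, hne, hχ0⟩ : ∃ χ ∈ irrFinset (principalBlock M G), χ ≠ IrrCharacter.triv G ∧
      (a χ : ℝ) ≠ 0 := by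
    by_contra h4
    push Not at h4
    rw [Finset.sum_eq_single_of_mem _ htriv fun χ hχ hne => by rw [h4 χ hχ hne, zero_mul]] at h2'
    exact mul_ne_zero (by exact_mod_cast ha1) (hd _ htriv).ne' h2'
  refine hcon.2 ⟨charKer χ.1, inferInstance, fun h => hne ((IrrCharacter.charKer_eq_top_iff _).1 h),
    hM.le_charKer_of_mem_principalBlock (not_dvd_card_pPrimeCore 2) (mem_irrFinset.1 hχ), ?_⟩
  have h4 := hc χ hχ hχ0
  rw [hc1, one_mul] at h4
  rw [χ.mem_charKer, (hx χ).1, χ.one_eq_charDegree]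
  exact_mod_cast h4

end Cfsg.Agent.S4722
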