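import Cfsg.Statements.S4724
import Cfsg.Agent.Blk.PrimeDegTI

set_option autoImplicit false
open Cfsg

namespace Cfsg.Agent.S4724

/-- Let G be a transitive permutation group of prime degree p having exactly one irreducible character of degree p. Let P be a Sylow p-subgroup and suppose N_G(P) = P·E for a subgroup E with P ∩ E = 1, such that the normalizer of E has order 2·#E and E meets each of its conjugates by elements outside its normalizer trivially. Then p is 5, 7 or 11 and G is isomorphic to PSL(2, p). -/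
theorem result {α : Type*} [Fintype α] [DecidableEq α] {p : ℕ} [Fact p.Prime] (hα : Fintype.card α = p) (G : Subgroup (Equiv.Perm α)) [MulAction.IsPretransitive G α] (huniq : ∃! χ : Cfsg.IrrCharacter G, Cfsg.charDegree (χ : G → ℂ) = p) (P : Sylow p G) (E : Subgroup G) (hPE : (P : Subgroup G) ⊔ E = Subgroup.normalizer ((P : Subgroup G) : Set G)) (hPE' : (P : Subgroup G) ⊓ E = ⊥) (hNE : Nat.card (Subgroup.normalizer (E : Set G)) = 2 * Nat.card E) (hTI : ∀ g : G, g ∉ Subgroup.normalizer (E : Set G) → E ⊓ E.map (MulAut.conj g).toMonoidHom = ⊥) : (p = 5 ∨ p = 7 ∨ p = 11) ∧ ∃ (F : Type) (_ : Field F) (_ : Fintype F), Fintype.card F = p ∧ Nonempty (G ≃* Matrix.ProjectiveSpecialLinearGroup (Fin 2) F) := by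
  classical
  have := Fintype.ofFinite G
  obtain ⟨χ, hχ, hu⟩ := huniq
  obtain ⟨h1, ⟨e⟩⟩ := ito_prime_degree (P := P) (α := α) (by rw [Nat.card_eq_fintype_card, hα]) hχ hu
    hPE hPE' hNE fun g y hy hy1 hg => by
      by_contra hn
      have : g * y * g⁻¹ ∈ E ⊓ E.map (MulAut.conj g).toMonoidHom := ⟨hg, y, hy, rfl⟩
      rw [hTI g hn, Subgroup.mem_bot] at this
      exact hy1 (by simpa using this)
  exact ⟨h1, ZMod p, inferInstance, inferInstance, ZMod.card p, ⟨e⟩⟩

end Cfsg.Agent.S4724
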