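import Cfsg.Statements.S4725
import Cfsg.Agent.Blk.Kappa
import Cfsg.Agent.Blk.CoverDeg

set_option autoImplicit false
open Cfsg

namespace Cfsg.Agent.S4725

/-- Let p be a prime, M a maximal ideal of the algebraic integers containing p, H a subgroup of the finite group G, and b a p-block of H inducing the p-block B of G, with b and B of the same defect. Then for every height-zero ζ ∈ b there is a height-zero χ ∈ B whose multiplicity in the character induced from ζ is not divisible by p. -/
theorem result {G : Type*} [Group G] [Fintype G] (p : ℕ) [Fact p.Prime] (M : Ideal Cfsg.AlgInt) (hM : Cfsg.IsPModular p M) (H : Subgroup G) (b : Set (Cfsg.IrrCharacter ↥H)) (B : Set (Cfsg.IrrCharacter G)) (hind : Cfsg.IsInducedBlock M H b B) (hdef : Cfsg.blockDefect p b = Cfsg.blockDefect p B) (ζ : Cfsg.IrrCharacter ↥H) (hζ : ζ ∈ b) (hζ0 : Cfsg.blockHeight p b (ζ : ↥H → ℂ) = 0) : ∃ χ ∈ B, Cfsg.blockHeight p B (χ : G → ℂ) = 0 ∧ ∃ a : ℕ, Cfsg.classInner (Cfsg.indFun H (ζ : ↥H → ℂ)) (χ : G → ℂ) = (a : ℂ)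 ∧ ¬ p ∣ a := by
  classical
  haveI : Fintype H := Fintype.ofFinite _
  have hp := hM.prime
  have hB : IsPBlock M B := hind.2.1
  choose m hm using fun χ : IrrCharacter G =>
    (χ.isCharacter.res H).exists_classInner_eq_nat ζ.isCharacter
  by_contra hcon
  push Not at hcon
  have hdvd : p ^ ((Nat.card G).factorization p - blockDefect p B + 1) ∣
      ∑ χ ∈ irrFinset B, m χ * charDegree χ.1 := by
    refine Finset.dvd_sum fun χ hχ => ?_
    have hχ' := mem_irrFinset.1 hχ
    rw [← pow_mul_redDeg (p := p) hχ']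
    by_cases h0 : blockHeight p B χ.1 = 0
    · have := hcon χ hχ' h0 (m χ)
        (by rw [ζ.isCharacter.classInner_indFun_eq_res χ.isCharacter]; exact hm χ)
      rw [pow_succ']
      exact mul_dvd_mul this (dvd_mul_right _ _)
    · rw [pow_succ]
      exact Dvd.dvd.mul_left (mul_dvd_mul_left _ ((dvd_redDeg_iff hχ').2 h0)) _
  have hsum := sum_classInner_res_mul_one H ζ B
  have hw : valM M (omega ζ.1 (gaTrunc ℂ H (idemC B))) = 1 := by
    rw [← red_ne_zero_iff, ← (hB.isBlockUnion hM).toC_idemO hM,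
      red_omega_gaTrunc_toC H ζ ((mem_center_iff_isFixedGA_top.1 (idemO_mem_center B)).mono le_top), toK_idemO,
      hind.lam_gaTrunc_idemK hM hζ]
    exact one_ne_zero
  have hL : ∑ χ ∈ irrFinset B, classInner (fun h : H => χ.1 h) ζ.1 * χ.1 1 =
      ((∑ χ ∈ irrFinset B, m χ * charDegree χ.1 : ℕ) : ℂ) := by
    push_cast
    exact Finset.sum_congr rfl fun χ _ => by rw [hm χ, χ.one_eq_charDegree]
  have hne : H.index * charDegree ζ.1 ≠ 0 :=
    mul_ne_zero Subgroup.index_ne_zero_of_finite ζ.charDegree_pos.ne'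
  have hv : valM M ((∑ χ ∈ irrFinset B, m χ * charDegree χ.1 : ℕ) : ℂ) =
      valM M ((H.index * charDegree ζ.1 : ℕ) : ℂ) := by
    rw [← hL, hsum, map_mul, hw, mul_one, ζ.one_eq_charDegree, Nat.cast_mul]
  have hle : valM M (((∑ χ ∈ irrFinset B, m χ * charDegree χ.1 : ℕ) : ℤ) : ℂ) ≤
      valM M (p : ℂ) ^ ((Nat.card G).factorization p - blockDefect p B + 1) :=
    hM.valM_intCast_le_pow_iff.2 (by exact_mod_cast hdvd)
  rw [Int.cast_natCast, hv, hM.valM_natCast hne, hM.valM_p_pow_le_iff,
    Nat.factorization_mul Subgroup.index_ne_zero_of_finite ζ.charDegree_pos.ne',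
    Finsupp.add_apply] at hle
  have h1 := factorization_charDegree_eq (p := p) hζ
  have h2 : (Nat.card G).factorization p = (Nat.card H).factorization p + H.index.factorization p := by
    rw [← H.card_mul_index, Nat.factorization_mul Nat.card_pos.ne' Subgroup.index_ne_zero_of_finite,
      Finsupp.add_apply]
  have h3 := blockDefect_le (p := p) (B := B)
  omega

end Cfsg.Agent.S4725
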