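import Cfsg.Statements.S4726
import Cfsg.Agent.Blk.PairMisc

set_option autoImplicit false
open Cfsg

namespace Cfsg.Agent.S4726

/-- Let p be a prime, M a maximal ideal of the algebraic integers containing p, H a subgroup of the finite group G and b a p-block of H with defect group D₀ such that C_G(D₀) ≤ H. Then b induces a block of G, and for every block B of G induced by b there is a defect group D of B with Z(D) ≤ Z(D₀) ≤ D₀ ≤ D (as subgroups of G). In particular, if the defect groups of B are abelian then D₀ is a defect group of B. -/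
theorem result {G : Type*} [Group G] [Finite G] (p : ℕ) [Fact p.Prime] (M : Ideal Cfsg.AlgInt) (hM : Cfsg.IsPModular p M) (H : Subgroup G) (b : Set (Cfsg.IrrCharacter ↥H)) (hb : Cfsg.IsPBlock M b) (D₀ : Subgroup ↥H) (hD₀ : Cfsg.IsDefectGroup p M b D₀) (hC : Subgroup.centralizer ((D₀.map H.subtype : Subgroup G) : Set G) ≤ H) : Cfsg.InducedBlockDefined M H b ∧ ∀ B : Set (Cfsg.IrrCharacter G), Cfsg.IsInducedBlock M H b B → (∃ D : Subgroup G, Cfsg.IsDefectGroup p M B D ∧ (Subgroup.center ↥D).map D.subtype ≤ ((Subgroup.center ↥D₀).map D₀.subtype).map H.subtype ∧ ((Subgroup.center ↥D₀).map D₀.subtype).map H.subtype ≤ D₀.map H.subtype ∧ D₀.map H.subtype ≤ D) ∧ (∀ D : Subgroup G, Cfsg.IsDefectGroup p M B D → IsMulCommutative ↥D → Cfsg.IsDefectGroup p M B (D₀.map H.subtype)) := by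
  haveI := hM.charP
  refine ⟨hb.inducedBlockDefined_of_isDefectGroup hM hD₀ hC, fun B hB => ?_⟩
  have he := hb.isBlk_subIdem hM
  have hc := hB.2.1.isBlk_top hM
  have hD := (hb.isDefectGroup_iff_map hM).1 hD₀
  obtain ⟨f, hm⟩ := hD.exists_isMaxPair le_rfl Subgroup.le_normalizer he.mem he.idem
  obtain ⟨P, g, hP, hle, hcen⟩ := (hB.indBlk hM).exists_isMaxPair le_top he hc hm
    (inf_le_right.trans hC)
  have hPD := hP.isDefGrp le_rfl top_le_normalizer_top hc
  refine ⟨⟨P, (hB.2.1.isDefectGroup_iff hM).2 hPD, ?_, ?_, hle.le⟩, fun D hD' hab => ?_⟩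
  · rintro _ ⟨z, hz, rfl⟩
    have h1 : (z : G) ∈ cenIn P (D₀.map H.subtype) := ⟨z.2, fun y hy =>
      congrArg Subtype.val (Subgroup.mem_center_iff.1 hz ⟨y, hle.le hy⟩)⟩
    obtain ⟨w, hw, hwz⟩ := hcen h1
    refine ⟨w, ⟨⟨w, hw⟩, Subgroup.mem_center_iff.2 fun y => Subtype.ext (Subtype.ext ?_), rfl⟩, hwz⟩
    have := h1.2 _ ⟨y.1, y.2, rfl⟩
    rw [Subgroup.subtype_apply] at hwz this
    simpa [← hwz] using this
  · exact Subgroup.map_mono (Subgroup.map_subtype_le _)
  · obtain ⟨x, -, rfl⟩ := ((hB.2.1.isDefectGroup_iff hM).1 hD').exists_conj hPD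
    have h1 : conjSub D x ≤ Subgroup.centralizer (conjSub D x : Set G) := by
      rw [centralizer_conjSub]
      exact conjSub_mono (Subgroup.le_centralizer_iff_isMulCommutative.2 hab) x
    have h2 : conjSub D x ≤ D₀.map H.subtype :=
      (le_inf le_rfl (h1.trans (Subgroup.centralizer_le hle.le))).trans hcen
    rw [le_antisymm hle.le h2]
    exact (hB.2.1.isDefectGroup_iff hM).2 hPD

end Cfsg.Agent.S4726
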