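import Cfsg.Statements.S4727
import Cfsg.Agent.Blk.AvgKer
import Cfsg.Agent.Blk.Second

set_option autoImplicit false
open Cfsg

namespace Cfsg.Agent.S4727

/-- Let p be a prime, π a set of primes containing p, M a maximal ideal of the algebraic integers containing p, and B a p-block of the finite group G with defect group D; let B₁ be the block of N_G(D) with defect group D that induces B (the Brauer correspondent of B). Suppose every element of O_π'(N_G(D)), the largest normal subgroup of N_G(D) whose order has no prime divisor in π, lies in the kernel of every member of B₁. If y is a p-element whose centralizer C has a normal Hall π'-subgroup (every element of C whose order has no prime divisor in π lies in O_π'(C)), then χ(y x) = χ(y) for every χ ∈ B and every x ∈ C whose order has no prime divisor in π. -/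
theorem result {G : Type*} [Group G] [Finite G] (p : ℕ) [Fact p.Prime] (M : Ideal Cfsg.AlgInt) (hM : Cfsg.IsPModular p M) (π : Set ℕ) (hpπ : p ∈ π) (B : Set (Cfsg.IrrCharacter G)) (hB : Cfsg.IsPBlock M B) (D : Subgroup G) (hBD : Cfsg.IsDefectGroup p M B D) (B₁ : Set (Cfsg.IrrCharacter ↥(Subgroup.normalizer (D : Set G)))) (hB₁ : Cfsg.IsInducedBlock M (Subgroup.normalizer (D : Set G)) B₁ B) (hB₁D : Cfsg.IsDefectGroup p M B₁ (D.subgroupOf (Subgroup.normalizer (D : Set G)))) (hker : ∀ n : ↥(Subgroup.normalizer (D : Set G)), n ∈ Cfsg.piCore {q | q ∉ π} ↥(Subgroup.normalizer (D : Set G)) → n ∈ Cfsg.blockKer B₁) (y : G) (hy : ∃ k : ℕ, orderOf y = p ^ k) (hC : ∀ x : ↥(Subgroup.centralizer ({y} : Set G)), (∀ q : ℕ, q.Prime → q ∣ orderOf x → q ∉ π) → x ∈ Cfsg.piCore {q | q ∉ π} ↥(Subgroup.centralizer ({y} : Set G))) : ∀ χ ∈ B, ∀ x : G, x ∈ Subgroup.centralizer ({y} : Set G) → (∀ q : ℕ, q.Prime → q ∣ orderOf x → q ∉ π) → (χ : G → ℂ) (y * x) = (χ : G → ℂ) y := by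
  intro χ hχ x hx hπ
  have := Fintype.ofFinite (Subgroup.centralizer ({y} : Set G))
  have hp : p.Prime := Fact.out
  have h1 : ¬ p ∣ orderOf (⟨x, hx⟩ : Subgroup.centralizer ({y} : Set G)) := fun h =>
    hπ p hp (by rwa [← Subgroup.orderOf_coe] at h) hpπ
  have h2 := hB.apply_section hM hy rfl hχ h1
  have h3 := hB.apply_section hM hy rfl hχ (s := 1) (by simpa using hp.ne_one)
  rw [OneMemClass.coe_one, mul_one] at h3
  rw [h2, h3, blockPart_eq_sum, blockPart_eq_sum]
  refine Finset.sum_congr rfl fun ψ hψ => ?_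
  obtain ⟨b, hψb, hb⟩ := mem_irrFinset.1 hψ
  obtain ⟨D₀, hD₀⟩ := hb.1.exists_isDefectGroup hM
  have h4 : (⟨y, self_mem_centralizer_eq rfl⟩ : Subgroup.centralizer ({y} : Set G)) ∈
      Subgroup.center _ := Subgroup.mem_center_iff.2 fun g =>
    Subtype.ext (Subgroup.mem_centralizer_singleton_iff.1 g.2)
  have : (Subgroup.zpowers (⟨y, self_mem_centralizer_eq rfl⟩ :
      Subgroup.centralizer ({y} : Set G))).Normal := ⟨fun n hn g => by
    rwa [Subgroup.mem_center_iff.1 (Subgroup.zpowers_le.2 h4 hn) g, mul_inv_cancel_right]⟩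
  have h5 := hD₀.le_of_normal hM hb.1 (isPGroup_zpowers_of_orderOf hp
    (u := (⟨y, self_mem_centralizer_eq rfl⟩ : Subgroup.centralizer ({y} : Set G)))
    (by simpa [← Subgroup.orderOf_coe] using hy)) (Subgroup.mem_zpowers _)
  rw [hB₁.piCore_le_blockKer_of_normalizer hM (σ := {q | q ∉ π}) (not_not.2 hpπ) hBD hker hb hD₀
    (Subgroup.centralizer_le (Set.singleton_subset_iff.2 ⟨_, h5, rfl⟩)) _
    (hC ⟨x, hx⟩ (by simpa [← Subgroup.orderOf_coe] using hπ)) ψ hψb]

end Cfsg.Agent.S4727
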