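import Cfsg.Statements.S4729
import Cfsg.Agent.Blk.CoverDeg
import Cfsg.Agent.CT.Det

set_option autoImplicit false
open Cfsg

namespace Cfsg.Agent.S4729

/-- Let p be a prime, M a maximal ideal of the algebraic integers containing p, G a finite perfect group and P a Sylow p-subgroup. If the principal p-block of G contains a faithful irreducible character of degree less than 2p, then the centralizer of P is a p-group. -/
theorem result {G : Type*} [Group G] [Finite G] (p : ℕ) [Fact p.Prime] (M : Ideal Cfsg.AlgInt) (hM : Cfsg.IsPModular p M) (hperf : commutator G = ⊤) (P : Sylow p G) (χ : Cfsg.IrrCharacter G) (hχ : χ ∈ Cfsg.principalBlock M G) (hfaith : ∀ g : G, (χ : G → ℂ) g = (χ : G → ℂ) 1 → g = 1) (hdeg : Cfsg.charDegree (χ : G → ℂ) < 2 * p) : IsPGroup p ↥(Subgroup.centralizer ((P : Subgroup G) : Set G)) := by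
  classical
  have hp : p.Prime := Fact.out
  haveI := hM.charP
  set C := Subgroup.centralizer ((P : Subgroup G) : Set G) with hC
  have hidx : ∀ y ∈ C, ¬ p ∣ (Subgroup.centralizer ({y} : Set G)).index := by
    intro y hy hd
    have hle : (P : Subgroup G) ≤ Subgroup.centralizer ({y} : Set G) := by
      intro x hx
      rw [Subgroup.mem_centralizer_singleton_iff]
      exact (Subgroup.mem_centralizer_iff.1 hy x hx)
    exact P.not_dvd_index (hd.trans (Subgroup.index_dvd_of_le hle))
  have key : ∀ y ∈ C, ¬ p ∣ orderOf y → y = 1 := by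
    intro y hy hr
    obtain ⟨ε, h1, h2, -, h4⟩ := χ.isCharacter.exists_eigenvalues y
    have hr0 : orderOf y ≠ 0 := (orderOf_pos y).ne'
    have hdet : ∏ i, ε i = 1 := by
      rw [← h4]
      have h5 := detOrder_dvd_index_commutator χ.1
      rw [hperf, Subgroup.index_top, Nat.dvd_one, detOrder_eq_one_iff] at h5
      exact h5 y
    have hmult : ∀ i, ε i ≠ 1 → p ∣ (Finset.univ.filter fun j => ε j = ε i).card := by
      intro i hi
      have hεi : ε i ≠ 0 := by
        intro h; have := h1 i; rw [h, zero_pow hr0] at this; exact zero_ne_one this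
      have hvi : valM M (ε i) = 1 := valM_eq_one_of_pow_eq_one hr0 (h1 i)
      have hvi' : (ε i)⁻¹ ∈ valO M := inv_mem_valO_of_valM_eq_one hvi
      have hsum : ∑ k ∈ Finset.range (orderOf y), χ.1 (y ^ k) * (ε i)⁻¹ ^ k =
          (orderOf y : ℂ) * ((Finset.univ.filter fun j => ε j = ε i).card : ℂ) := by
        simp only [h2, Finset.sum_mul]
        rw [Finset.sum_comm]
        have h5 : ∀ j, ∑ k ∈ Finset.range (orderOf y), ε j ^ k * (ε i)⁻¹ ^ k =
            (orderOf y : ℂ) * if ε j = ε i then 1 else 0 := by
          intro j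
          simp only [← mul_pow]
          split_ifs with hj
          · simp [hj, hεi]
          · have hne : ε j * (ε i)⁻¹ ≠ 1 := by
              intro h; apply hj; field_simp at h; exact h
            rw [geom_sum_eq hne, mul_pow, inv_pow, h1, h1]; simp
        simp only [h5]
        rw [← Finset.mul_sum, Finset.sum_boole]
      have hred : red M (∑ k ∈ Finset.range (orderOf y), χ.1 (y ^ k) * (ε i)⁻¹ ^ k) = 0 := by
        have hχ1 : χ.1 1 ≠ 0 := χ.one_ne_zero
        have h6 : ∀ k, χ.1 (y ^ k) * (ε i)⁻¹ ^ k ∈ valO M := fun k =>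
          mul_mem (χ.mem_valO _) (pow_mem hvi' _)
        rw [red_sum _ (fun k _ => h6 k)]
        have h7 : ∀ k, red M (χ.1 (y ^ k) * (ε i)⁻¹ ^ k) =
            red M (χ.1 1) * (red M (ε i)⁻¹) ^ k := by
          intro k
          obtain ⟨h8, h9⟩ := hM.red_div_eq_one_of_mem_principalBlock hχ (hidx _ (pow_mem hy k))
          rw [red_mul (χ.mem_valO _) (pow_mem hvi' _), red_pow hvi']
          congr 1
          have : χ.1 (y ^ k) = χ.1 1 * (χ.1 (y ^ k) / χ.1 1) := by field_simp
          rw [this, red_mul (χ.mem_valO _) h8, h9, mul_one]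
        simp only [h7]
        rw [← Finset.mul_sum]
        have hne : red M (ε i)⁻¹ ≠ 1 := by
          intro h
          apply hi
          have := hM.eq_one_of_red_eq_one hr (z := (ε i)⁻¹) (by rw [inv_pow, h1, inv_one]) h
          exact inv_eq_one.1 this
        rw [geom_sum_eq hne, ← red_pow hvi', inv_pow, h1]; simp
      rw [hsum, ← Nat.cast_mul, red_natCast, CharP.cast_eq_zero_iff (resK M) p] at hred
      exact (hp.dvd_mul.1 hred).resolve_left hr
    have hall : ∀ i, ε i = 1 := by
      by_contra hcon
      push Not at hcon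
      obtain ⟨i, hi⟩ := hcon
      set T := Finset.univ.filter fun j => ε j = ε i with hT
      have hTpos : 0 < T.card := Finset.card_pos.2 ⟨i, by simp [hT]⟩
      have hTle : p ≤ T.card := Nat.le_of_dvd hTpos (hmult i hi)
      have hother : ∀ j, ε j ≠ ε i → ε j = 1 := by
        intro j hj
        by_contra hj1
        set T' := Finset.univ.filter fun l => ε l = ε j with hT'
        have hT'pos : 0 < T'.card := Finset.card_pos.2 ⟨j, by simp [hT']⟩
        have hT'le : p ≤ T'.card := Nat.le_of_dvd hT'pos (hmult j hj1)
        have hdisj : Disjoint T T' := by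
          rw [Finset.disjoint_left]
          intro l hl hl'
          simp only [hT, hT', Finset.mem_filter, Finset.mem_univ, true_and] at hl hl'
          exact hj (hl'.symm.trans hl)
        have := Finset.card_le_univ (T ∪ T')
        rw [Finset.card_union_of_disjoint hdisj, Fintype.card_fin] at this
        omega
      have hTcard : T.card = p := by
        obtain ⟨c, hc⟩ := hmult i hi
        have h8 := Finset.card_le_univ T
        rw [Fintype.card_fin] at h8
        have hc' : T.card = p * c := hc
        have : c < 2 := by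
          by_contra h9
          have : p * 2 ≤ p * c := Nat.mul_le_mul_left _ (by omega)
          omega
        have : c ≠ 0 := by rintro rfl; omega
        have : c = 1 := by omega
        rw [hc', this, mul_one]
      have hprod : ∏ j, ε j = ε i ^ p := by
        rw [← Finset.prod_filter_mul_prod_filter_not Finset.univ (fun j => ε j = ε i)]
        rw [Finset.prod_congr rfl (fun j hj => (Finset.mem_filter.1 hj).2), Finset.prod_const,
          Finset.prod_eq_one (fun j hj => hother j (Finset.mem_filter.1 hj).2), mul_one]
        rw [← hT, hTcard]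
      rw [hprod] at hdet
      apply hi
      have hcop : Nat.Coprime p (orderOf y) := (Nat.Prime.coprime_iff_not_dvd hp).2 hr
      have := pow_gcd_eq_one.2 ⟨hdet, h1 i⟩
      rwa [hcop, pow_one] at this
    apply hfaith
    have h5 := h2 1
    have h6 := h2 0
    simp only [pow_one, pow_zero, hall] at h5 h6
    rw [h5, h6]
  intro y
  have hy0 : orderOf (y : G) ≠ 0 := (orderOf_pos _).ne'
  refine ⟨(orderOf (y : G)).factorization p, ?_⟩
  apply Subtype.ext
  rw [Subgroup.coe_pow, Subgroup.coe_one]
  apply key _ (pow_mem y.2 _)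
  rw [orderOf_pow_of_dvd (pow_ne_zero _ hp.ne_zero) (Nat.ordProj_dvd _ _)]
  exact Nat.not_dvd_ordCompl hp hy0

end Cfsg.Agent.S4729
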