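import Cfsg.Statements.S4730
import Cfsg.Agent.Blk.Basic
import Cfsg.Agent.CT.Burnside

set_option autoImplicit false
open Cfsg

namespace Cfsg.Agent.S4730

/-- Let p be a prime, M a maximal ideal of the algebraic integers containing p, and G a finite group with trivial centre, Sylow p-subgroup P of order p^a and centre Z(P) of order p^b. If χ is a faithful irreducible character of G whose degree is a power of p, then the p-block of χ has defect at most a − b; in particular, if P is abelian then χ lies in a block of defect zero. -/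
theorem result {G : Type*} [Group G] [Finite G] (p : ℕ) [Fact p.Prime] (M : Ideal Cfsg.AlgInt) (hM : Cfsg.IsPModular p M) (hZ : Subgroup.center G = ⊥) (P : Sylow p G) (a b : ℕ) (ha : Nat.card P = p ^ a) (hb : Nat.card (Subgroup.center ↥(P : Subgroup G)) = p ^ b) (χ : Cfsg.IrrCharacter G) (hfaith : ∀ g : G, (χ : G → ℂ) g = (χ : G → ℂ) 1 → g = 1) (n : ℕ) (hdeg : Cfsg.charDegree (χ : G → ℂ) = p ^ n) : Cfsg.blockDefect p (Cfsg.blockOf M (χ : G → ℂ)) ≤ a - b ∧ (IsMulCommutative ↥(P : Subgroup G) → Cfsg.blockDefect p (Cfsg.blockOf M (χ : G → ℂ)) = 0) := by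
  classical
  have hp : p.Prime := Fact.out
  have := hM.charP
  set Z := Subgroup.center ↥(P : Subgroup G) with hZdef
  have hidx : ∀ z : Z, ¬ p ∣ (Subgroup.centralizer ({((z : P) : G)} : Set G)).index := by
    intro z hd
    have hle : (P : Subgroup G) ≤ Subgroup.centralizer ({((z : P) : G)} : Set G) := by
      intro x hx
      rw [Subgroup.mem_centralizer_singleton_iff]
      exact congrArg Subtype.val (Subgroup.mem_center_iff.1 z.2 ⟨x, hx⟩)
    exact P.not_dvd_index (hd.trans (Subgroup.index_dvd_of_le hle))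
  have hvan : ∀ z : Z, z ≠ 1 → χ.1 ((z : P) : G) = 0 := by
    intro z hz
    have hcop : (charDegree χ.1).Coprime (Subgroup.centralizer ({((z : P) : G)} : Set G)).index := by
      rw [hdeg]
      exact Nat.Coprime.pow_left _ ((Nat.Prime.coprime_iff_not_dvd hp).2 (hidx z))
    rcases χ.eq_zero_or_mem_charCenter_of_coprime hcop with h | h
    · exact h
    · exfalso
      rw [χ.charCenter_eq_center_of_faithful (χ.charKer_eq_bot_iff.2 hfaith), hZ,
        Subgroup.mem_bot] at h
      exact hz (Subtype.ext (Subtype.ext h))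
  have hdiv : ∀ ψ ∈ blockOf M χ.1, b ≤ (charDegree ψ.1).factorization p := by
    intro ψ hψ
    have hsame := (hM.sameBlock_iff_red χ ψ).1 hψ
    have hψ1 : ψ.1 1 ≠ 0 := ψ.one_ne_zero
    have h1 : ∀ z : Z, ψ.1 ((z : P) : G) / ψ.1 1 ∈ valO M ∧
        red M (ψ.1 ((z : P) : G) / ψ.1 1) = if z = 1 then 1 else 0 := by
      intro z
      split_ifs with hz
      · subst hz
        simp [hψ1]
      · have h2 := hM.valM_natCast_eq_one_iff.2 (hidx z)
        have h3 : ((Subgroup.centralizer ({((z : P) : G)} : Set G)).index : ℂ) ≠ 0 :=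
          Nat.cast_ne_zero.2 Subgroup.index_ne_zero_of_finite
        have h4 : ψ.1 ((z : P) : G) / ψ.1 1 = centralChar ψ.1 ((z : P) : G) /
            ((Subgroup.centralizer ({((z : P) : G)} : Set G)).index : ℂ) := by
          rw [centralChar]; field_simp
        rw [h4, red_div (centralChar_mem_valO ψ _) h2, ← hsame]
        refine ⟨div_mem_valO_of_valM_eq_one (centralChar_mem_valO ψ _) h2, ?_⟩
        rw [centralChar, hvan z hz]; simp
    letI : Fintype Z := Fintype.ofFinite Z
    obtain ⟨m, hm⟩ := (ψ.isCharacter.comp ((P : Subgroup G).subtype.comp Z.subtype)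
      ).exists_classInner_eq_nat IsCharacter.one
    rw [classInner_def] at hm
    simp only [map_one, mul_one, MonoidHom.comp_apply, Subgroup.subtype_apply] at hm
    have hZ0 : (Nat.card Z : ℂ) ≠ 0 := Nat.cast_ne_zero.2 Nat.card_pos.ne'
    have hsum : ∑ z : Z, ψ.1 ((z : P) : G) / ψ.1 1 = ((p ^ b * m : ℕ) : ℂ) / ψ.1 1 := by
      rw [← Finset.sum_div]
      congr 1
      rw [Nat.cast_mul, ← hm, ← hb]; field_simp
    have hred : red M (∑ z : Z, ψ.1 ((z : P) : G) / ψ.1 1) = 1 := by
      rw [red_sum _ (fun z _ => (h1 z).1)]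
      simp only [fun z => (h1 z).2]
      simp
    have hval : valM M (((p ^ b * m : ℕ) : ℂ) / ψ.1 1) = 1 := by
      rw [← hsum, ← red_ne_zero_iff, hred]; exact one_ne_zero
    have hd0 : charDegree ψ.1 ≠ 0 := ψ.charDegree_pos.ne'
    have hm0 : p ^ b * m ≠ 0 := by
      intro h; rw [h] at hval; simp at hval
    have hmem : ((charDegree ψ.1 : ℂ) / ((p ^ b * m : ℕ) : ℂ)) ∈ valO M := by
      have := inv_mem_valO_of_valM_eq_one hval
      rwa [inv_div, ψ.one_eq_charDegree] at this
    rw [hM.natCast_div_mem_iff hd0 hm0] at hmem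
    refine le_trans ?_ hmem
    rw [Nat.factorization_mul (left_ne_zero_of_mul hm0) (right_ne_zero_of_mul hm0)]
    simp [hp.factorization_pow]
  have hmain : blockDefect p (blockOf M χ.1) ≤ a - b := by
    have ha' : (Nat.card G).factorization p = a := by
      have h1 := P.card_eq_multiplicity
      rw [ha] at h1
      exact (Nat.pow_right_injective hp.two_le h1).symm
    rw [blockDefect, ha']
    apply Nat.sub_le_sub_left
    apply le_csInf
    · exact ⟨_, χ, hM.mem_blockOf_self χ, rfl⟩
    · rintro _ ⟨ψ, hψ, rfl⟩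
      exact hdiv ψ hψ
  refine ⟨hmain, fun hc => ?_⟩
  have h1 : Z = ⊤ := Subgroup.center_eq_top_iff.2 hc
  rw [h1, Subgroup.card_top, ha] at hb
  have := Nat.pow_right_injective hp.two_le hb
  omega

end Cfsg.Agent.S4730
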