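import Cfsg.Statements.S4732
import Cfsg.Agent.CT.JordanMod

set_option autoImplicit false
universe u v
open Cfsg

namespace Cfsg.Agent.S4732

/-- Let p be a prime. There is a function f of two natural-number arguments such that every finite group G admitting a faithful representation of degree n over a field of characteristic p, with Sylow p-subgroups of order p^m, has a normal abelian subgroup A with [G : A] < f(m, n). -/
theorem result (p : ℕ) [Fact p.Prime] : ∃ f : ℕ → ℕ → ℕ, ∀ (G : Type u) [Group G] [Finite G] (F : Type v) [Field F] [CharP F p] (n : ℕ) (ρ : Representation F G (Fin n → F)), Function.Injective ρ → ∀ m : ℕ, (Nat.card G).factorization p = m → ∃ A : Subgroup G, A.Normal ∧ IsMulCommutative A ∧ A.index < f m n := by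
  choose J hJ using fun m n => exists_modJordanBound.{u, v, v} p m n
  refine ⟨fun m n => J m n + 1, fun G _ _ F _ _ n ρ hinj m hm => ?_⟩
  let K := AlgebraicClosure F
  let ρ' : Representation K G (Fin n → K) :=
    (Matrix.toLinAlgEquiv' (R := K) (n := Fin n)).toMonoidHom.comp
      ((RingHom.mapMatrix (m := Fin n) (algebraMap F K)).toMonoidHom.comp
        ((LinearMap.toMatrixAlgEquiv' (R := F) (n := Fin n)).toMonoidHom.comp ρ))
  have hinj' : Function.Injective ρ' := by
    intro x y h
    apply hinj
    apply (LinearMap.toMatrixAlgEquiv' (R := F) (n := Fin n)).injective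
    have h1 := (Matrix.toLinAlgEquiv' (R := K) (n := Fin n)).injective h
    exact Matrix.map_injective (algebraMap F K).injective h1
  obtain ⟨A, h1, h2, h3⟩ := hJ m n G K (Fin n → K) ρ' (by simp) hm.le hinj'
  exact ⟨A, h1, ⟨⟨fun x y => Subtype.ext (h2 y.2 x x.2)⟩⟩, Nat.lt_succ_of_le h3⟩

end Cfsg.Agent.S4732
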