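import Cfsg.Statements.S4735
import Cfsg.Agent.Blk.RankQuot
import Cfsg.Agent.Blk.BlockGalois

set_option autoImplicit false
open Cfsg

namespace Cfsg.Agent.S4735

/-- Let p be a prime, M a maximal ideal of the algebraic integers containing p, G a finite group, H = O_p'(G) and Ḡ = G/H. For x ∈ G write λ(G, x) for the sum of |χ(x)|^2 over the irreducible characters χ in the principal p-block of G. Then λ(G, x) is a positive integer, λ(G, x) = λ(Ḡ, x̄) where x̄ is the image of x, and λ(G, x) ≤ #C_Ḡ(x̄). Moreover λ(G, 1) = [G : H] if and only if the principal block is the only p-block of Ḡ. -/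
theorem result {G : Type*} [Group G] [Finite G] (p : ℕ) [Fact p.Prime] (M : Ideal Cfsg.AlgInt) (hM : Cfsg.IsPModular p M) (x : G) : (∃ n : ℕ, 0 < n ∧ ∑ᶠ χ ∈ Cfsg.principalBlock M G, Complex.normSq ((χ : G → ℂ) x) = n) ∧ ∑ᶠ χ ∈ Cfsg.principalBlock M G, Complex.normSq ((χ : G → ℂ) x) = ∑ᶠ ψ ∈ Cfsg.principalBlock M (G ⧸ Cfsg.pPrimeCore p G), Complex.normSq ((ψ : G ⧸ Cfsg.pPrimeCore p G → ℂ) (QuotientGroup.mk x)) ∧ ∑ᶠ χ ∈ Cfsg.principalBlock M G, Complex.normSq ((χ : G → ℂ) x) ≤ (Nat.card ↥(Subgroup.centralizer ({(QuotientGroup.mk x : G ⧸ Cfsg.pPrimeCore p G)} : Set (G ⧸ Cfsg.pPrimeCore p G))) : ℝ) ∧ ((∑ᶠ χ ∈ Cfsg.principalBlock M G, Cfsg.charDegree (χ : G → ℂ) ^ 2) = (Cfsg.pPrimeCore p G).index ↔ ∀ B : Set (Cfsg.IrrCharacter (G ⧸ Cfsg.pPrimeCore p G)), Cfsg.IsPBlock M B → B = Cfsg.principalBlock M (G ⧸ Cfsg.pPrimeCore p G)) := by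
  classical
  have hk : ¬ p ∣ Nat.card (QuotientGroup.mk' (pPrimeCore p G)).ker := by
    rw [QuotientGroup.ker_mk']; exact not_dvd_card_pPrimeCore p
  have hB := hM.principalBlock_eq_image_comap _ (QuotientGroup.mk'_surjective (pPrimeCore p G)) hk
  have hinj := IrrCharacter.comap_injective _ (QuotientGroup.mk'_surjective (pPrimeCore p G))
  have h2 : ∑ᶠ χ ∈ principalBlock M G, Complex.normSq (χ.1 x) =
      ∑ᶠ ψ ∈ principalBlock M (G ⧸ pPrimeCore p G), Complex.normSq (ψ.1 (QuotientGroup.mk x)) := by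
    rw [hB, finsum_mem_image hinj.injOn]; rfl
  refine ⟨?_, h2, ?_, ?_⟩
  · obtain ⟨n, hn, h⟩ := hM.exists_sum_principalBlock_mul_conj_eq_nat x
    refine ⟨n, hn, ?_⟩
    rw [finsum_mem_irr]
    apply Complex.ofReal_injective
    rw [Complex.ofReal_natCast, ← h, Complex.ofReal_sum]
    simp only [Complex.mul_conj]
  · have h3 := sum_irr_mul_conj (QuotientGroup.mk x : G ⧸ pPrimeCore p G) (QuotientGroup.mk x)
    rw [if_pos (IsConj.refl _)] at h3
    simp only [Complex.mul_conj] at h3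
    rw [← Complex.ofReal_sum, ← Complex.ofReal_natCast, Complex.ofReal_inj] at h3
    rw [h2, finsum_mem_irr, ← h3]
    exact Finset.sum_le_sum_of_subset_of_nonneg (Finset.subset_univ _)
      fun _ _ _ => Complex.normSq_nonneg _
  · have h3 : (∑ᶠ χ ∈ principalBlock M G, charDegree χ.1 ^ 2) =
        ∑ ψ ∈ irrFinset (principalBlock M (G ⧸ pPrimeCore p G)), charDegree ψ.1 ^ 2 := by
      rw [hB, finsum_mem_image hinj.injOn, finsum_mem_irr]
      simp only [IrrCharacter.charDegree_comap]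
    rw [h3, Subgroup.index, ← sum_charDegree_sq]
    constructor
    · intro h B hB'
      obtain ⟨χ, hχ⟩ := hB'.nonempty hM
      refine hB'.eq_of_mem hM isPBlock_principalBlock hχ ?_
      by_contra h4
      exact (Finset.sum_lt_sum_of_subset (Finset.subset_univ _) (Finset.mem_univ χ)
        (fun h5 => h4 (mem_irrFinset.1 h5)) (pow_pos χ.charDegree_pos 2)
        fun _ _ _ => Nat.zero_le _).ne h
    · intro h
      refine Finset.sum_congr (Finset.eq_univ_of_forall fun χ => mem_irrFinset.2 ?_) fun _ _ => rfl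
      rw [← h _ (isPBlock_blockOf χ)]
      exact hM.mem_blockOf_self χ

end Cfsg.Agent.S4735
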