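import Cfsg.Statements.S4736
import Cfsg.Agent.CT.ItoPSolv
import Cfsg.Agent.Blk.Fong

set_option autoImplicit false
open Cfsg

namespace Cfsg.Agent.S4736

/-- Let p be a prime, M a maximal ideal of the algebraic integers containing p, and G a finite p-solvable group with Sylow p-subgroup P. Then P is abelian if and only if every irreducible character in the principal p-block of G has height zero. -/
theorem result {G : Type*} [Group G] [Finite G] (p : ℕ) [Fact p.Prime] (M : Ideal Cfsg.AlgInt) (hM : Cfsg.IsPModular p M) (hsolv : Cfsg.IsPSolvable p G) (P : Sylow p G) : IsMulCommutative P ↔ ∀ χ ∈ Cfsg.principalBlock M G, Cfsg.blockHeight p (Cfsg.principalBlock M G) (χ : G → ℂ) = 0 := by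
  have hfull : blockDefect p (principalBlock M G) = (Nat.card G).factorization p :=
    blockDefect_eq_of_not_dvd hM.triv_mem_principalBlock (by
      rw [charDegree_eq_of_one_eq (n := 1) (by simp)]
      exact (Fact.out : p.Prime).not_dvd_one)
  set K := pPrimeCore p G
  let Q := P.mapSurjective (QuotientGroup.mk'_surjective K)
  obtain ⟨e⟩ := nonempty_sylow_mulEquiv_of_not_dvd_ker (QuotientGroup.mk' K)
    (QuotientGroup.mk'_surjective K) (by
      rw [QuotientGroup.ker_mk']; exact not_dvd_card_pPrimeCore p) P Q
  have key : (∀ χ ∈ principalBlock M G, blockHeight p (principalBlock M G) χ.1 = 0) ↔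
      ∀ β : IrrCharacter (G ⧸ K), ¬ p ∣ charDegree β.1 := by
    constructor
    · intro h β h1
      have h2 := (hsolv.mem_principalBlock_iff hM _).2 (β.le_charKer_inflate K)
      have h3 := h _ h2
      rw [blockHeight_eq_of_full hfull h2] at h3
      exact ((Fact.out : p.Prime).factorization_pos_of_dvd (β.inflate K).charDegree_pos.ne'
        h1).ne' h3
    · intro h χ hχ
      rw [blockHeight_eq_of_full hfull hχ]
      obtain ⟨β, rfl⟩ := χ.exists_inflate_eq K ((hsolv.mem_principalBlock_iff hM _).1 hχ)
      exact Nat.factorization_eq_zero_of_not_dvd (h β)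
  rw [key]
  constructor
  · intro h
    have h1 : IsMulCommutative (Q : Subgroup (G ⧸ K)) := ⟨⟨fun a b => by
      obtain ⟨a, rfl⟩ := e.surjective a
      obtain ⟨b, rfl⟩ := e.surjective b
      rw [← map_mul, ← map_mul, h.is_comm.comm]⟩⟩
    exact not_dvd_charDegree_of_normal_comm_sylow Q ((hsolv.quotient K).sylow_normal_of_comm
      (pPrimeCore_quotient_pPrimeCore p) Q h1) h1
  · intro h
    have h1 := (hsolv.quotient K).sylow_comm_of_forall_not_dvd h Q
    exact ⟨⟨fun a b => e.injective (by rw [map_mul, map_mul, h1.is_comm.comm])⟩⟩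

end Cfsg.Agent.S4736
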